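-- helper13: maximal subgroups of SU_n(q) by the transvection-centre closure method (basics).
import Mathlib
import Cfsg.Prelude.Def_GeometricClasses
import Cfsg.Agent.Lib.Helper13.SUGen3
import Cfsg.Agent.Lib.Helper13.PSUSimple

set_option autoImplicit false

namespace Cfsg.Agent.Lib.Helper13

open Matrix Cfsg.Agent.Lib.Helper45 Cfsg.Agent.Lib.Helper44

section SUMax

set_option linter.unusedSectionVars false

variable {F : Type*} [Field F] [Fintype F] {q : ℕ} {n : ℕ}

/-- `SU_n(q)` inside `GL_n`. -/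
abbrev suGL (n : ℕ) (F : Type*) [Field F] (q : ℕ) : Subgroup (GL (Fin n) F) :=
  Cfsg.GU n F q ⊓ Cfsg.Geo.specialLinear (Fin n) F

theorem mem_suGL_iff (g : GL (Fin n) F) :
    g ∈ suGL n F q ↔ IsHermIso n F q (g : Matrix (Fin n) (Fin n) F) ∧
      (g : Matrix (Fin n) (Fin n) F).det = 1 := by
  rw [Subgroup.mem_inf]
  refine and_congr Iff.rfl ?_
  unfold Cfsg.Geo.specialLinear
  rw [MonoidHom.mem_ker]
  constructor
  · intro h
    have := congrArg Units.val h
    rwa [Matrix.GeneralLinearGroup.val_det_apply] at this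
  · intro h
    ext
    rw [Matrix.GeneralLinearGroup.val_det_apply, h]
    rfl

/-- the element of `GL` with a given matrix of determinant 1. -/
noncomputable def glOfDet (M : Matrix (Fin n) (Fin n) F) (h : M.det = 1) : GL (Fin n) F :=
  Matrix.GeneralLinearGroup.mkOfDetNeZero M (by rw [h]; exact one_ne_zero)

theorem glOfDet_val (M : Matrix (Fin n) (Fin n) F) (h : M.det = 1) :
    ((glOfDet M h : GL (Fin n) F) : Matrix (Fin n) (Fin n) F) = M := rfl

theorem glOfDet_mem_suGL (M : Matrix (Fin n) (Fin n) F) (h : M.det = 1)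
    (hi : IsHermIso n F q M) : glOfDet M h ∈ suGL n F q := by
  rw [mem_suGL_iff]
  exact ⟨hi, h⟩

theorem gl_mulVec_inv (g : GL (Fin n) F) (x : Fin n → F) :
    (g : Matrix (Fin n) (Fin n) F) *ᵥ (((g⁻¹ : GL (Fin n) F) : Matrix (Fin n) (Fin n) F) *ᵥ x)
      = x := by
  rw [Matrix.mulVec_mulVec, ← Units.val_mul, mul_inv_cancel, Units.val_one, Matrix.one_mulVec]

theorem gl_inv_mulVec (g : GL (Fin n) F) (x : Fin n → F) :
    ((g⁻¹ : GL (Fin n) F) : Matrix (Fin n) (Fin n) F) *ᵥ ((g : Matrix (Fin n) (Fin n) F) *ᵥ x)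
      = x := by
  rw [Matrix.mulVec_mulVec, ← Units.val_mul, inv_mul_cancel, Units.val_one, Matrix.one_mulVec]

/-- a matrix mapping a set into itself stabilises it (finite field). -/
theorem mem_stab_of_mapsTo (g : GL (Fin n) F) (S : Set (Fin n → F))
    (h : ∀ v ∈ S, (g : Matrix (Fin n) (Fin n) F) *ᵥ v ∈ S) :
    g ∈ Cfsg.stabilizing (Cfsg.glToMat (Fin n) F) S := by
  show ∀ v, v ∈ S ↔ (g : Matrix (Fin n) (Fin n) F) *ᵥ v ∈ S
  intro v
  refine ⟨h v, fun hv => ?_⟩
  have hinjg : ∀ a b : Fin n → F, (g : Matrix (Fin n) (Fin n) F) *ᵥ a =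
      (g : Matrix (Fin n) (Fin n) F) *ᵥ b → a = b := by
    intro a b hab
    have := congrArg (fun t => ((g⁻¹ : GL (Fin n) F) : Matrix (Fin n) (Fin n) F) *ᵥ t) hab
    simpa only [gl_inv_mulVec] using this
  let f : S → S := fun s => ⟨(g : Matrix (Fin n) (Fin n) F) *ᵥ s.1, h s.1 s.2⟩
  have hinj : Function.Injective f := by
    intro a b hab
    have := congrArg Subtype.val hab
    exact Subtype.ext (hinjg _ _ this)
  have hsurj : Function.Surjective f := Finite.surjective_of_injective hinj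
  obtain ⟨s, hs⟩ := hsurj ⟨_, hv⟩
  have := congrArg Subtype.val hs
  have hsv : s.1 = v := hinjg _ _ this
  rw [← hsv]
  exact s.2

theorem isHermIso_gl_inv {g : GL (Fin n) F}
    (hg : IsHermIso n F q (g : Matrix (Fin n) (Fin n) F)) :
    IsHermIso n F q ((g⁻¹ : GL (Fin n) F) : Matrix (Fin n) (Fin n) F) := by
  intro u v
  rw [← hg, gl_mulVec_inv, gl_mulVec_inv]

/-- `v` is a centre for `M`: isotropic with all its isometric transvections in `M`. -/
def IsCtr (q : ℕ) (M : Subgroup (GL (Fin n) F)) (v : Fin n → F) : Prop :=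
  Cfsg.hermForm n F q v v = 0 ∧ ∀ c : F, c ^ q = -c → ∀ g : GL (Fin n) F,
    (g : Matrix (Fin n) (Fin n) F) = Cfsg.unitaryTransvection n q v c → g ∈ M

theorem suGL_le_of_ctr (hF : Fintype.card F = q ^ 2) (hn : 4 ≤ n ∨ 3 ≤ q)
    (M : Subgroup (GL (Fin n) F))
    (h : ∀ v : Fin n → F, Cfsg.hermForm n F q v v = 0 → IsCtr q M v) : suGL n F q ≤ M := by
  intro g hg
  rw [mem_suGL_iff] at hg
  have hT := su_inT hF n hn _ hg.1 hg.2
  have key : ∀ A : Matrix (Fin n) (Fin n) F, InT n F q A → ∀ g : GL (Fin n) F,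
      (g : Matrix (Fin n) (Fin n) F) = A → g ∈ M := by
    intro A hA
    refine Submonoid.closure_induction (motive := fun A _ => ∀ g : GL (Fin n) F,
      (g : Matrix (Fin n) (Fin n) F) = A → g ∈ M) ?_ ?_ ?_ hA
    · rintro x ⟨v, c, hv, hc, rfl⟩ g hg
      exact (h v hv).2 c hc g hg
    · intro g hg
      have : g = 1 := Units.ext hg
      rw [this]
      exact M.one_mem
    · intro A B hA hB ihA ihB g hg
      have dA := (inT_iso_det hF hA).2
      have dB := (inT_iso_det hF hB).2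
      have : g = glOfDet A dA * glOfDet B dB := Units.ext (by rw [hg]; rfl)
      rw [this]
      exact M.mul_mem (ihA _ rfl) (ihB _ rfl)
  exact key _ hT g rfl

theorem isCtr_zero (hF : Fintype.card F = q ^ 2) (M : Subgroup (GL (Fin n) F)) :
    IsCtr q M (0 : Fin n → F) := by
  refine ⟨herm_zero_left hF n 0, fun c _ g hg => ?_⟩
  rw [utransv_zero_left] at hg
  have : g = 1 := Units.ext hg
  rw [this]
  exact M.one_mem

theorem isCtr_mulVec (M : Subgroup (GL (Fin n) F)) (k : GL (Fin n) F) (hk : k ∈ M)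
    (hki : IsHermIso n F q (k : Matrix (Fin n) (Fin n) F)) {v : Fin n → F}
    (hv : IsCtr q M v) : IsCtr q M ((k : Matrix (Fin n) (Fin n) F) *ᵥ v) := by
  refine ⟨by rw [hki, hv.1], fun c hc g hg => ?_⟩
  have dT := det_utransv v c hv.1
  have hT : glOfDet _ dT ∈ M := hv.2 c hc _ rfl
  have : g = k * glOfDet _ dT * k⁻¹ := by
    rw [eq_mul_inv_iff_mul_eq]
    apply Units.ext
    rw [Units.val_mul, Units.val_mul, hg]
    exact (utransv_conj hki v c).symm
  rw [this]
  exact M.mul_mem (M.mul_mem hk hT) (M.inv_mem hk)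

theorem isCtr_smul (hF : Fintype.card F = q ^ 2) (M : Subgroup (GL (Fin n) F)) (a : F)
    {v : Fin n → F} (hv : IsCtr q M v) : IsCtr q M (a • v) := by
  refine ⟨by rw [herm_smul_left, herm_smul_right, hv.1, mul_zero, mul_zero],
    fun c hc g hg => ?_⟩
  rw [utransv_smul] at hg
  refine hv.2 _ ?_ g hg
  rw [mul_pow, norm_fixed hF, hc]
  ring

theorem isCtr_transv (hF : Fintype.card F = q ^ 2) (M : Subgroup (GL (Fin n) F))
    {u v : Fin n → F} (hu : IsCtr q M u) (hv : IsCtr q M v) (c : F) (hc : c ^ q = -c) :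
    IsCtr q M (u + (c * Cfsg.hermForm n F q u v) • v) := by
  have dT := det_utransv v c hv.1
  have hT : glOfDet _ dT ∈ M := hv.2 c hc _ rfl
  have := isCtr_mulVec M _ hT (isHermIso_utransv hF v c hv.1 hc) hu
  rwa [glOfDet_val, utransv_mulVec] at this

/-- every linear functional is `x ↦ h(x, y)`. -/
theorem exists_herm_repr (hF : Fintype.card F = q ^ 2) (φ : (Fin n → F) →ₗ[F] F) :
    ∃ y : Fin n → F, ∀ x, Cfsg.hermForm n F q x y = φ x := by
  classical
  refine ⟨fun i => φ (fun j => if i = j then 1 else 0) ^ q, fun x => ?_⟩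
  rw [LinearMap.pi_apply_eq_sum_univ φ x, herm_def]
  refine Finset.sum_congr rfl fun i _ => ?_
  rw [conj_conj hF, smul_eq_mul]

/-- a vector outside a subspace is separated from it by a vector of the perp. -/
theorem exists_perp_sep (hF : Fintype.card F = q ^ 2) (W : Submodule F (Fin n → F))
    (x : Fin n → F) (hx : x ∉ W) :
    ∃ y : Fin n → F, (∀ w ∈ W, Cfsg.hermForm n F q w y = 0) ∧ Cfsg.hermForm n F q x y ≠ 0 := by
  obtain ⟨φ, hφx, hφW⟩ := Submodule.exists_le_ker_of_notMem hx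
  obtain ⟨y, hy⟩ := exists_herm_repr (q := q) hF φ
  refine ⟨y, fun w hw => ?_, ?_⟩
  · rw [hy]
    exact LinearMap.mem_ker.mp (hφW hw)
  · rw [hy]
    exact hφx

theorem herm_swap_zero (hF : Fintype.card F = q ^ 2) {u v : Fin n → F}
    (h : Cfsg.hermForm n F q u v = 0) : Cfsg.hermForm n F q v u = 0 := by
  rw [← herm_conj hF, h, conj_zero hF]

theorem herm_swap_ne (hF : Fintype.card F = q ^ 2) {u v : Fin n → F}
    (h : Cfsg.hermForm n F q u v ≠ 0) : Cfsg.hermForm n F q v u ≠ 0 :=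
  fun h' => h (herm_swap_zero hF h')

/-- if `x, v` are centres with `h(x,v) ≠ 0` and `M` contains all Siegel elements at `v`
 then every isotropic vector is a centre. -/
theorem ctr_all_of_siegel (hF : Fintype.card F = q ^ 2) (M : Subgroup (GL (Fin n) F))
    (x v : Fin n → F) (hx : IsCtr q M x) (hv : IsCtr q M v)
    (hxv : Cfsg.hermForm n F q x v ≠ 0)
    (hS : ∀ (w : Fin n → F) (c : F), Cfsg.hermForm n F q w v = 0 →
      c + c ^ q + Cfsg.hermForm n F q w w = 0 → ∀ g : GL (Fin n) F,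
      (g : Matrix (Fin n) (Fin n) F) = siegel q v w c → g ∈ M)
    (z : Fin n → F) (hz : Cfsg.hermForm n F q z z = 0) : IsCtr q M z := by
  classical
  have hv0 : v ≠ 0 := by
    rintro rfl
    exact hxv (herm_zero_right hF n x)
  -- Step D
  have hD : ∀ z : Fin n → F, Cfsg.hermForm n F q z z = 0 → Cfsg.hermForm n F q z v ≠ 0 →
      IsCtr q M z := by
    intro z hz hzv
    obtain ⟨κ, hκ⟩ : ∃ κ, Cfsg.hermForm n F q x v = κ := ⟨_, rfl⟩
    have hκ0 : κ ≠ 0 := hκ ▸ hxv
    have hz' : Cfsg.hermForm n F q ((κ / Cfsg.hermForm n F q z v) • z) v = κ := by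
      rw [herm_smul_left, div_mul_cancel₀ _ hzv]
    have hz'z' : Cfsg.hermForm n F q x x = Cfsg.hermForm n F q
        ((κ / Cfsg.hermForm n F q z v) • z) ((κ / Cfsg.hermForm n F q z v) • z) := by
      rw [hx.1, herm_smul_left, herm_smul_right, hz, mul_zero, mul_zero]
    obtain ⟨w, c, hwv, hc, hmap, -⟩ := siegel_map hF v x _ κ hκ0 hv.1 hκ hz' hz'z'
    have hdet : (siegel q v w c).det = 1 := det_siegel v w c hv.1 hwv (herm_swap_zero hF hwv)
    have hE : glOfDet _ hdet ∈ M := hS w c hwv hc _ rfl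
    have h1 := isCtr_mulVec M _ hE (isHermIso_siegel hF v w c hv.1 hwv hc) hx
    rw [glOfDet_val, hmap] at h1
    have h2 := isCtr_smul hF M (Cfsg.hermForm n F q z v / κ) h1
    have e : Cfsg.hermForm n F q z v / κ * (κ / Cfsg.hermForm n F q z v) = 1 := by
      field_simp
    rwa [smul_smul, e, one_smul] at h2
  by_cases hz0 : z = 0
  · rw [hz0]
    exact isCtr_zero hF M
  by_cases hzv : Cfsg.hermForm n F q z v ≠ 0
  · exact hD z hz hzv
  push Not at hzv
  have hvz : Cfsg.hermForm n F q v z = 0 := herm_swap_zero hF hzv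
  obtain ⟨u, hu, hvu, huz⟩ := exists_isotropic_nonperp hF v z hv0 hz0 hv.1 hvz
  have huv : Cfsg.hermForm n F q u v ≠ 0 := herm_swap_ne hF hvu
  have hzu : Cfsg.hermForm n F q z u ≠ 0 := herm_swap_ne hF huz
  have huC := hD u hu huv
  obtain ⟨i, hi0, hi⟩ := exists_skew hF
  obtain ⟨t, ht⟩ : ∃ t, t = i / Cfsg.hermForm n F q u z := ⟨_, rfl⟩
  have ht0 : t ≠ 0 := by rw [ht]; exact div_ne_zero hi0 huz
  have hu' : Cfsg.hermForm n F q (z + t • u) (z + t • u) = 0 := by
    simp only [herm_add_left, herm_add_right hF, herm_smul_left, herm_smul_right, hz, hu,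
      mul_zero, add_zero, zero_add]
    have e1 : t * Cfsg.hermForm n F q u z = i := by rw [ht, div_mul_cancel₀ _ huz]
    have e2 : t ^ q * Cfsg.hermForm n F q z u = -i := by
      rw [← herm_conj hF n u z, ← mul_pow, e1, hi]
    rw [e1, e2]
    ring
  have hu'v : Cfsg.hermForm n F q (z + t • u) v ≠ 0 := by
    rw [herm_add_left, herm_smul_left, hzv, zero_add]
    exact mul_ne_zero ht0 huv
  have hu'C := hD _ hu' hu'v
  -- z = T_{u,c} u'
  have hu'u : Cfsg.hermForm n F q (z + t • u) u = Cfsg.hermForm n F q z u := by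
    rw [herm_add_left, herm_smul_left, hu, mul_zero, add_zero]
  obtain ⟨c, hcdef⟩ : ∃ c, c = (-i) / (Cfsg.hermForm n F q u z * Cfsg.hermForm n F q z u) :=
    ⟨_, rfl⟩
  have hc : c ^ q = -c := by
    rw [hcdef, div_pow, conj_neg hF, hi, mul_pow, herm_conj hF, herm_conj hF, neg_neg, neg_div,
      neg_neg, mul_comm]
  have h3 := isCtr_transv hF M hu'C huC c hc
  have e1 : c * Cfsg.hermForm n F q (z + t • u) u = -t := by
    rw [hu'u, hcdef, ht]
    field_simp
  rw [e1] at h3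
  have e : z + t • u + -t • u = z := by module
  rwa [e] at h3

/-- The stabiliser in `SU_n(q)` of a non-zero totally singular subspace is maximal. -/
theorem su_ts_stab_max (hF : Fintype.card F = q ^ 2) (hn : 4 ≤ n ∨ 3 ≤ q)
    (W : Submodule F (Fin n → F)) (hW0 : W ≠ ⊥)
    (hW : Cfsg.Geo.IsTotallySingularFor (Cfsg.hermForm n F q) W) :
    Cfsg.Geo.IsMaximalIn (suGL n F q) (Cfsg.Geo.subspaceStabilizer W ⊓ suGL n F q) := by
  classical
  obtain ⟨w₀, hw₀W, hw₀0⟩ := Submodule.exists_mem_ne_zero_of_ne_bot hW0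
  obtain ⟨i, hi0, hi⟩ := exists_skew hF
  constructor
  · rw [SetLike.lt_iff_le_and_exists]
    refine ⟨inf_le_right, ?_⟩
    obtain ⟨u, hu, hwu, -⟩ := exists_isotropic_nonperp hF w₀ w₀ hw₀0 hw₀0 (hW _ hw₀W _ hw₀W)
      (hW _ hw₀W _ hw₀W)
    refine ⟨glOfDet _ (det_utransv u i hu),
      glOfDet_mem_suGL _ _ (isHermIso_utransv hF u i hu hi), ?_⟩
    intro hmem
    have hstab : ∀ v, v ∈ (W : Set (Fin n → F)) ↔
        ((glOfDet _ (det_utransv u i hu) : GL (Fin n) F) : Matrix (Fin n) (Fin n) F) *ᵥ v ∈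
          (W : Set (Fin n → F)) := (Subgroup.mem_inf.mp hmem).1
    have h1 : ((glOfDet _ (det_utransv u i hu) : GL (Fin n) F) : Matrix (Fin n) (Fin n) F) *ᵥ w₀
        ∈ W := (hstab w₀).mp hw₀W
    rw [glOfDet_val, utransv_mulVec] at h1
    have h2 : (i * Cfsg.hermForm n F q w₀ u) • u ∈ W := by
      have := W.sub_mem h1 hw₀W
      rwa [add_sub_cancel_left] at this
    have h3 : u ∈ W := by
      have := W.smul_mem (i * Cfsg.hermForm n F q w₀ u)⁻¹ h2
      rwa [smul_smul, inv_mul_cancel₀ (mul_ne_zero hi0 hwu), one_smul] at this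
    exact hwu (hW w₀ hw₀W u h3)
  · intro M hM1 hM2
    by_cases hMH : M = Cfsg.Geo.subspaceStabilizer W ⊓ suGL n F q
    · exact Or.inl hMH
    right
    refine le_antisymm hM2 (suGL_le_of_ctr hF hn M ?_)
    obtain ⟨g, hgM, hgH⟩ := SetLike.exists_of_lt (lt_of_le_of_ne hM1 (Ne.symm hMH))
    have hgS := hM2 hgM
    have hiso : ∀ k ∈ M, IsHermIso n F q (k : Matrix (Fin n) (Fin n) F) :=
      fun k hk => ((mem_suGL_iff k).mp (hM2 hk)).1
    have hgW : g ∉ Cfsg.Geo.subspaceStabilizer W :=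
      fun h => hgH (Subgroup.mem_inf.mpr ⟨h, hgS⟩)
    -- Step A
    have hA : ∀ y : Fin n → F, Cfsg.hermForm n F q y y = 0 →
        (∀ w ∈ W, Cfsg.hermForm n F q w y = 0) → IsCtr q M y := by
      intro y hy hyW
      refine ⟨hy, fun c hc k hk => hM1 (Subgroup.mem_inf.mpr ⟨mem_stab_of_mapsTo _ _ ?_, ?_⟩)⟩
      · intro x hx
        rw [hk, utransv_mulVec, hyW x hx, mul_zero, zero_smul, add_zero]
        exact hx
      · rw [mem_suGL_iff, hk]
        exact ⟨isHermIso_utransv hF y c hy hc, det_utransv y c hy⟩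
    have hWC : ∀ w ∈ W, IsCtr q M w :=
      fun w hw => hA w (hW w hw w hw) (fun w' hw' => hW w' hw' w hw)
    -- Step B
    have hB : ∃ k ∈ M, ∃ w ∈ W, ∃ w' ∈ W,
        Cfsg.hermForm n F q ((k : Matrix (Fin n) (Fin n) F) *ᵥ w) w' ≠ 0 := by
      by_contra hcon
      push Not at hcon
      have hex : ∃ w ∈ W, (g : Matrix (Fin n) (Fin n) F) *ᵥ w ∉ W := by
        by_contra h
        push Not at h
        exact hgW (mem_stab_of_mapsTo g _ h)
      obtain ⟨w, hw, hgw⟩ := hex
      obtain ⟨e, heW, hne⟩ := exists_perp_sep (q := q) hF W _ hgw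
      obtain ⟨n', hn'⟩ : ∃ n' : Fin n → F, n' = (g : Matrix (Fin n) (Fin n) F) *ᵥ w := ⟨_, rfl⟩
      rw [← hn'] at hne
      have hn'n' : Cfsg.hermForm n F q n' n' = 0 := by rw [hn', hiso g hgM, hW w hw w hw]
      have hn'W : ∀ w' ∈ W, Cfsg.hermForm n F q n' w' = 0 :=
        fun w' hw' => by rw [hn']; exact hcon g hgM w hw w' hw'
      obtain ⟨τ, hτ⟩ := exists_trace_eq hF (-(Cfsg.hermForm n F q e e))
        (by rw [conj_neg hF, herm_conj hF])
      obtain ⟨t, ht⟩ : ∃ t, t = τ / Cfsg.hermForm n F q n' e := ⟨_, rfl⟩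
      have hy : Cfsg.hermForm n F q (e + t • n') (e + t • n') = 0 := by
        simp only [herm_add_left, herm_add_right hF, herm_smul_left, herm_smul_right, hn'n',
          mul_zero, add_zero]
        have e1 : t * Cfsg.hermForm n F q n' e = τ := by rw [ht, div_mul_cancel₀ _ hne]
        have e2 : t ^ q * Cfsg.hermForm n F q e n' = τ ^ q := by
          rw [← herm_conj hF n n' e, ← mul_pow, e1]
        rw [e1, e2]
        linear_combination hτ
      have hyW : ∀ w' ∈ W, Cfsg.hermForm n F q w' (e + t • n') = 0 := by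
        intro w' hw'
        rw [herm_add_right hF, herm_smul_right, heW w' hw', herm_swap_zero hF (hn'W w' hw'),
          mul_zero, add_zero]
      have hn'y : Cfsg.hermForm n F q n' (e + t • n') ≠ 0 := by
        rw [herm_add_right hF, herm_smul_right, hn'n', mul_zero, add_zero]
        exact hne
      have hyC := hA _ hy hyW
      have hyC' := isCtr_mulVec M g⁻¹ (M.inv_mem hgM) (hiso _ (M.inv_mem hgM)) hyC
      obtain ⟨y', hy'⟩ : ∃ y' : Fin n → F,
          y' = ((g⁻¹ : GL (Fin n) F) : Matrix (Fin n) (Fin n) F) *ᵥ (e + t • n') := ⟨_, rfl⟩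
      rw [← hy'] at hyC'
      have hk : glOfDet _ (det_utransv y' i hyC'.1) ∈ M := hyC'.2 i hi _ rfl
      have h0 := hcon _ hk w hw w hw
      rw [glOfDet_val, utransv_mulVec, herm_add_left, herm_smul_left, hW w hw w hw,
        zero_add] at h0
      have h1 : Cfsg.hermForm n F q w y' = Cfsg.hermForm n F q n' (e + t • n') := by
        rw [← hiso g hgM w y', hy', gl_mulVec_inv, ← hn']
      have h2 : Cfsg.hermForm n F q y' w ≠ 0 := herm_swap_ne hF (h1 ▸ hn'y)
      rw [h1] at h0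
      exact (mul_ne_zero (mul_ne_zero hi0 hn'y) h2) h0
    obtain ⟨k, hk, w, hw, w', hw', hne⟩ := hB
    intro z hz
    refine ctr_all_of_siegel hF M ((k : Matrix (Fin n) (Fin n) F) *ᵥ w) w'
      (isCtr_mulVec M k hk (hiso k hk) (hWC w hw)) (hWC w' hw') hne ?_ z hz
    intro w₁ c hw₁ hc E hE
    refine hM1 (Subgroup.mem_inf.mpr ⟨mem_stab_of_mapsTo _ _ ?_, ?_⟩)
    · intro x hx
      have hx' : x ∈ W := hx
      rw [hE, siegel_mulVec _ _ _ (hW w' hw' w' hw'), hW x hx' w' hw', zero_smul, mul_zero,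
        zero_smul, add_zero, add_zero]
      exact W.sub_mem hx' (W.smul_mem _ hw')
    · rw [mem_suGL_iff, hE]
      exact ⟨isHermIso_siegel hF w' w₁ c (hW w' hw' w' hw') hw₁ hc,
        det_siegel w' w₁ c (hW w' hw' w' hw') hw₁ (herm_swap_zero hF hw₁)⟩

end SUMax

end Cfsg.Agent.Lib.Helper13
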