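-- helper13: isometric embeddings of standard hermitian spaces, lifts of isometries,
-- orthonormal bases of non-degenerate subspaces.
import Mathlib
import Cfsg.Prelude.Def_GeometricClasses
import Cfsg.Agent.Lib.Helper13.SUMax

set_option autoImplicit false

namespace Cfsg.Agent.Lib.Helper13

open Matrix Cfsg.Agent.Lib.Helper45 Cfsg.Agent.Lib.Helper44

section HermEmb

set_option linter.unusedSectionVars false

variable {F : Type*} [Field F] [Fintype F] {q : ℕ} {n m : ℕ}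

/-- conjugate transpose for the `q`-power map. -/
def cT (q : ℕ) (B : Matrix (Fin n) (Fin m) F) : Matrix (Fin m) (Fin n) F :=
  Matrix.of fun j i => B i j ^ q

/-- `B` is an isometric embedding of the standard hermitian space. -/
def IsIsoEmb (q : ℕ) (B : Matrix (Fin n) (Fin m) F) : Prop :=
  ∀ x y, Cfsg.hermForm n F q (B *ᵥ x) (B *ᵥ y) = Cfsg.hermForm m F q x y

theorem herm_mulVec_right (hF : Fintype.card F = q ^ 2) (B : Matrix (Fin n) (Fin m) F)
    (v : Fin n → F) (ξ : Fin m → F) :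
    Cfsg.hermForm n F q v (B *ᵥ ξ) = Cfsg.hermForm m F q (cT q B *ᵥ v) ξ := by
  simp only [herm_def, Matrix.mulVec, dotProduct, cT, Matrix.of_apply, conj_sum hF, mul_pow,
    Finset.mul_sum, Finset.sum_mul]
  rw [Finset.sum_comm]
  exact Finset.sum_congr rfl fun j _ => Finset.sum_congr rfl fun i _ => by ring

theorem herm_mulVec_left (hF : Fintype.card F = q ^ 2) (B : Matrix (Fin n) (Fin m) F)
    (ξ : Fin m → F) (v : Fin n → F) :
    Cfsg.hermForm n F q (B *ᵥ ξ) v = Cfsg.hermForm m F q ξ (cT q B *ᵥ v) := by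
  rw [← herm_conj hF, herm_mulVec_right hF, herm_conj hF]

theorem cT_mulVec_mulVec (hF : Fintype.card F = q ^ 2) {B : Matrix (Fin n) (Fin m) F}
    (hB : IsIsoEmb q B) (ξ : Fin m → F) : cT q B *ᵥ (B *ᵥ ξ) = ξ := by
  classical
  have hq : q ≠ 0 := by have := two_le_q hF; omega
  funext j
  rw [← herm_single_right hq m (cT q B *ᵥ (B *ᵥ ξ)) j, ← herm_mulVec_right hF, hB,
    herm_single_right hq]

theorem cT_mul_self (hF : Fintype.card F = q ^ 2) {B : Matrix (Fin n) (Fin m) F}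
    (hB : IsIsoEmb q B) : cT q B * B = 1 := by
  rw [Matrix.ext_iff_mulVec]
  intro ξ
  rw [← Matrix.mulVec_mulVec, cT_mulVec_mulVec hF hB, Matrix.one_mulVec]

theorem isoEmb_injective (hF : Fintype.card F = q ^ 2) {B : Matrix (Fin n) (Fin m) F}
    (hB : IsIsoEmb q B) {x y : Fin m → F} (h : B *ᵥ x = B *ᵥ y) : x = y := by
  have := congrArg (fun v => cT q B *ᵥ v) h
  simpa only [cT_mulVec_mulVec hF hB] using this

/-- lift of a matrix of the small space: identity on the perp of the image. -/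
def isoLift (q : ℕ) (B : Matrix (Fin n) (Fin m) F) (A : Matrix (Fin m) (Fin m) F) :
    Matrix (Fin n) (Fin n) F :=
  1 + B * (A - 1) * cT q B

theorem isoLift_mulVec (B : Matrix (Fin n) (Fin m) F) (A : Matrix (Fin m) (Fin m) F)
    (v : Fin n → F) :
    isoLift q B A *ᵥ v = v + B *ᵥ (A *ᵥ (cT q B *ᵥ v)) - B *ᵥ (cT q B *ᵥ v) := by
  unfold isoLift
  rw [Matrix.add_mulVec, Matrix.one_mulVec, ← Matrix.mulVec_mulVec, ← Matrix.mulVec_mulVec,
    Matrix.sub_mulVec, Matrix.one_mulVec, Matrix.mulVec_sub, add_sub_assoc]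

theorem isoLift_mulVec_emb (hF : Fintype.card F = q ^ 2) {B : Matrix (Fin n) (Fin m) F}
    (hB : IsIsoEmb q B) (A : Matrix (Fin m) (Fin m) F) (ξ : Fin m → F) :
    isoLift q B A *ᵥ (B *ᵥ ξ) = B *ᵥ (A *ᵥ ξ) := by
  rw [isoLift_mulVec, cT_mulVec_mulVec hF hB]
  abel

theorem isoLift_mulVec_perp (B : Matrix (Fin n) (Fin m) F) (A : Matrix (Fin m) (Fin m) F)
    (r : Fin n → F) (hr : cT q B *ᵥ r = 0) : isoLift q B A *ᵥ r = r := by
  rw [isoLift_mulVec, hr, Matrix.mulVec_zero, Matrix.mulVec_zero, add_zero, sub_zero]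

theorem isHermIso_isoLift (hF : Fintype.card F = q ^ 2) {B : Matrix (Fin n) (Fin m) F}
    (hB : IsIsoEmb q B) {A : Matrix (Fin m) (Fin m) F} (hA : IsHermIso m F q A) :
    IsHermIso n F q (isoLift q B A) := by
  intro x y
  rw [isoLift_mulVec, isoLift_mulVec]
  obtain ⟨ξ, hξ⟩ : ∃ ξ, ξ = cT q B *ᵥ x := ⟨_, rfl⟩
  obtain ⟨η, hη⟩ : ∃ η, η = cT q B *ᵥ y := ⟨_, rfl⟩
  rw [← hξ, ← hη]
  have e1 : ∀ ζ, Cfsg.hermForm n F q x (B *ᵥ ζ) = Cfsg.hermForm m F q ξ ζ :=
    fun ζ => by rw [herm_mulVec_right hF, ← hξ]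
  have e2 : ∀ ζ, Cfsg.hermForm n F q (B *ᵥ ζ) y = Cfsg.hermForm m F q ζ η :=
    fun ζ => by rw [herm_mulVec_left hF, ← hη]
  simp only [herm_add_left, herm_sub_left, herm_add_right hF, herm_sub_right hF, e1, e2,
    hB _ _, hA _ _]
  ring

theorem det_isoLift (hF : Fintype.card F = q ^ 2) {B : Matrix (Fin n) (Fin m) F}
    (hB : IsIsoEmb q B) (A : Matrix (Fin m) (Fin m) F) : (isoLift q B A).det = A.det := by
  unfold isoLift
  rw [Matrix.mul_assoc, Matrix.det_one_add_mul_comm, Matrix.mul_assoc, cT_mul_self hF hB,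
    Matrix.mul_one, add_sub_cancel]

theorem isoLift_utransv (hF : Fintype.card F = q ^ 2) (B : Matrix (Fin n) (Fin m) F)
    (v : Fin m → F) (c : F) :
    isoLift q B (Cfsg.unitaryTransvection m q v c) = Cfsg.unitaryTransvection n q (B *ᵥ v) c := by
  rw [Matrix.ext_iff_mulVec]
  intro x
  rw [isoLift_mulVec, utransv_mulVec, utransv_mulVec, herm_mulVec_right hF, Matrix.mulVec_add,
    Matrix.mulVec_smul]
  abel

/-- the functional `x ↦ h(x, e)`. -/
def hermL (q : ℕ) (e : Fin n → F) : (Fin n → F) →ₗ[F] F where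
  toFun x := Cfsg.hermForm n F q x e
  map_add' x y := herm_add_left n x y e
  map_smul' c x := by simp [herm_smul_left]

theorem hermL_apply (e x : Fin n → F) : hermL q e x = Cfsg.hermForm n F q x e := rfl

theorem exists_unit_mem (hF : Fintype.card F = q ^ 2) (U : Submodule F (Fin n → F))
    (hU0 : U ≠ ⊥) (hU : Cfsg.Geo.IsNondegenerateOn (Cfsg.hermForm n F q) U) :
    ∃ e ∈ U, Cfsg.hermForm n F q e e = 1 := by
  obtain ⟨w, hwU, hw0⟩ := Submodule.exists_mem_ne_zero_of_ne_bot hU0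
  obtain ⟨⟨x, hxU, hxw⟩, -⟩ := hU w hwU hw0
  have key : ∃ e₀ ∈ U, Cfsg.hermForm n F q e₀ e₀ ≠ 0 := by
    by_cases hw : Cfsg.hermForm n F q w w = 0
    · by_cases hx : Cfsg.hermForm n F q x x = 0
      · obtain ⟨τ, hτ⟩ := exists_trace_eq hF 1 (one_pow q)
        refine ⟨w + (τ / Cfsg.hermForm n F q x w) • x,
          U.add_mem hwU (U.smul_mem _ hxU), ?_⟩
        have e1 : τ / Cfsg.hermForm n F q x w * Cfsg.hermForm n F q x w = τ :=
          div_mul_cancel₀ _ hxw
        have e2 : (τ / Cfsg.hermForm n F q x w) ^ q * Cfsg.hermForm n F q w x = τ ^ q := by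
          rw [← herm_conj hF n x w, ← mul_pow, e1]
        simp only [herm_add_left, herm_add_right hF, herm_smul_left, herm_smul_right, hw, hx,
          mul_zero, add_zero, zero_add]
        rw [e1, e2, hτ]
        exact one_ne_zero
      · exact ⟨x, hxU, hx⟩
    · exact ⟨w, hwU, hw⟩
  obtain ⟨e₀, he₀U, he₀⟩ := key
  obtain ⟨μ, hμ⟩ := exists_norm_eq hF (Cfsg.hermForm n F q e₀ e₀)⁻¹ (inv_ne_zero he₀)
    (by rw [inv_pow, herm_conj hF])
  refine ⟨μ • e₀, U.smul_mem _ he₀U, ?_⟩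
  rw [herm_smul_left, herm_smul_right, ← mul_assoc, ← pow_succ', hμ, inv_mul_cancel₀ he₀]

/-- every non-degenerate subspace has an orthonormal basis. -/
theorem exists_isoEmb_aux (hF : Fintype.card F = q ^ 2) :
    ∀ (d : ℕ) (U : Submodule F (Fin n → F)), Module.finrank F U = d →
      Cfsg.Geo.IsNondegenerateOn (Cfsg.hermForm n F q) U →
      ∃ (m : ℕ) (B : Matrix (Fin n) (Fin m) F), IsIsoEmb q B ∧
        ∀ v, v ∈ U ↔ ∃ ξ, B *ᵥ ξ = v := by
  intro d
  induction d using Nat.strong_induction_on with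
  | _ d ih =>
    intro U hd hU
    by_cases hU0 : U = ⊥
    · refine ⟨0, 0, ?_, ?_⟩
      · intro x y
        simp [herm_def]
      · intro v
        rw [hU0, Submodule.mem_bot]
        constructor
        · rintro rfl
          exact ⟨0, by simp⟩
        · rintro ⟨ξ, rfl⟩
          simp
    · obtain ⟨e, heU, he⟩ := exists_unit_mem hF U hU0 hU
      obtain ⟨U', hU'def⟩ : ∃ U' : Submodule F (Fin n → F),
          U' = U ⊓ LinearMap.ker (hermL q e) := ⟨_, rfl⟩
      have hU'mem : ∀ x, x ∈ U' ↔ x ∈ U ∧ Cfsg.hermForm n F q x e = 0 := by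
        intro x
        rw [hU'def, Submodule.mem_inf, LinearMap.mem_ker, hermL_apply]
      have hU'nd : Cfsg.Geo.IsNondegenerateOn (Cfsg.hermForm n F q) U' := by
        have h1 : ∀ w ∈ U', w ≠ 0 → ∃ x ∈ U', Cfsg.hermForm n F q x w ≠ 0 := by
          intro w hw hw0
          obtain ⟨hwU, hwe⟩ := (hU'mem w).mp hw
          obtain ⟨⟨x, hxU, hxw⟩, -⟩ := hU w hwU hw0
          refine ⟨x - Cfsg.hermForm n F q x e • e,
            (hU'mem _).mpr ⟨U.sub_mem hxU (U.smul_mem _ heU), ?_⟩, ?_⟩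
          · rw [herm_sub_left, herm_smul_left, he, mul_one, sub_self]
          · rw [herm_sub_left, herm_smul_left, herm_swap_zero hF hwe, mul_zero, sub_zero]
            exact hxw
        intro w hw hw0
        obtain ⟨x, hx, hxw⟩ := h1 w hw hw0
        exact ⟨⟨x, hx, hxw⟩, ⟨x, hx, herm_swap_ne hF hxw⟩⟩
      have hlt : Module.finrank F U' < d := by
        rw [← hd]
        apply Submodule.finrank_lt_finrank_of_lt
        rw [SetLike.lt_iff_le_and_exists]
        refine ⟨fun x hx => ((hU'mem x).mp hx).1, e, heU, fun h => ?_⟩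
        have := ((hU'mem e).mp h).2
        rw [he] at this
        exact one_ne_zero this
      obtain ⟨m', B', hB', hrange'⟩ := ih _ hlt U' rfl hU'nd
      obtain ⟨B, hBdef⟩ : ∃ B : Matrix (Fin n) (Fin (m' + 1)) F,
          B = Matrix.of fun i j => Fin.lastCases (e i) (fun j' => B' i j') j := ⟨_, rfl⟩
      have hmv : ∀ (ξ : Fin m' → F) (x : F),
          B *ᵥ (Fin.snoc ξ x : Fin (m' + 1) → F) = B' *ᵥ ξ + x • e := by
        intro ξ x
        funext i
        rw [hBdef]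
        simp [Matrix.mulVec, dotProduct, Fin.sum_univ_castSucc]
        ring
      have hB'e : ∀ ξ : Fin m' → F, Cfsg.hermForm n F q (B' *ᵥ ξ) e = 0 :=
        fun ξ => ((hU'mem _).mp ((hrange' _).mpr ⟨ξ, rfl⟩)).2
      refine ⟨m' + 1, B, ?_, ?_⟩
      · intro x y
        rw [← Fin.snoc_init_self x, ← Fin.snoc_init_self y, hmv, hmv, herm_snoc]
        simp only [herm_add_left, herm_add_right hF, herm_smul_left, herm_smul_right, hB'e,
          herm_swap_zero hF (hB'e _), he, hB' _ _]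
        ring
      · intro v
        constructor
        · intro hv
          have h1 : v - Cfsg.hermForm n F q v e • e ∈ U' := by
            refine (hU'mem _).mpr ⟨U.sub_mem hv (U.smul_mem _ heU), ?_⟩
            rw [herm_sub_left, herm_smul_left, he, mul_one, sub_self]
          obtain ⟨ξ', hξ'⟩ := (hrange' _).mp h1
          refine ⟨Fin.snoc ξ' (Cfsg.hermForm n F q v e), ?_⟩
          rw [hmv, hξ']
          abel
        · rintro ⟨ξ, rfl⟩
          rw [← Fin.snoc_init_self ξ, hmv]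
          exact U.add_mem ((hU'mem _).mp ((hrange' _).mpr ⟨_, rfl⟩)).1 (U.smul_mem _ heU)

theorem finrank_of_isoEmb (hF : Fintype.card F = q ^ 2) {B : Matrix (Fin n) (Fin m) F}
    (hB : IsIsoEmb q B) (U : Submodule F (Fin n → F))
    (hU : ∀ v, v ∈ U ↔ ∃ ξ, B *ᵥ ξ = v) : Module.finrank F U = m := by
  have h1 : U = LinearMap.range (Matrix.mulVecLin B) := by
    ext v
    rw [hU, LinearMap.mem_range]
    rfl
  have hinj : Function.Injective (Matrix.mulVecLin B) := by
    intro x y h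
    exact isoEmb_injective hF hB h
  rw [h1, LinearMap.finrank_range_of_inj hinj, Module.finrank_fin_fun]

theorem exists_isoEmb (hF : Fintype.card F = q ^ 2) (U : Submodule F (Fin n → F))
    (hU : Cfsg.Geo.IsNondegenerateOn (Cfsg.hermForm n F q) U) :
    ∃ B : Matrix (Fin n) (Fin (Module.finrank F U)) F, IsIsoEmb q B ∧
      ∀ v, v ∈ U ↔ ∃ ξ, B *ᵥ ξ = v := by
  obtain ⟨m, B, hB, hr⟩ := exists_isoEmb_aux hF _ U rfl hU
  have hm := finrank_of_isoEmb hF hB U hr
  subst hm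
  exact ⟨B, hB, hr⟩

/-- the perp of a subspace. -/
def hperp (hF : Fintype.card F = q ^ 2) (W : Submodule F (Fin n → F)) :
    Submodule F (Fin n → F) where
  carrier := {r | ∀ w ∈ W, Cfsg.hermForm n F q w r = 0}
  add_mem' := by
    intro a b ha hb w hw
    rw [herm_add_right hF, ha w hw, hb w hw, add_zero]
  zero_mem' := fun w _ => herm_zero_right hF n w
  smul_mem' := by
    intro c a ha w hw
    rw [herm_smul_right, ha w hw, mul_zero]

theorem mem_hperp (hF : Fintype.card F = q ^ 2) (W : Submodule F (Fin n → F)) (r : Fin n → F) :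
    r ∈ hperp hF W ↔ ∀ w ∈ W, Cfsg.hermForm n F q w r = 0 := Iff.rfl

theorem mem_hperp_iff_cT (hF : Fintype.card F = q ^ 2) {B : Matrix (Fin n) (Fin m) F}
    (W : Submodule F (Fin n → F)) (hW : ∀ v, v ∈ W ↔ ∃ ξ, B *ᵥ ξ = v) (r : Fin n → F) :
    r ∈ hperp hF W ↔ cT q B *ᵥ r = 0 := by
  classical
  have hq : q ≠ 0 := by have := two_le_q hF; omega
  rw [mem_hperp]
  constructor
  · intro h
    funext j
    rw [← herm_single_right hq m (cT q B *ᵥ r) j, ← herm_mulVec_right hF]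
    exact herm_swap_zero hF (h _ ((hW _).mpr ⟨_, rfl⟩))
  · intro h w hw
    obtain ⟨ξ, rfl⟩ := (hW w).mp hw
    rw [herm_mulVec_left hF, h, herm_zero_right hF]

theorem sub_proj_mem_hperp (hF : Fintype.card F = q ^ 2) {B : Matrix (Fin n) (Fin m) F}
    (hB : IsIsoEmb q B) (W : Submodule F (Fin n → F)) (hW : ∀ v, v ∈ W ↔ ∃ ξ, B *ᵥ ξ = v)
    (v : Fin n → F) : v - B *ᵥ (cT q B *ᵥ v) ∈ hperp hF W := by
  rw [mem_hperp_iff_cT hF W hW, Matrix.mulVec_sub, cT_mulVec_mulVec hF hB, sub_self]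

theorem hperp_nondeg (hF : Fintype.card F = q ^ 2) {B : Matrix (Fin n) (Fin m) F}
    (hB : IsIsoEmb q B) (W : Submodule F (Fin n → F)) (hW : ∀ v, v ∈ W ↔ ∃ ξ, B *ᵥ ξ = v) :
    Cfsg.Geo.IsNondegenerateOn (Cfsg.hermForm n F q) (hperp hF W) := by
  classical
  have hq : q ≠ 0 := by have := two_le_q hF; omega
  have h1 : ∀ r ∈ hperp hF W, r ≠ 0 → ∃ x ∈ hperp hF W, Cfsg.hermForm n F q x r ≠ 0 := by
    intro r hr hr0
    obtain ⟨i, hi⟩ : ∃ i, r i ≠ 0 := by
      by_contra hcon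
      push Not at hcon
      exact hr0 (funext hcon)
    refine ⟨_, sub_proj_mem_hperp hF hB W hW (Pi.single i 1), ?_⟩
    rw [herm_sub_left, herm_mulVec_left hF, (mem_hperp_iff_cT hF W hW r).mp hr,
      herm_zero_right hF, sub_zero, herm_single_left hF]
    exact pow_ne_zero _ hi
  intro r hr hr0
  obtain ⟨x, hx, hxr⟩ := h1 r hr hr0
  exact ⟨⟨x, hx, hxr⟩, ⟨x, hx, herm_swap_ne hF hxr⟩⟩

theorem finrank_hperp (hF : Fintype.card F = q ^ 2) {B : Matrix (Fin n) (Fin m) F}
    (hB : IsIsoEmb q B) (W : Submodule F (Fin n → F)) (hW : ∀ v, v ∈ W ↔ ∃ ξ, B *ᵥ ξ = v) :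
    m + Module.finrank F (hperp hF W) = n := by
  have hc : IsCompl W (hperp hF W) := by
    constructor
    · rw [Submodule.disjoint_def]
      intro x hx hx'
      obtain ⟨ξ, rfl⟩ := (hW x).mp hx
      rw [mem_hperp_iff_cT hF W hW, cT_mulVec_mulVec hF hB] at hx'
      rw [hx', Matrix.mulVec_zero]
    · rw [Submodule.codisjoint_iff_exists_add_eq]
      intro z
      exact ⟨B *ᵥ (cT q B *ᵥ z), z - B *ᵥ (cT q B *ᵥ z), (hW _).mpr ⟨_, rfl⟩,
        sub_proj_mem_hperp hF hB W hW z, by abel⟩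
  have h := Submodule.finrank_add_eq_of_isCompl hc
  rw [finrank_of_isoEmb hF hB W hW, Module.finrank_fin_fun] at h
  exact h

end HermEmb

end Cfsg.Agent.Lib.Helper13
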