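-- helper13: Witt-type existence lemmas for the standard hermitian space.
import Mathlib
import Cfsg.Prelude.Def_GeometricClasses
import Cfsg.Agent.Lib.Helper13.HermEmb

set_option autoImplicit false

namespace Cfsg.Agent.Lib.Helper13

open Matrix Cfsg.Agent.Lib.Helper45 Cfsg.Agent.Lib.Helper44

section HermWitt

set_option linter.unusedSectionVars false

variable {F : Type*} [Field F] [Fintype F] {q : ℕ} {m : ℕ}

theorem herm_self_conj (hF : Fintype.card F = q ^ 2) (x : Fin m → F) :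
    Cfsg.hermForm m F q x x ^ q = Cfsg.hermForm m F q x x := herm_conj hF m x x

theorem hermRefl_eq (w : Fin m → F) (a : F) :
    hermRefl q w a = 1 + (-a) • hermRank1 q w w := by
  unfold hermRefl hermRank1
  rw [neg_smul, sub_eq_add_neg]

theorem det_hermRefl (w : Fin m → F) (a : F) :
    (hermRefl q w a).det = 1 - a * Cfsg.hermForm m F q w w := by
  rw [hermRefl_eq, det_one_add_smul_hermRank1]
  ring

/-- the unitary group is transitive on vectors of a given non-zero norm. -/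
theorem exists_hermIso_map_norm (hF : Fintype.card F = q ^ 2) (x y : Fin m → F)
    (hx : Cfsg.hermForm m F q x x ≠ 0)
    (hxy : Cfsg.hermForm m F q x x = Cfsg.hermForm m F q y y) :
    ∃ T : Matrix (Fin m) (Fin m) F, IsHermIso m F q T ∧ T *ᵥ x = y := by
  obtain ⟨ν, hν⟩ := exists_norm_eq hF _ hx (herm_self_conj hF x)
  have hν0 : ν ≠ 0 := by
    rintro rfl
    rw [zero_pow (Nat.succ_ne_zero q)] at hν
    exact hx hν.symm
  have hx1 : Cfsg.hermForm m F q (ν⁻¹ • x) (ν⁻¹ • x) = 1 := by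
    rw [herm_smul_left, herm_smul_right, ← mul_assoc, ← pow_succ', inv_pow, hν,
      inv_mul_cancel₀ hx]
  have hy1 : Cfsg.hermForm m F q (ν⁻¹ • y) (ν⁻¹ • y) = 1 := by
    rw [herm_smul_left, herm_smul_right, ← mul_assoc, ← pow_succ', inv_pow, hν, ← hxy,
      inv_mul_cancel₀ hx]
  obtain ⟨T, hT, hTx⟩ := exists_hermIso_map hF _ _ hx1 hy1
  refine ⟨T, hT, ?_⟩
  rw [Matrix.mulVec_smul] at hTx
  have := congrArg (fun v => ν • v) hTx
  simpa only [smul_smul, mul_inv_cancel₀ hν0, one_smul] using this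

/-- the unitary group is transitive on vectors of a given non-zero norm, with any
 prescribed determinant (dimension at least two). -/
theorem exists_hermIso_det_map (hF : Fintype.card F = q ^ 2) (hm : 2 ≤ m) (x y : Fin m → F)
    (hx : Cfsg.hermForm m F q x x ≠ 0)
    (hxy : Cfsg.hermForm m F q x x = Cfsg.hermForm m F q y y) (δ : F) (hδ : δ ^ (q + 1) = 1) :
    ∃ G : Matrix (Fin m) (Fin m) F, IsHermIso m F q G ∧ G.det = δ ∧ G *ᵥ x = y := by
  classical
  obtain ⟨T, hT, hTx'⟩ := exists_hermIso_map_norm hF x y hx hxy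
  have hdT := isHermIso_det hF hT
  have hdT0 : T.det ≠ 0 := by
    intro h
    rw [h, zero_pow (Nat.succ_ne_zero q)] at hdT
    exact zero_ne_one hdT
  have hy : Cfsg.hermForm m F q y y ≠ 0 := hxy ▸ hx
  -- a non-isotropic vector orthogonal to `y`
  obtain ⟨d, hd, hdd⟩ := exists_nonisotropic_perp hF ({y} : Finset (Fin m → F))
    (by rw [Finset.card_singleton]; omega)
    (fun e => e - (Cfsg.hermForm m F q e y / Cfsg.hermForm m F q y y) • y)
    (by
      intro e s hs
      rw [Finset.mem_singleton] at hs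
      rw [hs, herm_sub_left, herm_smul_left, div_mul_cancel₀ _ hy, sub_self])
    (by
      intro e
      rw [sub_sub_cancel]
      exact Submodule.smul_mem _ _ (Submodule.subset_span (by simp)))
  have hdy : Cfsg.hermForm m F q d y = 0 := hd y (Finset.mem_singleton_self y)
  have hyd : Cfsg.hermForm m F q y d = 0 := herm_swap_zero hF hdy
  obtain ⟨δ', hδ'def⟩ : ∃ δ', δ' = δ / T.det := ⟨_, rfl⟩
  have hδ' : δ' ^ (q + 1) = 1 := by rw [hδ'def, div_pow, hδ, hdT, div_one]
  have hδ'q : δ' ^ q * δ' = 1 := by rw [← pow_succ]; exact hδ'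
  obtain ⟨N, hN⟩ : ∃ N, N = Cfsg.hermForm m F q d d := ⟨_, rfl⟩
  have hNq : N ^ q = N := by rw [hN]; exact herm_self_conj hF d
  have hN0 : N ≠ 0 := by rw [hN]; exact hdd
  obtain ⟨a, ha⟩ : ∃ a, a = (1 - δ') / N := ⟨_, rfl⟩
  have hD : IsHermIso m F q (hermRefl q d a) := by
    apply isHermIso_refl hF
    rw [← hN, pow_succ, ha, div_pow, conj_sub hF, one_pow, hNq]
    field_simp
    linear_combination -hδ'q
  refine ⟨hermRefl q d a * T, isHermIso_mul hD hT, ?_, ?_⟩
  · rw [Matrix.det_mul, det_hermRefl, ← hN, ha, div_mul_cancel₀ _ hN0, hδ'def]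
    field_simp
    ring
  · rw [← Matrix.mulVec_mulVec, hTx', hermRefl_mulVec, hyd, mul_zero, zero_smul, sub_zero]

/-- every vector is a sum of two isotropic vectors (dimension at least two). -/
theorem exists_isotropic_add (hF : Fintype.card F = q ^ 2) (hm : 2 ≤ m) (β : Fin m → F) :
    ∃ x y : Fin m → F, Cfsg.hermForm m F q x x = 0 ∧ Cfsg.hermForm m F q y y = 0 ∧
      β = x + y := by
  classical
  by_cases hβ : Cfsg.hermForm m F q β β = 0
  · exact ⟨β, 0, hβ, herm_zero_left hF m 0, by rw [add_zero]⟩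
  have hβ0 : β ≠ 0 := by
    rintro rfl
    exact hβ (herm_zero_left hF m 0)
  obtain ⟨x₀, hx₀, hx₀β⟩ : ∃ x₀ : Fin m → F, Cfsg.hermForm m F q x₀ x₀ = 0 ∧
      Cfsg.hermForm m F q x₀ β ≠ 0 := by
    obtain ⟨v, hv0, hv⟩ := exists_isotropic_ne_zero (n := m) hF hm
    by_cases hvβ : Cfsg.hermForm m F q v β = 0
    · obtain ⟨u, hu, -, huβ⟩ := exists_isotropic_nonperp hF v β hv0 hβ0 hv hvβ
      exact ⟨u, hu, huβ⟩
    · exact ⟨v, hv, hvβ⟩
  obtain ⟨τ, hτ⟩ := exists_trace_eq hF (-(Cfsg.hermForm m F q β β))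
    (by rw [conj_neg hF, herm_conj hF])
  obtain ⟨t, ht⟩ : ∃ t, t = τ / Cfsg.hermForm m F q x₀ β := ⟨_, rfl⟩
  have e1 : t * Cfsg.hermForm m F q x₀ β = τ := by rw [ht, div_mul_cancel₀ _ hx₀β]
  have e2 : t ^ q * Cfsg.hermForm m F q β x₀ = τ ^ q := by
    rw [← herm_conj hF m x₀ β, ← mul_pow, e1]
  refine ⟨(-t) • x₀, β + t • x₀, ?_, ?_, ?_⟩
  · rw [herm_smul_left, herm_smul_right, hx₀, mul_zero, mul_zero]
  · simp only [herm_add_left, herm_add_right hF, herm_smul_left, herm_smul_right, hx₀,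
      mul_zero, add_zero]
    rw [e1, e2]
    linear_combination hτ
  · module

/-- a vector of norm `-1` orthogonal to a given isotropic vector (dimension at least 3). -/
theorem exists_neg_one_perp (hF : Fintype.card F = q ^ 2) (hm : 3 ≤ m) (β : Fin m → F)
    (hβ0 : β ≠ 0) (hβ : Cfsg.hermForm m F q β β = 0) :
    ∃ r : Fin m → F, Cfsg.hermForm m F q r r = -1 ∧ Cfsg.hermForm m F q r β = 0 := by
  classical
  obtain ⟨u, hu, hβu, -⟩ := exists_isotropic_nonperp hF β β hβ0 hβ0 hβ hβ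
  obtain ⟨r, hrβ, -, hrr⟩ := exists_perp_pair hF hm β u hβ hu hβu
  obtain ⟨μ, hμ⟩ := exists_norm_eq hF (-(Cfsg.hermForm m F q r r)⁻¹)
    (neg_ne_zero.mpr (inv_ne_zero hrr)) (by rw [conj_neg hF, inv_pow, herm_conj hF])
  refine ⟨μ • r, ?_, ?_⟩
  · rw [herm_smul_left, herm_smul_right, ← mul_assoc, ← pow_succ', hμ, neg_mul,
      inv_mul_cancel₀ hrr]
  · rw [herm_smul_left, hrβ, mul_zero]

/-- an isotropic vector with a prescribed non-zero product with a given isotropic vector. -/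
theorem exists_isotropic_pair_val (hF : Fintype.card F = q ^ 2) (β : Fin m → F)
    (hβ0 : β ≠ 0) (hβ : Cfsg.hermForm m F q β β = 0) (b : F) (hb : b ≠ 0) :
    ∃ β' : Fin m → F, β' ≠ 0 ∧ Cfsg.hermForm m F q β' β' = 0 ∧
      Cfsg.hermForm m F q β β' = b := by
  classical
  obtain ⟨u, hu, hβu, -⟩ := exists_isotropic_nonperp hF β β hβ0 hβ0 hβ hβ
  have h1 : Cfsg.hermForm m F q β (((b / Cfsg.hermForm m F q β u) ^ q) • u) = b := by
    rw [herm_smul_right, conj_conj hF, div_mul_cancel₀ _ hβu]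
  refine ⟨((b / Cfsg.hermForm m F q β u) ^ q) • u, ?_, ?_, h1⟩
  · intro h0
    rw [h0, herm_zero_right hF] at h1
    exact hb h1.symm
  · rw [herm_smul_left, herm_smul_right, hu, mul_zero, mul_zero]

/-- a vector of norm `-1` (dimension at least one). -/
theorem exists_norm_neg_one (hF : Fintype.card F = q ^ 2) (hm : 1 ≤ m) :
    ∃ r : Fin m → F, Cfsg.hermForm m F q r r = -1 := by
  classical
  have hq : q ≠ 0 := by have := two_le_q hF; omega
  obtain ⟨μ, hμ⟩ := exists_norm_eq hF (-1 : F) (neg_ne_zero.mpr one_ne_zero)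
    (by rw [conj_neg hF, one_pow])
  refine ⟨μ • Pi.single ⟨0, hm⟩ 1, ?_⟩
  rw [herm_smul_left, herm_smul_right, ← mul_assoc, ← pow_succ', hμ, herm_single_right hq]
  simp

end HermWitt

end Cfsg.Agent.Lib.Helper13
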