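-- helper13: GU_n(q) modulo SU_n(q)·Z is cyclic of order gcd(n, q+1).
import Mathlib
import Cfsg.Prelude.Def_LieClassical
import Cfsg.Agent.Lib.Helper45.HermCenter

set_option autoImplicit false

namespace Cfsg.Agent.Lib.Helper13

open Matrix Cfsg.Agent.Lib.Helper45

universe u

theorem aux_mul {n N d e n' : ℕ} (h1 : n = d * n') (h2 : d * e = N) : n * e = n' * N := by
  rw [h1, ← h2]
  ring

section Cyclic

set_option linter.unusedSectionVars false

variable {C : Type u} [CommGroup C] [IsCyclic C] [Finite C]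

theorem cyclic_gcd_pos (n : ℕ) : 0 < Nat.gcd n (Nat.card C) :=
  Nat.gcd_pos_of_pos_right _ Nat.card_pos

theorem cyclic_div_mul (n : ℕ) :
    Nat.gcd n (Nat.card C) * (Nat.card C / Nat.gcd n (Nat.card C)) = Nat.card C :=
  Nat.mul_div_cancel' (Nat.gcd_dvd_right _ _)

/-- the `(N/d)`-th powers form a subgroup of order `d = gcd(n, N)`. -/
theorem cyclic_card_range (n : ℕ) :
    Nat.card (powMonoidHom (Nat.card C / Nat.gcd n (Nat.card C)) : C →* C).range =
      Nat.gcd n (Nat.card C) := by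
  have hd := cyclic_gcd_pos (C := C) n
  have hmul := cyclic_div_mul (C := C) n
  have he : 0 < Nat.card C / Nat.gcd n (Nat.card C) := by
    rcases Nat.eq_zero_or_pos (Nat.card C / Nat.gcd n (Nat.card C)) with h | h
    · rw [h, mul_zero] at hmul
      have := Nat.card_pos (α := C)
      omega
    · exact h
  rw [IsCyclic.card_powMonoidHom_range,
    Nat.gcd_eq_right (Nat.div_dvd_of_dvd (Nat.gcd_dvd_right _ _))]
  exact Nat.div_eq_of_eq_mul_left he hmul.symm

/-- if `w ^ (N/d) = 1` with `d = gcd(n, N)` then `w` is an `n`-th power. -/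
theorem cyclic_exists_pow (n : ℕ) (w : C)
    (hw : w ^ (Nat.card C / Nat.gcd n (Nat.card C)) = 1) : ∃ l : C, l ^ n = w := by
  have hd := cyclic_gcd_pos (C := C) n
  have hmul := cyclic_div_mul (C := C) n
  have hcR : Nat.card (powMonoidHom n : C →* C).range =
      Nat.card C / Nat.gcd n (Nat.card C) := by
    rw [IsCyclic.card_powMonoidHom_range, Nat.gcd_comm]
  have hcK : Nat.card (powMonoidHom (Nat.card C / Nat.gcd n (Nat.card C)) : C →* C).ker =
      Nat.card C / Nat.gcd n (Nat.card C) := by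
    rw [IsCyclic.card_powMonoidHom_ker]
    exact Nat.gcd_eq_right (Nat.div_dvd_of_dvd (Nat.gcd_dvd_right _ _))
  have hle : (powMonoidHom n : C →* C).range ≤
      (powMonoidHom (Nat.card C / Nat.gcd n (Nat.card C)) : C →* C).ker := by
    rintro _ ⟨x, rfl⟩
    rw [MonoidHom.mem_ker, powMonoidHom_apply, powMonoidHom_apply, ← pow_mul]
    obtain ⟨n', hn'⟩ := Nat.gcd_dvd_left n (Nat.card C)
    have : n * (Nat.card C / Nat.gcd n (Nat.card C)) = n' * Nat.card C := aux_mul hn' hmul
    rw [this, mul_comm, pow_mul, pow_card_eq_one', one_pow]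
  have heq := Subgroup.eq_of_le_of_card_ge hle (by rw [hcR, hcK])
  have hmem : w ∈ (powMonoidHom (Nat.card C / Nat.gcd n (Nat.card C)) : C →* C).ker := by
    rw [MonoidHom.mem_ker, powMonoidHom_apply]
    exact hw
  rw [← heq] at hmem
  obtain ⟨l, hl⟩ := hmem
  exact ⟨l, hl⟩

theorem cyclic_pow_mul_eq_one (n : ℕ) (l : C) :
    (l ^ n) ^ (Nat.card C / Nat.gcd n (Nat.card C)) = 1 := by
  have hmul := cyclic_div_mul (C := C) n
  obtain ⟨n', hn'⟩ := Nat.gcd_dvd_left n (Nat.card C)
  have : n * (Nat.card C / Nat.gcd n (Nat.card C)) = n' * Nat.card C := aux_mul hn' hmul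
  rw [← pow_mul, this, mul_comm, pow_mul, pow_card_eq_one', one_pow]

theorem cyclic_equiv_zmod {D : Type u} [Group D] [IsCyclic D] {d : ℕ} (h : Nat.card D = d) :
    Nonempty (D ≃* Multiplicative (ZMod d)) := by
  subst h
  exact ⟨(zmodCyclicMulEquiv ‹IsCyclic D›).symm⟩

end Cyclic

section GU

set_option linter.unusedSectionVars false

variable {F : Type u} [Field F] [Fintype F] {q : ℕ}

/-- the units of norm one. -/
def normOne (F : Type u) [Field F] (q : ℕ) : Subgroup Fˣ := (powMonoidHom (q + 1) : Fˣ →* Fˣ).ker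

theorem mem_normOne (z : Fˣ) : z ∈ normOne F q ↔ (z : F) ^ (q + 1) = 1 := by
  unfold normOne
  rw [MonoidHom.mem_ker, powMonoidHom_apply, Units.ext_iff, Units.val_pow_eq_pow_val,
    Units.val_one]

theorem card_normOne (hF : Fintype.card F = q ^ 2) : Nat.card (normOne F q) = q + 1 := by
  have hq := two_le_q hF
  have hcardG : Nat.card Fˣ = (q - 1) * (q + 1) := by
    rw [Nat.card_units, Nat.card_eq_fintype_card, hF]
    obtain ⟨k, rfl⟩ : ∃ k, q = k + 2 := ⟨q - 2, by omega⟩
    have : (k + 2) ^ 2 = (k + 2 - 1) * (k + 2 + 1) + 1 := by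
      have h : k + 2 - 1 = k + 1 := by omega
      rw [h]; ring
    omega
  unfold normOne
  rw [IsCyclic.card_powMonoidHom_ker, hcardG]
  exact Nat.gcd_eq_right (Dvd.intro_left _ rfl)

/-- the determinant on `GU`, with values in the norm-one units. -/
def detGU (hF : Fintype.card F = q ^ 2) (n : ℕ) : ↥(Cfsg.GU n F q) →* ↥(normOne F q) :=
  (Matrix.GeneralLinearGroup.det.comp (Cfsg.GU n F q).subtype).codRestrict (normOne F q)
    (fun g => by
      rw [mem_normOne]
      exact isHermIso_det hF g.2)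

theorem detGU_coe (hF : Fintype.card F = q ^ 2) (n : ℕ) (g : ↥(Cfsg.GU n F q)) :
    (((detGU hF n g : ↥(normOne F q)) : Fˣ) : F) = (g.1 : Matrix (Fin n) (Fin n) F).det := rfl

/-- an element of `GU` from a matrix preserving the Hermitian form. -/
noncomputable def guOf (hF : Fintype.card F = q ^ 2) {n : ℕ} (M : Matrix (Fin n) (Fin n) F)
    (hM : IsHermIso n F q M) : ↥(Cfsg.GU n F q) :=
  ⟨(isHermIso_isUnit hF hM).unit, by
    show IsHermIso n F q ((isHermIso_isUnit hF hM).unit : Matrix (Fin n) (Fin n) F)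
    rw [IsUnit.unit_spec]
    exact hM⟩

theorem guOf_coe (hF : Fintype.card F = q ^ 2) {n : ℕ} (M : Matrix (Fin n) (Fin n) F)
    (hM : IsHermIso n F q M) : ((guOf hF M hM).1 : Matrix (Fin n) (Fin n) F) = M :=
  IsUnit.unit_spec _

theorem detGU_surjective (hF : Fintype.card F = q ^ 2) {n : ℕ} (hn : 1 ≤ n) :
    Function.Surjective (detGU hF n) := by
  intro z
  have hz : ((z : Fˣ) : F) ^ (q + 1) = 1 := (mem_normOne _).mp z.2
  refine ⟨guOf hF (diagAt ⟨0, hn⟩ ((z : Fˣ) : F)) (isHermIso_diagAt _ _ hz), ?_⟩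
  apply Subtype.ext
  apply Units.ext
  rw [detGU_coe, guOf_coe, det_diagAt]

theorem center_GU_scalar (hF : Fintype.card F = q ^ 2) {n : ℕ} (hn : 1 ≤ n)
    (g : ↥(Cfsg.GU n F q)) (hg : g ∈ Subgroup.center ↥(Cfsg.GU n F q)) :
    ∃ c : F, c ^ (q + 1) = 1 ∧
      (g.1 : Matrix (Fin n) (Fin n) F) = c • (1 : Matrix (Fin n) (Fin n) F) := by
  have hq : q ≠ 0 := by have := two_le_q hF; omega
  have hsc := central_scalar hF hn (g.1 : Matrix (Fin n) (Fin n) F) (by
    intro M hM _
    have h1 := Subgroup.mem_center_iff.mp hg (guOf hF M hM)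
    have h2 := congrArg (fun x : ↥(Cfsg.GU n F q) => (x.1 : Matrix (Fin n) (Fin n) F)) h1
    simp only [Subgroup.coe_mul, Units.val_mul, guOf_coe] at h2
    exact h2)
  refine ⟨_, ?_, hsc⟩
  have h3 := g.2 (Pi.single ⟨0, hn⟩ 1) (Pi.single ⟨0, hn⟩ 1)
  change Cfsg.hermForm n F q ((g.1 : Matrix (Fin n) (Fin n) F) *ᵥ _)
    ((g.1 : Matrix (Fin n) (Fin n) F) *ᵥ _) = _ at h3
  rw [hsc, Matrix.smul_mulVec, Matrix.one_mulVec, herm_smul_left, herm_smul_right,
    herm_single_right hq, Pi.single_eq_same, mul_one] at h3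
  rw [pow_succ']
  exact h3

/-- the scalar matrix of a norm-one unit, as an element of `GU`. -/
noncomputable def scalarGU (hF : Fintype.card F = q ^ 2) (n : ℕ) (l : ↥(normOne F q)) :
    ↥(Cfsg.GU n F q) :=
  guOf hF (((l : Fˣ) : F) • (1 : Matrix (Fin n) (Fin n) F))
    (isHermIso_smul_one _ ((mem_normOne _).mp l.2))

theorem scalarGU_mem_center (hF : Fintype.card F = q ^ 2) (n : ℕ) (l : ↥(normOne F q)) :
    scalarGU hF n l ∈ Subgroup.center ↥(Cfsg.GU n F q) := by
  rw [Subgroup.mem_center_iff]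
  intro h
  apply Subtype.ext
  apply Units.ext
  simp only [Subgroup.coe_mul, Units.val_mul]
  unfold scalarGU
  rw [guOf_coe, Matrix.mul_smul, Matrix.smul_mul, Matrix.mul_one, Matrix.one_mul]

theorem detGU_scalarGU (hF : Fintype.card F = q ^ 2) (n : ℕ) (l : ↥(normOne F q)) :
    detGU hF n (scalarGU hF n l) = l ^ n := by
  apply Subtype.ext
  apply Units.ext
  rw [detGU_coe]
  unfold scalarGU
  rw [guOf_coe, Matrix.det_smul, Matrix.det_one, mul_one, Fintype.card_fin]
  simp

/-- `GU_n(q)` maps onto the cyclic group of order `gcd(n, q+1)` with kernel `SU·Z`. -/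
theorem gu_quotient (hF : Fintype.card F = q ^ 2) (n : ℕ) (hn : 2 ≤ n) :
    ∃ φ : ↥(Cfsg.GU n F q) →* Multiplicative (ZMod (Nat.gcd n (q + 1))),
      Function.Surjective φ ∧
      φ.ker = (Matrix.GeneralLinearGroup.det :
          Matrix.GeneralLinearGroup (Fin n) F →* Fˣ).ker.subgroupOf (Cfsg.GU n F q) ⊔
        Subgroup.center ↥(Cfsg.GU n F q) := by
  have hN : Nat.card ↥(normOne F q) = q + 1 := card_normOne hF
  have hcard : Nat.card (powMonoidHom (Nat.card ↥(normOne F q) /
      Nat.gcd n (Nat.card ↥(normOne F q))) : ↥(normOne F q) →* ↥(normOne F q)).range =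
      Nat.gcd n (q + 1) := by
    rw [cyclic_card_range, hN]
  obtain ⟨iso⟩ := cyclic_equiv_zmod hcard
  refine ⟨iso.toMonoidHom.comp ((powMonoidHom (Nat.card ↥(normOne F q) /
      Nat.gcd n (Nat.card ↥(normOne F q))) : ↥(normOne F q) →* ↥(normOne F q)).rangeRestrict.comp
      (detGU hF n)), ?_, ?_⟩
  · exact iso.surjective.comp ((MonoidHom.rangeRestrict_surjective _).comp
      (detGU_surjective hF (by omega)))
  · have key : ∀ g : ↥(Cfsg.GU n F q),
        g ∈ (iso.toMonoidHom.comp ((powMonoidHom (Nat.card ↥(normOne F q) /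
          Nat.gcd n (Nat.card ↥(normOne F q))) :
          ↥(normOne F q) →* ↥(normOne F q)).rangeRestrict.comp (detGU hF n))).ker ↔
        (detGU hF n g) ^ (Nat.card ↥(normOne F q) / Nat.gcd n (Nat.card ↥(normOne F q))) = 1 := by
      intro g
      rw [MonoidHom.mem_ker, MonoidHom.comp_apply, MulEquiv.coe_toMonoidHom,
        MulEquiv.map_eq_one_iff, MonoidHom.comp_apply, Subtype.ext_iff]
      rfl
    apply le_antisymm
    · intro g hg
      rw [key] at hg
      obtain ⟨l, hl⟩ := cyclic_exists_pow n (detGU hF n g) hg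
      have hsplit : g = (g * (scalarGU hF n l)⁻¹) * scalarGU hF n l := by group
      rw [hsplit]
      apply Subgroup.mul_mem_sup
      · rw [Subgroup.mem_subgroupOf, MonoidHom.mem_ker]
        have h1 : detGU hF n (g * (scalarGU hF n l)⁻¹) = 1 := by
          rw [map_mul, map_inv, detGU_scalarGU, hl, mul_inv_cancel]
        have h2 := congrArg (fun z : ↥(normOne F q) => (z : Fˣ)) h1
        exact h2
      · exact scalarGU_mem_center hF n l
    · apply sup_le
      · intro g hg
        rw [Subgroup.mem_subgroupOf, MonoidHom.mem_ker] at hg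
        rw [key]
        have h1 : detGU hF n g = 1 := Subtype.ext hg
        rw [h1, one_pow]
      · intro g hg
        rw [key]
        obtain ⟨c, hc, hgc⟩ := center_GU_scalar hF (by omega) g hg
        have hc0 : c ≠ 0 := by
          rintro rfl
          rw [zero_pow (by omega)] at hc
          exact zero_ne_one hc
        have h1 : detGU hF n g = (⟨Units.mk0 c hc0, (mem_normOne _).mpr hc⟩ : ↥(normOne F q)) ^ n := by
          apply Subtype.ext
          apply Units.ext
          rw [detGU_coe, hgc, Matrix.det_smul, Matrix.det_one, mul_one, Fintype.card_fin]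
          simp
        rw [h1]
        exact cyclic_pow_mul_eq_one n _

end GU

end Cfsg.Agent.Lib.Helper13
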