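-- helper13: Gleason-type criteria for multiple transitivity.
import Mathlib

set_option autoImplicit false

namespace Cfsg.Agent.Lib.Helper13

open MulAction

universe u v

/-- fixed points of a subgroup on an orbit of the big group. -/
theorem card_fixedPoints_orbit {G : Type u} {X : Type v} [Group G] [MulAction G X]
    (P : Subgroup G) (x : X) :
    Nat.card (fixedPoints P (orbit G x)) = (orbit G x ∩ fixedPoints P X).ncard := by
  rw [← Nat.card_coe_set_eq]
  apply Nat.card_congr
  refine
    { toFun := fun z => ⟨(z.1 : X), z.1.2, fun g => ?_⟩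
      invFun := fun z => ⟨⟨z.1, z.2.1⟩, fun g => ?_⟩
      left_inv := fun z => rfl
      right_inv := fun z => rfl }
  · have := z.2 g
    exact congrArg Subtype.val this
  · apply Subtype.ext
    exact z.2.2 g

theorem gleason_trans {G : Type u} {X : Type v} [Group G] [MulAction G X] [Finite X] {p k : ℕ}
    (hp : p.Prime) (hk : 1 ≤ k) (hkn : k < Nat.card X)
    (h : ∀ s : Set X, s.ncard = k → ∃ P : Subgroup G, IsPGroup p P ∧ fixedPoints P X = s) :
    IsPretransitive G X := by
  classical
  have : Fact p.Prime := ⟨hp⟩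
  constructor
  intro x y
  by_contra hcon
  have hy : y ∉ orbit G x := fun hy => hcon (by obtain ⟨g, hg⟩ := hy; exact ⟨g, hg⟩)
  have hxy : x ≠ y := by
    rintro rfl
    exact hy (mem_orbit_self x)
  have hcard : k - 1 ≤ ({x, y}ᶜ : Set X).ncard := by
    rw [Set.ncard_compl, Set.ncard_pair hxy]
    omega
  obtain ⟨t, htsub, htcard⟩ := Set.exists_subset_card_eq hcard
  have hxt : x ∉ t := fun h => htsub h (by simp)
  have hyt : y ∉ t := fun h => htsub h (by simp)
  obtain ⟨P₁, hP₁, hfix₁⟩ := h (insert x t) (by
    rw [Set.ncard_insert_of_notMem hxt, htcard]; omega)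
  obtain ⟨P₂, hP₂, hfix₂⟩ := h (insert y t) (by
    rw [Set.ncard_insert_of_notMem hyt, htcard]; omega)
  have m1 := hP₁.card_modEq_card_fixedPoints (orbit G x)
  have m2 := hP₂.card_modEq_card_fixedPoints (orbit G x)
  rw [card_fixedPoints_orbit, hfix₁] at m1
  rw [card_fixedPoints_orbit, hfix₂] at m2
  have e1 : orbit G x ∩ insert x t = insert x (orbit G x ∩ t) :=
    Set.inter_insert_of_mem (mem_orbit_self x)
  have e2 : orbit G x ∩ insert y t = orbit G x ∩ t := Set.inter_insert_of_notMem hy
  rw [e1, Set.ncard_insert_of_notMem (fun h => hxt h.2)] at m1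
  rw [e2] at m2
  have h3 : (orbit G x ∩ t).ncard + 1 ≡ (orbit G x ∩ t).ncard + 0 [MOD p] := m1.symm.trans m2
  have h4 : 1 ≡ 0 [MOD p] := Nat.ModEq.add_left_cancel' _ h3
  have h5 : p ∣ 1 := (Nat.modEq_zero_iff_dvd).mp h4
  exact hp.one_lt.ne' (Nat.dvd_one.mp h5)

theorem gleason_hyp_stabilizer {G : Type u} {X : Type v} [Group G] [MulAction G X] [Finite X]
    {p k : ℕ}
    (h : ∀ s : Set X, s.ncard = k + 1 → ∃ P : Subgroup G, IsPGroup p P ∧ fixedPoints P X = s)
    (a : X) :
    ∀ s : Set (SubMulAction.ofStabilizer G a), s.ncard = k →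
      ∃ P : Subgroup (stabilizer G a),
        IsPGroup p P ∧ fixedPoints P (SubMulAction.ofStabilizer G a) = s := by
  intro s' hs'
  have ha : a ∉ Subtype.val '' s' := SubMulAction.notMem_val_image G s'
  obtain ⟨P, hP, hfix⟩ := h (insert a (Subtype.val '' s')) (by
    rw [Set.ncard_insert_of_notMem ha, Set.ncard_image_of_injective _ Subtype.val_injective, hs'])
  have hPle : P ≤ stabilizer G a := by
    intro g hg
    have : a ∈ fixedPoints P X := by
      rw [hfix]
      exact Set.mem_insert _ _
    exact this ⟨g, hg⟩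
  refine ⟨P.subgroupOf (stabilizer G a), hP.comap_subtype, ?_⟩
  ext z
  constructor
  · intro hz
    have hz' : (z : X) ∈ fixedPoints P X := by
      intro g
      have := hz ⟨⟨g.1, hPle g.2⟩, Subgroup.mem_subgroupOf.mpr g.2⟩
      exact congrArg Subtype.val this
    rw [hfix] at hz'
    rcases hz' with hz' | ⟨w, hw, hwz⟩
    · exact absurd hz' z.2
    · have : w = z := Subtype.ext hwz
      rwa [← this]
  · intro hz g
    have hz' : (z : X) ∈ fixedPoints P X := by
      rw [hfix]
      exact Set.mem_insert_of_mem _ ⟨z, hz, rfl⟩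
    apply Subtype.ext
    exact hz' ⟨g.1.1, Subgroup.mem_subgroupOf.mp g.2⟩

/-- Gleason's lemma, general form: if every `k`-subset is exactly the fixed point set of a
`p`-subgroup (`1 ≤ k < |X|`), the action is `k`-transitive. -/
theorem gleason_aux (p : ℕ) (hp : p.Prime) (k : ℕ) :
    ∀ (G : Type u) (X : Type v) [Group G] [MulAction G X] [Finite X], 1 ≤ k → k < Nat.card X →
      (∀ s : Set X, s.ncard = k → ∃ P : Subgroup G, IsPGroup p P ∧ fixedPoints P X = s) →
      IsMultiplyPretransitive G X k := by
  induction k with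
  | zero =>
    intro G X _ _ _ hk
    omega
  | succ k ih =>
    intro G X _ _ _ hk hkn h
    have htrans : IsPretransitive G X := gleason_trans hp hk hkn h
    by_cases hk0 : k = 0
    · subst hk0
      exact is_one_pretransitive_iff.mpr htrans
    · have hne : Nonempty X := by
        by_contra hempty
        rw [not_nonempty_iff] at hempty
        simp at hkn
      obtain ⟨a⟩ := hne
      rw [SubMulAction.ofStabilizer.isMultiplyPretransitive (a := a)]
      apply ih
      · omega
      · rw [SubMulAction.nat_card_ofStabilizer_eq]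
        omega
      · exact gleason_hyp_stabilizer h a

end Cfsg.Agent.Lib.Helper13
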