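-- helper13: the stabiliser in SU_n(q) of a non-degenerate subspace is maximal.
import Mathlib
import Cfsg.Prelude.Def_GeometricClasses
import Cfsg.Agent.Lib.Helper13.HermWitt

set_option autoImplicit false

namespace Cfsg.Agent.Lib.Helper13

open Matrix Cfsg.Agent.Lib.Helper45 Cfsg.Agent.Lib.Helper44

section SUNondeg

set_option linter.unusedSectionVars false

variable {F : Type*} [Field F] [Fintype F] {q : ℕ} {n k m : ℕ}

theorem isCtr_of_line (hF : Fintype.card F = q ^ 2) (M : Subgroup (GL (Fin n) F))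
    {u z : Fin n → F} (hu : IsCtr q M u)
    (huz : Cfsg.hermForm n F q u z ≠ 0) (i : F) (hi : i ^ q = -i)
    (hu' : IsCtr q M (z + (i / Cfsg.hermForm n F q u z) • u)) : IsCtr q M z := by
  have hzu : Cfsg.hermForm n F q z u ≠ 0 := herm_swap_ne hF huz
  obtain ⟨t, ht⟩ : ∃ t, t = i / Cfsg.hermForm n F q u z := ⟨_, rfl⟩
  rw [← ht] at hu'
  have hu'u : Cfsg.hermForm n F q (z + t • u) u = Cfsg.hermForm n F q z u := by
    rw [herm_add_left, herm_smul_left, hu.1, mul_zero, add_zero]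
  obtain ⟨c, hcdef⟩ : ∃ c, c = (-i) / (Cfsg.hermForm n F q u z * Cfsg.hermForm n F q z u) :=
    ⟨_, rfl⟩
  have hc : c ^ q = -c := by
    rw [hcdef, div_pow, conj_neg hF, hi, mul_pow, herm_conj hF, herm_conj hF, neg_neg, neg_div,
      neg_neg, mul_comm]
  have h3 := isCtr_transv hF M hu' hu c hc
  have e1 : c * Cfsg.hermForm n F q (z + t • u) u = -t := by
    rw [hu'u, hcdef, ht]
    field_simp
  rw [e1] at h3
  have e : z + t • u + -t • u = z := by module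
  rwa [e] at h3

theorem cT_perp (hF : Fintype.card F = q ^ 2) (B₁ : Matrix (Fin n) (Fin k) F)
    (B₂ : Matrix (Fin n) (Fin m) F)
    (horth : ∀ ξ η, Cfsg.hermForm n F q (B₁ *ᵥ ξ) (B₂ *ᵥ η) = 0) (ξ : Fin k → F) :
    cT q B₂ *ᵥ (B₁ *ᵥ ξ) = 0 := by
  classical
  have hq : q ≠ 0 := by have := two_le_q hF; omega
  funext j
  rw [← herm_single_right hq m (cT q B₂ *ᵥ (B₁ *ᵥ ξ)) j, ← herm_mulVec_right hF, horth]
  rfl

/-- an orthogonal splitting of the space by two isometric embeddings. -/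
structure SplitData (q : ℕ) (B₁ : Matrix (Fin n) (Fin k) F) (B₂ : Matrix (Fin n) (Fin m) F) :
    Prop where
  iso₁ : IsIsoEmb q B₁
  iso₂ : IsIsoEmb q B₂
  orth : ∀ ξ η, Cfsg.hermForm n F q (B₁ *ᵥ ξ) (B₂ *ᵥ η) = 0
  span : ∀ v, v = B₁ *ᵥ (cT q B₁ *ᵥ v) + B₂ *ᵥ (cT q B₂ *ᵥ v)

variable {B₁ : Matrix (Fin n) (Fin k) F} {B₂ : Matrix (Fin n) (Fin m) F}

theorem sd_cT21 (hF : Fintype.card F = q ^ 2) (sd : SplitData q B₁ B₂) (ξ : Fin k → F) :
    cT q B₂ *ᵥ (B₁ *ᵥ ξ) = 0 := cT_perp hF B₁ B₂ sd.orth ξ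

theorem sd_cT12 (hF : Fintype.card F = q ^ 2) (sd : SplitData q B₁ B₂) (η : Fin m → F) :
    cT q B₁ *ᵥ (B₂ *ᵥ η) = 0 :=
  cT_perp hF B₂ B₁ (fun η ξ => herm_swap_zero hF (sd.orth ξ η)) η

theorem sd_cT1 (hF : Fintype.card F = q ^ 2) (sd : SplitData q B₁ B₂) (α : Fin k → F)
    (β : Fin m → F) : cT q B₁ *ᵥ (B₁ *ᵥ α + B₂ *ᵥ β) = α := by
  rw [Matrix.mulVec_add, cT_mulVec_mulVec hF sd.iso₁, sd_cT12 hF sd, add_zero]

theorem sd_cT2 (hF : Fintype.card F = q ^ 2) (sd : SplitData q B₁ B₂) (α : Fin k → F)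
    (β : Fin m → F) : cT q B₂ *ᵥ (B₁ *ᵥ α + B₂ *ᵥ β) = β := by
  rw [Matrix.mulVec_add, cT_mulVec_mulVec hF sd.iso₂, sd_cT21 hF sd, zero_add]

theorem sd_herm (hF : Fintype.card F = q ^ 2) (sd : SplitData q B₁ B₂) (α α' : Fin k → F)
    (β β' : Fin m → F) :
    Cfsg.hermForm n F q (B₁ *ᵥ α + B₂ *ᵥ β) (B₁ *ᵥ α' + B₂ *ᵥ β') =
      Cfsg.hermForm k F q α α' + Cfsg.hermForm m F q β β' := by
  rw [herm_add_left, herm_add_right hF, herm_add_right hF, sd.iso₁, sd.iso₂, sd.orth,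
    herm_swap_zero hF (sd.orth _ _)]
  ring

theorem sd_lift (hF : Fintype.card F = q ^ 2) (sd : SplitData q B₁ B₂)
    (A₁ : Matrix (Fin k) (Fin k) F) (A₂ : Matrix (Fin m) (Fin m) F) (α : Fin k → F)
    (β : Fin m → F) :
    (isoLift q B₁ A₁ * isoLift q B₂ A₂) *ᵥ (B₁ *ᵥ α + B₂ *ᵥ β) =
      B₁ *ᵥ (A₁ *ᵥ α) + B₂ *ᵥ (A₂ *ᵥ β) := by
  rw [← Matrix.mulVec_mulVec, Matrix.mulVec_add, isoLift_mulVec_perp _ _ _ (sd_cT21 hF sd α),
    isoLift_mulVec_emb hF sd.iso₂, Matrix.mulVec_add, isoLift_mulVec_emb hF sd.iso₁,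
    isoLift_mulVec_perp _ _ _ (sd_cT12 hF sd _)]

/-- `M` contains the lifts of the determinant-one pairs of isometries. -/
def HasLifts (q : ℕ) (B₁ : Matrix (Fin n) (Fin k) F) (B₂ : Matrix (Fin n) (Fin m) F)
    (M : Subgroup (GL (Fin n) F)) : Prop :=
  ∀ (A₁ : Matrix (Fin k) (Fin k) F) (A₂ : Matrix (Fin m) (Fin m) F), IsHermIso k F q A₁ →
    IsHermIso m F q A₂ → A₁.det * A₂.det = 1 → ∀ E : GL (Fin n) F,
    (E : Matrix (Fin n) (Fin n) F) = isoLift q B₁ A₁ * isoLift q B₂ A₂ → E ∈ M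

theorem ctr_lift (hF : Fintype.card F = q ^ 2) (sd : SplitData q B₁ B₂)
    {M : Subgroup (GL (Fin n) F)} (hL : HasLifts q B₁ B₂ M) {α : Fin k → F} {β : Fin m → F}
    (hC : IsCtr q M (B₁ *ᵥ α + B₂ *ᵥ β)) {A₁ : Matrix (Fin k) (Fin k) F}
    {A₂ : Matrix (Fin m) (Fin m) F} (h₁ : IsHermIso k F q A₁) (h₂ : IsHermIso m F q A₂)
    (hdet : A₁.det * A₂.det = 1) : IsCtr q M (B₁ *ᵥ (A₁ *ᵥ α) + B₂ *ᵥ (A₂ *ᵥ β)) := by
  have hd : (isoLift q B₁ A₁ * isoLift q B₂ A₂).det = 1 := by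
    rw [Matrix.det_mul, det_isoLift hF sd.iso₁, det_isoLift hF sd.iso₂, hdet]
  have hE := hL A₁ A₂ h₁ h₂ hdet (glOfDet _ hd) rfl
  have hi : IsHermIso n F q (isoLift q B₁ A₁ * isoLift q B₂ A₂) :=
    isHermIso_mul (isHermIso_isoLift hF sd.iso₁ h₁) (isHermIso_isoLift hF sd.iso₂ h₂)
  have := isCtr_mulVec M _ hE hi hC
  rwa [glOfDet_val, sd_lift hF sd] at this

/-- Step 1: one centre with non-isotropic components gives all of them. -/
theorem typeII_all (hF : Fintype.card F = q ^ 2) (sd : SplitData q B₁ B₂) (hm : 2 ≤ m)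
    {M : Subgroup (GL (Fin n) F)} (hL : HasLifts q B₁ B₂ M) (α₀ : Fin k → F) (β₀ : Fin m → F)
    (hC : IsCtr q M (B₁ *ᵥ α₀ + B₂ *ᵥ β₀)) (hα₀ : Cfsg.hermForm k F q α₀ α₀ ≠ 0)
    (α : Fin k → F) (β : Fin m → F) (hα : Cfsg.hermForm k F q α α ≠ 0)
    (hαβ : Cfsg.hermForm k F q α α + Cfsg.hermForm m F q β β = 0) :
    IsCtr q M (B₁ *ᵥ α + B₂ *ᵥ β) := by
  have h0 : Cfsg.hermForm k F q α₀ α₀ + Cfsg.hermForm m F q β₀ β₀ = 0 := by
    rw [← sd_herm hF sd]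
    exact hC.1
  have e1 : Cfsg.hermForm m F q β₀ β₀ = -Cfsg.hermForm k F q α₀ α₀ := by linear_combination h0
  have e2 : Cfsg.hermForm m F q β β = -Cfsg.hermForm k F q α α := by linear_combination hαβ
  obtain ⟨μ, hμ⟩ := exists_norm_eq hF
    (Cfsg.hermForm k F q α α / Cfsg.hermForm k F q α₀ α₀) (div_ne_zero hα hα₀)
    (by rw [div_pow, herm_self_conj hF, herm_self_conj hF])
  have hC' := isCtr_smul hF M μ hC
  rw [smul_add, ← Matrix.mulVec_smul, ← Matrix.mulVec_smul] at hC'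
  have hN1 : Cfsg.hermForm k F q (μ • α₀) (μ • α₀) = Cfsg.hermForm k F q α α := by
    rw [herm_smul_left, herm_smul_right, ← mul_assoc, ← pow_succ', hμ, div_mul_cancel₀ _ hα₀]
  have hN2 : Cfsg.hermForm m F q (μ • β₀) (μ • β₀) = Cfsg.hermForm m F q β β := by
    rw [herm_smul_left, herm_smul_right, ← mul_assoc, ← pow_succ', hμ, e1, e2]
    field_simp
  obtain ⟨A₁, hA₁, hA₁α⟩ := exists_hermIso_map_norm hF (μ • α₀) α (hN1 ▸ hα) hN1
  have hd := isHermIso_det hF hA₁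
  have hd0 : A₁.det ≠ 0 := by
    intro h
    rw [h, zero_pow (Nat.succ_ne_zero q)] at hd
    exact zero_ne_one hd
  have hβ' : Cfsg.hermForm m F q β β ≠ 0 := by rw [e2]; exact neg_ne_zero.mpr hα
  obtain ⟨A₂, hA₂, hA₂d, hA₂β⟩ := exists_hermIso_det_map hF hm (μ • β₀) β (hN2 ▸ hβ') hN2
    (A₁.det)⁻¹ (by rw [inv_pow, hd, inv_one])
  have := ctr_lift hF sd hL hC' hA₁ hA₂ (by rw [hA₂d, mul_inv_cancel₀ hd0])
  rwa [hA₁α, hA₂β] at this

/-- Step 2: the centres with both components isotropic. -/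
theorem typeI_all (hF : Fintype.card F = q ^ 2) (sd : SplitData q B₁ B₂) (hm : 3 ≤ m)
    {M : Subgroup (GL (Fin n) F)}
    (hII : ∀ (α : Fin k → F) (β : Fin m → F), Cfsg.hermForm k F q α α ≠ 0 →
      Cfsg.hermForm k F q α α + Cfsg.hermForm m F q β β = 0 → IsCtr q M (B₁ *ᵥ α + B₂ *ᵥ β))
    (α : Fin k → F) (β : Fin m → F) (hα0 : α ≠ 0) (hβ0 : β ≠ 0)
    (hα : Cfsg.hermForm k F q α α = 0) (hβ : Cfsg.hermForm m F q β β = 0) :
    IsCtr q M (B₁ *ᵥ α + B₂ *ᵥ β) := by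
  classical
  have hq : q ≠ 0 := by have := two_le_q hF; omega
  obtain ⟨j, hj⟩ : ∃ j, α j ≠ 0 := by
    by_contra hcon
    push Not at hcon
    exact hα0 (funext hcon)
  obtain ⟨β₁, hβ₁, hβ₁β⟩ := exists_neg_one_perp hF hm β hβ0 hβ
  obtain ⟨i, hi0, hi⟩ := exists_skew hF
  obtain ⟨α₁, hα₁def⟩ : ∃ α₁ : Fin k → F, α₁ = Pi.single j 1 := ⟨_, rfl⟩
  have hα₁ : Cfsg.hermForm k F q α₁ α₁ = 1 := by
    rw [hα₁def, herm_single_right hq]
    simp
  have hκ : Cfsg.hermForm k F q α₁ α = α j ^ q := by rw [hα₁def]; exact herm_single_left hF k α j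
  have hκ' : Cfsg.hermForm k F q α α₁ = α j := by rw [hα₁def]; exact herm_single_right hq k α j
  have hκ0 : α j ^ q ≠ 0 := pow_ne_zero _ hj
  have hu := hII α₁ β₁ (by rw [hα₁]; exact one_ne_zero) (by rw [hα₁, hβ₁]; ring)
  have huz : Cfsg.hermForm n F q (B₁ *ᵥ α₁ + B₂ *ᵥ β₁) (B₁ *ᵥ α + B₂ *ᵥ β) = α j ^ q := by
    rw [sd_herm hF sd, hκ, hβ₁β, add_zero]
  refine isCtr_of_line hF M hu (huz ▸ hκ0) i hi ?_
  · rw [huz]
    obtain ⟨t, ht⟩ : ∃ t, t = i / α j ^ q := ⟨_, rfl⟩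
    rw [← ht]
    have ht0 : t ≠ 0 := by rw [ht]; exact div_ne_zero hi0 hκ0
    have e : B₁ *ᵥ α + B₂ *ᵥ β + t • (B₁ *ᵥ α₁ + B₂ *ᵥ β₁) =
        B₁ *ᵥ (α + t • α₁) + B₂ *ᵥ (β + t • β₁) := by
      simp only [Matrix.mulVec_add, Matrix.mulVec_smul]
      module
    rw [e]
    have t1 : t * α j ^ q = i := by rw [ht, div_mul_cancel₀ _ hκ0]
    have t2 : t ^ q * α j = -i := by
      have := congrArg (fun x => x ^ q) t1
      simp only [mul_pow, conj_conj hF, hi] at this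
      exact this
    have hN : Cfsg.hermForm k F q (α + t • α₁) (α + t • α₁) = t ^ (q + 1) := by
      simp only [herm_add_left, herm_add_right hF, herm_smul_left, herm_smul_right, hα, hα₁,
        hκ, hκ', zero_add]
      rw [pow_succ]
      first | linear_combination t2 | linear_combination t1 + t2
    have hN' : Cfsg.hermForm m F q (β + t • β₁) (β + t • β₁) = -t ^ (q + 1) := by
      simp only [herm_add_left, herm_add_right hF, herm_smul_left, herm_smul_right, hβ, hβ₁,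
        hβ₁β, herm_swap_zero hF hβ₁β, zero_add, mul_zero, add_zero]
      rw [pow_succ]
      ring
    apply hII
    · rw [hN]
      exact pow_ne_zero _ ht0
    · rw [hN, hN']
      ring

/-- no centre with two non-zero isotropic components, if there is none with non-isotropic
 components. -/
theorem no_typeI (hF : Fintype.card F = q ^ 2) (sd : SplitData q B₁ B₂) (hm : 3 ≤ m)
    {M : Subgroup (GL (Fin n) F)} (hL : HasLifts q B₁ B₂ M)
    (hcon : ∀ z, IsCtr q M z →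
      Cfsg.hermForm k F q (cT q B₁ *ᵥ z) (cT q B₁ *ᵥ z) = 0)
    (z : Fin n → F) (hz : IsCtr q M z) : cT q B₁ *ᵥ z = 0 ∨ cT q B₂ *ᵥ z = 0 := by
  classical
  by_contra hne
  push Not at hne
  obtain ⟨hα0, hβ0⟩ := hne
  obtain ⟨α, hαdef⟩ : ∃ α, α = cT q B₁ *ᵥ z := ⟨_, rfl⟩
  obtain ⟨β, hβdef⟩ : ∃ β, β = cT q B₂ *ᵥ z := ⟨_, rfl⟩
  have hzdec : z = B₁ *ᵥ α + B₂ *ᵥ β := by rw [hαdef, hβdef]; exact sd.span z
  rw [← hαdef] at hα0
  rw [← hβdef] at hβ0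
  have hα : Cfsg.hermForm k F q α α = 0 := by rw [hαdef]; exact hcon z hz
  have hβ : Cfsg.hermForm m F q β β = 0 := by
    have := hz.1
    rw [hzdec, sd_herm hF sd, hα, zero_add] at this
    exact this
  have hzC : IsCtr q M (B₁ *ᵥ α + B₂ *ᵥ β) := hzdec ▸ hz
  obtain ⟨i, hi0, hi⟩ := exists_skew hF
  obtain ⟨α'', hα'', hαα'', -⟩ := exists_isotropic_nonperp hF α α hα0 hα0 hα hα
  obtain ⟨A₁, hA₁def⟩ : ∃ A₁, A₁ = Cfsg.unitaryTransvection k q α'' i := ⟨_, rfl⟩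
  have hA₁ : IsHermIso k F q A₁ := by rw [hA₁def]; exact isHermIso_utransv hF α'' i hα'' hi
  have hA₁d : A₁.det = 1 := by rw [hA₁def]; exact det_utransv α'' i hα''
  obtain ⟨θ, hθdef⟩ : ∃ θ, θ = Cfsg.hermForm k F q (A₁ *ᵥ α) α := ⟨_, rfl⟩
  have hθ : θ = i * Cfsg.hermForm k F q α α'' * Cfsg.hermForm k F q α'' α := by
    rw [hθdef, hA₁def, utransv_mulVec, herm_add_left, herm_smul_left, hα, zero_add]
  have hθ0 : θ ≠ 0 := by
    rw [hθ]
    exact mul_ne_zero (mul_ne_zero hi0 hαα'') (herm_swap_ne hF hαα'')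
  have hθ' : Cfsg.hermForm k F q α (A₁ *ᵥ α) = θ ^ q := by rw [hθdef, herm_conj hF]
  obtain ⟨τ, hτ⟩ := exists_trace_eq hF 1 (one_pow q)
  have hτ0 : τ ≠ 0 := by
    rintro rfl
    rw [conj_zero hF, add_zero] at hτ
    exact zero_ne_one hτ
  obtain ⟨β', hβ'0, hβ', hββ'⟩ := exists_isotropic_pair_val hF β hβ0 hβ (τ / (i * θ))
    (div_ne_zero hτ0 (mul_ne_zero hi0 hθ0))
  obtain ⟨A₂, hA₂, hA₂d, hA₂β⟩ := exists_hermIso_det_one_map hF hm β β' hβ0 hβ'0 hβ hβ'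
  have hz' := ctr_lift hF sd hL hzC hA₁ hA₂ (by rw [hA₁d, hA₂d, one_mul])
  rw [hA₂β] at hz'
  have h3 := isCtr_transv hF M hzC hz' i hi
  have hκ : Cfsg.hermForm n F q (B₁ *ᵥ α + B₂ *ᵥ β) (B₁ *ᵥ (A₁ *ᵥ α) + B₂ *ᵥ β') =
      θ ^ q + τ / (i * θ) := by
    rw [sd_herm hF sd, hββ', hθ']
  have h4 := hcon _ h3
  rw [hκ, Matrix.mulVec_add, Matrix.mulVec_smul, sd_cT1 hF sd, sd_cT1 hF sd] at h4
  obtain ⟨s, hs⟩ : ∃ s, s = i * (θ ^ q + τ / (i * θ)) := ⟨_, rfl⟩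
  rw [← hs] at h4
  have hsθ : s * θ = i * θ ^ (q + 1) + τ := by
    rw [hs, pow_succ]
    field_simp
  have hsθq : s ^ q * θ ^ q = -i * θ ^ (q + 1) + τ ^ q := by
    rw [← mul_pow, hsθ, conj_add hF, mul_pow, norm_fixed hF, hi]
  simp only [herm_add_left, herm_add_right hF, herm_smul_left, herm_smul_right, hα, hA₁ α α,
    hθ', ← hθdef, zero_add, mul_zero, add_zero] at h4
  have h5 : s * θ + s ^ q * θ ^ q = 1 := by
    rw [hsθ, hsθq]
    linear_combination hτ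
  have h6 : s * θ + s ^ q * θ ^ q = 0 := by linear_combination h4
  rw [h5] at h6
  exact one_ne_zero h6

/-- Step 3: a centre with non-isotropic components exists. -/
theorem exists_typeII (hF : Fintype.card F = q ^ 2) (sd : SplitData q B₁ B₂) (hm : 3 ≤ m)
    (hkm : k < m) {M : Subgroup (GL (Fin n) F)} (hL : HasLifts q B₁ B₂ M)
    (hiso : ∀ g ∈ M, IsHermIso n F q (g : Matrix (Fin n) (Fin n) F))
    (hUC : ∀ β : Fin m → F, Cfsg.hermForm m F q β β = 0 → IsCtr q M (B₂ *ᵥ β))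
    (g : GL (Fin n) F) (hg : g ∈ M)
    (hgW : ∃ ξ, cT q B₂ *ᵥ ((g : Matrix (Fin n) (Fin n) F) *ᵥ (B₁ *ᵥ ξ)) ≠ 0) :
    ∃ z, IsCtr q M z ∧ Cfsg.hermForm k F q (cT q B₁ *ᵥ z) (cT q B₁ *ᵥ z) ≠ 0 := by
  classical
  have hq : q ≠ 0 := by have := two_le_q hF; omega
  by_contra hcon
  push Not at hcon
  have f1 := no_typeI hF sd hm hL hcon
  obtain ⟨β₀, hβ₀0, hβ₀⟩ := exists_isotropic_ne_zero (F := F) (q := q) (n := m) hF (by omega)
  have hgi := hiso g hg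
  have hdich : ∀ β : Fin m → F, Cfsg.hermForm m F q β β = 0 →
      cT q B₁ *ᵥ ((g : Matrix (Fin n) (Fin n) F) *ᵥ (B₂ *ᵥ β)) = 0 ∨
      cT q B₂ *ᵥ ((g : Matrix (Fin n) (Fin n) F) *ᵥ (B₂ *ᵥ β)) = 0 :=
    fun β hβ => f1 _ (isCtr_mulVec M g hg hgi (hUC β hβ))
  have hboth : ∀ β : Fin m → F,
      cT q B₁ *ᵥ ((g : Matrix (Fin n) (Fin n) F) *ᵥ (B₂ *ᵥ β)) = 0 →
      cT q B₂ *ᵥ ((g : Matrix (Fin n) (Fin n) F) *ᵥ (B₂ *ᵥ β)) = 0 → β = 0 := by
    intro β h1 h2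
    have h3 := sd.span ((g : Matrix (Fin n) (Fin n) F) *ᵥ (B₂ *ᵥ β))
    rw [h1, h2, Matrix.mulVec_zero, Matrix.mulVec_zero, add_zero] at h3
    have h4 := congrArg (fun v => ((g⁻¹ : GL (Fin n) F) : Matrix (Fin n) (Fin n) F) *ᵥ v) h3
    simp only [gl_inv_mulVec, Matrix.mulVec_zero] at h4
    apply isoEmb_injective hF sd.iso₂
    rw [h4, Matrix.mulVec_zero]
  have hprop : ∀ β β' : Fin m → F, Cfsg.hermForm m F q β β = 0 →
      Cfsg.hermForm m F q β' β' = 0 → Cfsg.hermForm m F q β β' ≠ 0 →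
      (cT q B₂ *ᵥ ((g : Matrix (Fin n) (Fin n) F) *ᵥ (B₂ *ᵥ β)) = 0 →
        cT q B₂ *ᵥ ((g : Matrix (Fin n) (Fin n) F) *ᵥ (B₂ *ᵥ β')) = 0) ∧
      (cT q B₁ *ᵥ ((g : Matrix (Fin n) (Fin n) F) *ᵥ (B₂ *ᵥ β)) = 0 →
        cT q B₁ *ᵥ ((g : Matrix (Fin n) (Fin n) F) *ᵥ (B₂ *ᵥ β')) = 0) := by
    intro β β' hβ hβ' hne
    have hne' : Cfsg.hermForm n F q ((g : Matrix (Fin n) (Fin n) F) *ᵥ (B₂ *ᵥ β))
        ((g : Matrix (Fin n) (Fin n) F) *ᵥ (B₂ *ᵥ β')) ≠ 0 := by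
      rw [hgi, sd.iso₂]
      exact hne
    constructor
    · intro hW
      rcases hdich β' hβ' with h' | h'
      · exfalso
        apply hne'
        rw [sd.span ((g : Matrix (Fin n) (Fin n) F) *ᵥ (B₂ *ᵥ β)),
          sd.span ((g : Matrix (Fin n) (Fin n) F) *ᵥ (B₂ *ᵥ β')), hW, h', Matrix.mulVec_zero,
          Matrix.mulVec_zero, add_zero, zero_add]
        exact sd.orth _ _
      · exact h'
    · intro hU
      rcases hdich β' hβ' with h' | h'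
      · exact h'
      · exfalso
        apply hne'
        rw [sd.span ((g : Matrix (Fin n) (Fin n) F) *ᵥ (B₂ *ᵥ β)),
          sd.span ((g : Matrix (Fin n) (Fin n) F) *ᵥ (B₂ *ᵥ β')), hU, h', Matrix.mulVec_zero,
          Matrix.mulVec_zero, add_zero, zero_add]
        exact herm_swap_zero hF (sd.orth _ _)
  rcases hdich β₀ hβ₀ with hU₀ | hW₀
  · -- everything of `U` is mapped into `U`
    have hallU : ∀ β : Fin m → F, Cfsg.hermForm m F q β β = 0 →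
        cT q B₁ *ᵥ ((g : Matrix (Fin n) (Fin n) F) *ᵥ (B₂ *ᵥ β)) = 0 := by
      intro β hβ
      by_cases hβ0 : β = 0
      · rw [hβ0, Matrix.mulVec_zero, Matrix.mulVec_zero, Matrix.mulVec_zero]
      by_cases hne : Cfsg.hermForm m F q β₀ β = 0
      · obtain ⟨u, hu, hβ₀u, huβ⟩ := exists_isotropic_nonperp hF β₀ β hβ₀0 hβ0 hβ₀ hne
        exact (hprop u β hu hβ huβ).2 ((hprop β₀ u hβ₀ hu hβ₀u).2 hU₀)
      · exact (hprop β₀ β hβ₀ hβ hne).2 hU₀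
    have hallU' : ∀ β : Fin m → F,
        cT q B₁ *ᵥ ((g : Matrix (Fin n) (Fin n) F) *ᵥ (B₂ *ᵥ β)) = 0 := by
      intro β
      obtain ⟨x, y, hx, hy, rfl⟩ := exists_isotropic_add hF (by omega) β
      rw [Matrix.mulVec_add, Matrix.mulVec_add, Matrix.mulVec_add, hallU x hx, hallU y hy,
        add_zero]
    obtain ⟨φ, hφ⟩ : ∃ φ : (Fin m → F) →ₗ[F] (Fin m → F),
        φ = Matrix.mulVecLin (cT q B₂ * (g : Matrix (Fin n) (Fin n) F) * B₂) := ⟨_, rfl⟩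
    have hφapp : ∀ β, φ β = cT q B₂ *ᵥ ((g : Matrix (Fin n) (Fin n) F) *ᵥ (B₂ *ᵥ β)) := by
      intro β
      rw [hφ, Matrix.mulVecLin_apply, ← Matrix.mulVec_mulVec, ← Matrix.mulVec_mulVec]
    have hφinj : Function.Injective φ := by
      rw [← LinearMap.ker_eq_bot, LinearMap.ker_eq_bot']
      intro β hβ
      rw [hφapp] at hβ
      exact hboth β (hallU' β) hβ
    have hφsurj : Function.Surjective φ := LinearMap.injective_iff_surjective.mp hφinj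
    obtain ⟨ξ, hξ⟩ := hgW
    apply hξ
    funext j
    obtain ⟨η, hη⟩ := hφsurj (Pi.single j 1)
    rw [hφapp] at hη
    have h1 := sd.span ((g : Matrix (Fin n) (Fin n) F) *ᵥ (B₂ *ᵥ η))
    rw [hallU' η, hη, Matrix.mulVec_zero, zero_add] at h1
    rw [← herm_single_right hq m (cT q B₂ *ᵥ ((g : Matrix (Fin n) (Fin n) F) *ᵥ (B₁ *ᵥ ξ))) j,
      ← herm_mulVec_right hF, ← h1, hgi, sd.orth]
    rfl
  · -- everything of `U` is mapped into `W`: impossible by dimension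
    have hallW : ∀ β : Fin m → F, Cfsg.hermForm m F q β β = 0 →
        cT q B₂ *ᵥ ((g : Matrix (Fin n) (Fin n) F) *ᵥ (B₂ *ᵥ β)) = 0 := by
      intro β hβ
      by_cases hβ0 : β = 0
      · rw [hβ0, Matrix.mulVec_zero, Matrix.mulVec_zero, Matrix.mulVec_zero]
      by_cases hne : Cfsg.hermForm m F q β₀ β = 0
      · obtain ⟨u, hu, hβ₀u, huβ⟩ := exists_isotropic_nonperp hF β₀ β hβ₀0 hβ0 hβ₀ hne
        exact (hprop u β hu hβ huβ).1 ((hprop β₀ u hβ₀ hu hβ₀u).1 hW₀)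
      · exact (hprop β₀ β hβ₀ hβ hne).1 hW₀
    have hallW' : ∀ β : Fin m → F,
        cT q B₂ *ᵥ ((g : Matrix (Fin n) (Fin n) F) *ᵥ (B₂ *ᵥ β)) = 0 := by
      intro β
      obtain ⟨x, y, hx, hy, rfl⟩ := exists_isotropic_add hF (by omega) β
      rw [Matrix.mulVec_add, Matrix.mulVec_add, Matrix.mulVec_add, hallW x hx, hallW y hy,
        add_zero]
    obtain ⟨φ, hφ⟩ : ∃ φ : (Fin m → F) →ₗ[F] (Fin k → F),
        φ = Matrix.mulVecLin (cT q B₁ * (g : Matrix (Fin n) (Fin n) F) * B₂) := ⟨_, rfl⟩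
    have hφapp : ∀ β, φ β = cT q B₁ *ᵥ ((g : Matrix (Fin n) (Fin n) F) *ᵥ (B₂ *ᵥ β)) := by
      intro β
      rw [hφ, Matrix.mulVecLin_apply, ← Matrix.mulVec_mulVec, ← Matrix.mulVec_mulVec]
    have hφinj : Function.Injective φ := by
      rw [← LinearMap.ker_eq_bot, LinearMap.ker_eq_bot']
      intro β hβ
      rw [hφapp] at hβ
      exact hboth β hβ (hallW' β)
    have := LinearMap.finrank_le_finrank_of_injective hφinj
    rw [Module.finrank_fin_fun, Module.finrank_fin_fun] at this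
    omega

/-- The stabiliser in `SU_n(q)` of a non-degenerate subspace of dimension less than `n/2` is
maximal. -/
theorem su_nondeg_stab_max (hF : Fintype.card F = q ^ 2) (hn : 4 ≤ n)
    (W : Submodule F (Fin n → F)) (hW0 : W ≠ ⊥)
    (hW : Cfsg.Geo.IsNondegenerateOn (Cfsg.hermForm n F q) W)
    (hdim : 2 * Module.finrank F W < n) :
    Cfsg.Geo.IsMaximalIn (suGL n F q) (Cfsg.Geo.subspaceStabilizer W ⊓ suGL n F q) := by
  classical
  have hq : q ≠ 0 := by have := two_le_q hF; omega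
  obtain ⟨B₁, hB₁, hr₁⟩ := exists_isoEmb hF W hW
  have hUnd := hperp_nondeg hF hB₁ W hr₁
  obtain ⟨B₂, hB₂, hr₂⟩ := exists_isoEmb hF (hperp hF W) hUnd
  have hfr := finrank_hperp hF hB₁ W hr₁
  have hk : 1 ≤ Module.finrank F W := by
    rw [Nat.one_le_iff_ne_zero]
    intro h0
    exact hW0 (Submodule.finrank_eq_zero.mp h0)
  have hm : 3 ≤ Module.finrank F (hperp hF W) := by omega
  have hkm : Module.finrank F W < Module.finrank F (hperp hF W) := by omega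
  have horth : ∀ ξ η, Cfsg.hermForm n F q (B₁ *ᵥ ξ) (B₂ *ᵥ η) = 0 := fun ξ η =>
    (mem_hperp hF W _).mp ((hr₂ _).mpr ⟨η, rfl⟩) _ ((hr₁ _).mpr ⟨ξ, rfl⟩)
  have sd : SplitData q B₁ B₂ := by
    refine ⟨hB₁, hB₂, horth, fun v => ?_⟩
    have h1 := sub_proj_mem_hperp hF hB₁ W hr₁ v
    obtain ⟨η, hη⟩ := (hr₂ _).mp h1
    have h2 : cT q B₂ *ᵥ v = η := by
      have := congrArg (fun x => cT q B₂ *ᵥ x) hη
      simp only [cT_mulVec_mulVec hF hB₂, Matrix.mulVec_sub, cT_perp hF B₁ B₂ horth,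
        sub_zero] at this
      exact this.symm
    rw [h2, hη]
    abel
  have hWmem : ∀ v, v ∈ W ↔ cT q B₂ *ᵥ v = 0 := by
    intro v
    constructor
    · intro hv
      obtain ⟨ξ, rfl⟩ := (hr₁ v).mp hv
      exact sd_cT21 hF sd ξ
    · intro hv
      rw [sd.span v, hv, Matrix.mulVec_zero, add_zero]
      exact (hr₁ _).mpr ⟨_, rfl⟩
  obtain ⟨i, hi0, hi⟩ := exists_skew hF
  constructor
  · rw [SetLike.lt_iff_le_and_exists]
    refine ⟨inf_le_right, ?_⟩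
    obtain ⟨β₁, hβ₁⟩ := exists_norm_neg_one (F := F) (q := q)
      (m := Module.finrank F (hperp hF W)) hF (by omega)
    obtain ⟨α₁, hα₁def⟩ : ∃ α₁ : Fin (Module.finrank F W) → F,
        α₁ = Pi.single ⟨0, hk⟩ 1 := ⟨_, rfl⟩
    have hα₁ : Cfsg.hermForm (Module.finrank F W) F q α₁ α₁ = 1 := by
      rw [hα₁def, herm_single_right hq]
      simp
    obtain ⟨u, hudef⟩ : ∃ u, u = B₁ *ᵥ α₁ + B₂ *ᵥ β₁ := ⟨_, rfl⟩
    have hu : Cfsg.hermForm n F q u u = 0 := by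
      rw [hudef, sd_herm hF sd, hα₁, hβ₁]
      ring
    refine ⟨glOfDet _ (det_utransv u i hu),
      glOfDet_mem_suGL _ _ (isHermIso_utransv hF u i hu hi), ?_⟩
    intro hmem
    have hstab : ∀ v, v ∈ (W : Set (Fin n → F)) ↔
        ((glOfDet _ (det_utransv u i hu) : GL (Fin n) F) : Matrix (Fin n) (Fin n) F) *ᵥ v ∈
          (W : Set (Fin n → F)) := (Subgroup.mem_inf.mp hmem).1
    have hw₀ : B₁ *ᵥ α₁ ∈ W := (hr₁ _).mpr ⟨_, rfl⟩
    have h1 : ((glOfDet _ (det_utransv u i hu) : GL (Fin n) F) : Matrix (Fin n) (Fin n) F) *ᵥ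
        (B₁ *ᵥ α₁) ∈ W := (hstab _).mp hw₀
    have hwu : Cfsg.hermForm n F q (B₁ *ᵥ α₁) u = 1 := by
      have e : B₁ *ᵥ α₁ = B₁ *ᵥ α₁ + B₂ *ᵥ 0 := by rw [Matrix.mulVec_zero, add_zero]
      rw [e, hudef, sd_herm hF sd, hα₁, herm_zero_left hF, add_zero]
    rw [glOfDet_val, utransv_mulVec, hwu, mul_one] at h1
    have h2 : i • u ∈ W := by
      have := W.sub_mem h1 hw₀
      rwa [add_sub_cancel_left] at this
    have h3 : u ∈ W := by
      have := W.smul_mem i⁻¹ h2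
      rwa [smul_smul, inv_mul_cancel₀ hi0, one_smul] at this
    have h4 := (hWmem u).mp h3
    rw [hudef, sd_cT2 hF sd] at h4
    rw [h4, herm_zero_left hF] at hβ₁
    exact one_ne_zero (neg_eq_zero.mp hβ₁.symm)
  · intro M hM1 hM2
    by_cases hMH : M = Cfsg.Geo.subspaceStabilizer W ⊓ suGL n F q
    · exact Or.inl hMH
    right
    refine le_antisymm hM2 (suGL_le_of_ctr hF (Or.inl hn) M ?_)
    obtain ⟨g, hgM, hgH⟩ := SetLike.exists_of_lt (lt_of_le_of_ne hM1 (Ne.symm hMH))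
    have hgS := hM2 hgM
    have hiso : ∀ k ∈ M, IsHermIso n F q (k : Matrix (Fin n) (Fin n) F) :=
      fun k hk => ((mem_suGL_iff k).mp (hM2 hk)).1
    have hgW : g ∉ Cfsg.Geo.subspaceStabilizer W :=
      fun h => hgH (Subgroup.mem_inf.mpr ⟨h, hgS⟩)
    have hL : HasLifts q B₁ B₂ M := by
      intro A₁ A₂ h₁ h₂ hdet E hE
      refine hM1 (Subgroup.mem_inf.mpr ⟨mem_stab_of_mapsTo _ _ ?_, ?_⟩)
      · intro x hx
        obtain ⟨ξ, rfl⟩ := (hr₁ x).mp hx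
        have e : B₁ *ᵥ ξ = B₁ *ᵥ ξ + B₂ *ᵥ 0 := by rw [Matrix.mulVec_zero, add_zero]
        rw [hE, e, sd_lift hF sd, Matrix.mulVec_zero, Matrix.mulVec_zero, add_zero]
        exact (hr₁ _).mpr ⟨_, rfl⟩
      · rw [mem_suGL_iff, hE]
        exact ⟨isHermIso_mul (isHermIso_isoLift hF hB₁ h₁) (isHermIso_isoLift hF hB₂ h₂), by
          rw [Matrix.det_mul, det_isoLift hF hB₁, det_isoLift hF hB₂, hdet]⟩
    have hUC : ∀ β : Fin (Module.finrank F (hperp hF W)) → F,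
        Cfsg.hermForm _ F q β β = 0 → IsCtr q M (B₂ *ᵥ β) := by
      intro β hβ
      have hy : Cfsg.hermForm n F q (B₂ *ᵥ β) (B₂ *ᵥ β) = 0 := by rw [hB₂, hβ]
      refine ⟨hy, fun c hc E hE => hM1 (Subgroup.mem_inf.mpr ⟨mem_stab_of_mapsTo _ _ ?_, ?_⟩)⟩
      · intro x hx
        obtain ⟨ξ, rfl⟩ := (hr₁ x).mp hx
        rw [hE, utransv_mulVec, horth, mul_zero, zero_smul, add_zero]
        exact (hr₁ _).mpr ⟨_, rfl⟩
      · rw [mem_suGL_iff, hE]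
        exact ⟨isHermIso_utransv hF _ c hy hc, det_utransv _ c hy⟩
    have hWC : ∀ α : Fin (Module.finrank F W) → F,
        Cfsg.hermForm _ F q α α = 0 → IsCtr q M (B₁ *ᵥ α) := by
      intro α hα
      have hy : Cfsg.hermForm n F q (B₁ *ᵥ α) (B₁ *ᵥ α) = 0 := by rw [hB₁, hα]
      refine ⟨hy, fun c hc E hE => hM1 (Subgroup.mem_inf.mpr ⟨mem_stab_of_mapsTo _ _ ?_, ?_⟩)⟩
      · intro x hx
        have hx' : x ∈ W := hx
        rw [hE, utransv_mulVec]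
        exact W.add_mem hx' (W.smul_mem _ ((hr₁ _).mpr ⟨_, rfl⟩))
      · rw [mem_suGL_iff, hE]
        exact ⟨isHermIso_utransv hF _ c hy hc, det_utransv _ c hy⟩
    have hex : ∃ ξ, cT q B₂ *ᵥ ((g : Matrix (Fin n) (Fin n) F) *ᵥ (B₁ *ᵥ ξ)) ≠ 0 := by
      by_contra hcon
      push Not at hcon
      apply hgW
      apply mem_stab_of_mapsTo
      intro x hx
      obtain ⟨ξ, rfl⟩ := (hr₁ x).mp hx
      exact (hWmem _).mpr (hcon ξ)
    obtain ⟨z₀, hz₀, hN⟩ := exists_typeII hF sd hm hkm hL hiso hUC g hgM hex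
    rw [sd.span z₀] at hz₀
    have hII := typeII_all hF sd (by omega) hL _ _ hz₀ hN
    have hI := typeI_all hF sd hm hII
    intro z hz
    rw [sd.span z]
    have hz' := hz
    rw [sd.span z, sd_herm hF sd] at hz'
    by_cases hα : Cfsg.hermForm _ F q (cT q B₁ *ᵥ z) (cT q B₁ *ᵥ z) = 0
    · have hβ : Cfsg.hermForm _ F q (cT q B₂ *ᵥ z) (cT q B₂ *ᵥ z) = 0 := by
        rw [hα, zero_add] at hz'
        exact hz'
      by_cases hα0 : cT q B₁ *ᵥ z = 0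
      · rw [hα0, Matrix.mulVec_zero, zero_add]
        exact hUC _ hβ
      by_cases hβ0 : cT q B₂ *ᵥ z = 0
      · rw [hβ0, Matrix.mulVec_zero, add_zero]
        exact hWC _ hα
      exact hI _ _ hα0 hβ0 hα hβ
    · exact hII _ _ hα hz'

end SUNondeg

end Cfsg.Agent.Lib.Helper13
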