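-- helper13: rational structures over the subfield of order q inside F_{q^2}^n; membership in
-- the subfield subgroup.
import Mathlib
import Cfsg.Prelude.Def_GeometricClasses
import Cfsg.Agent.Lib.Helper13.SUNondegMax
import Cfsg.Agent.Lib.Helper45.HermPlanes

set_option autoImplicit false

namespace Cfsg.Agent.Lib.Helper13

open Matrix Cfsg.Agent.Lib.Helper45 Cfsg.Agent.Lib.Helper44

section SubfieldRat

set_option linter.unusedSectionVars false

variable {F : Type*} [Field F] [Fintype F] {q : ℕ} {n : ℕ}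

theorem card_subfield_eq (hF : Fintype.card F = q ^ 2) (F₀ : Subfield F)
    (hcard : Fintype.card F = Nat.card F₀ ^ 2) : Nat.card F₀ = q := by
  have h : Nat.card F₀ ^ 2 = q ^ 2 := by rw [← hcard, hF]
  exact Nat.pow_left_injective (by norm_num) h

/-- the subfield of order `q` is the fixed field of the `q`-power map. -/
theorem mem_subfield_iff_fixed (hF : Fintype.card F = q ^ 2) (F₀ : Subfield F)
    (hcard : Fintype.card F = Nat.card F₀ ^ 2) (a : F) : a ∈ F₀ ↔ a ^ q = a := by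
  classical
  have hq0 := card_subfield_eq hF F₀ hcard
  have h1 : ∀ a : F, a ∈ F₀ → a ^ q = a := by
    intro a ha
    have : Fintype F₀ := Fintype.ofFinite _
    have := FiniteField.pow_card (⟨a, ha⟩ : F₀)
    rw [← Nat.card_eq_fintype_card, hq0] at this
    exact congrArg Subtype.val this
  refine ⟨h1 a, fun ha => ?_⟩
  have hsub : (Finset.univ.filter (fun d : F => d ∈ F₀)) ⊆
      Finset.univ.filter (fun d : F => d ^ q = d) := by
    intro d hd
    rw [Finset.mem_filter] at hd ⊢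
    exact ⟨hd.1, h1 d hd.2⟩
  have hc1 : (Finset.univ.filter (fun d : F => d ∈ F₀)).card = q := by
    rw [← hq0, Nat.card_eq_fintype_card, Fintype.card_subtype]
  have hc2 := card_fix_le (F := F) (q := q) (two_le_q hF)
  have heq := Finset.eq_of_subset_of_card_le hsub (by rw [hc1]; exact hc2)
  have hmem : a ∈ Finset.univ.filter (fun d : F => d ^ q = d) := by simp [ha]
  rw [← heq] at hmem
  exact (Finset.mem_filter.mp hmem).2

theorem exists_subfield_decomp (hF : Fintype.card F = q ^ 2) (F₀ : Subfield F)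
    (hcard : Fintype.card F = Nat.card F₀ ^ 2) (ω : F) (hω : ω ^ q ≠ ω) (a : F) :
    ∃ a₁ a₂ : F, a₁ ∈ F₀ ∧ a₂ ∈ F₀ ∧ a = a₁ + ω * a₂ := by
  have hd : ω - ω ^ q ≠ 0 := sub_ne_zero.mpr (Ne.symm hω)
  have hb : ((a - a ^ q) / (ω - ω ^ q)) ^ q = (a - a ^ q) / (ω - ω ^ q) := by
    rw [div_pow, conj_sub hF, conj_sub hF, conj_conj hF, conj_conj hF, ← neg_sub a, ← neg_sub ω,
      neg_div_neg_eq]
  refine ⟨a - ω * ((a - a ^ q) / (ω - ω ^ q)), (a - a ^ q) / (ω - ω ^ q), ?_, ?_, by ring⟩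
  · rw [mem_subfield_iff_fixed hF F₀ hcard, conj_sub hF, mul_pow, hb]
    field_simp
    ring
  · rw [mem_subfield_iff_fixed hF F₀ hcard]
    exact hb

/-- rational vectors: the `F₀`-span of the columns of `P`. -/
def IsRat (F₀ : Subfield F) (P : GL (Fin n) F) (v : Fin n → F) : Prop :=
  ∃ u : Fin n → F, (∀ i, u i ∈ F₀) ∧ (P : Matrix (Fin n) (Fin n) F) *ᵥ u = v

theorem isRat_zero (F₀ : Subfield F) (P : GL (Fin n) F) : IsRat F₀ P 0 :=
  ⟨0, fun _ => F₀.zero_mem, Matrix.mulVec_zero _⟩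

theorem isRat_add {F₀ : Subfield F} {P : GL (Fin n) F} {x y : Fin n → F} (hx : IsRat F₀ P x)
    (hy : IsRat F₀ P y) : IsRat F₀ P (x + y) := by
  obtain ⟨u, hu, rfl⟩ := hx
  obtain ⟨w, hw, rfl⟩ := hy
  exact ⟨u + w, fun i => F₀.add_mem (hu i) (hw i), Matrix.mulVec_add _ _ _⟩

theorem isRat_smul {F₀ : Subfield F} {P : GL (Fin n) F} {x : Fin n → F} {a : F} (ha : a ∈ F₀)
    (hx : IsRat F₀ P x) : IsRat F₀ P (a • x) := by
  obtain ⟨u, hu, rfl⟩ := hx
  exact ⟨a • u, fun i => F₀.mul_mem ha (hu i), Matrix.mulVec_smul _ _ _⟩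

theorem isRat_neg {F₀ : Subfield F} {P : GL (Fin n) F} {x : Fin n → F} (hx : IsRat F₀ P x) :
    IsRat F₀ P (-x) := by
  have := isRat_smul (a := -1) (F₀.neg_mem F₀.one_mem) hx
  rwa [neg_one_smul] at this

theorem isRat_sub {F₀ : Subfield F} {P : GL (Fin n) F} {x y : Fin n → F} (hx : IsRat F₀ P x)
    (hy : IsRat F₀ P y) : IsRat F₀ P (x - y) := by
  rw [sub_eq_add_neg]
  exact isRat_add hx (isRat_neg hy)

theorem isRat_col (F₀ : Subfield F) (P : GL (Fin n) F) (j : Fin n) :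
    IsRat F₀ P ((P : Matrix (Fin n) (Fin n) F) *ᵥ Pi.single j 1) := by
  classical
  refine ⟨Pi.single j 1, fun i => ?_, rfl⟩
  by_cases h : i = j
  · subst h
    rw [Pi.single_eq_same]
    exact F₀.one_mem
  · rw [Pi.single_eq_of_ne h]
    exact F₀.zero_mem

theorem exists_rat_decomp (hF : Fintype.card F = q ^ 2) (F₀ : Subfield F)
    (hcard : Fintype.card F = Nat.card F₀ ^ 2) (P : GL (Fin n) F) (ω : F) (hω : ω ^ q ≠ ω)
    (v : Fin n → F) : ∃ x y, IsRat F₀ P x ∧ IsRat F₀ P y ∧ v = x + ω • y := by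
  have h := fun i => exists_subfield_decomp hF F₀ hcard ω hω
    ((((P⁻¹ : GL (Fin n) F) : Matrix (Fin n) (Fin n) F) *ᵥ v) i)
  choose u₁ u₂ h₁ h₂ h₃ using h
  refine ⟨(P : Matrix (Fin n) (Fin n) F) *ᵥ u₁, (P : Matrix (Fin n) (Fin n) F) *ᵥ u₂,
    ⟨u₁, h₁, rfl⟩, ⟨u₂, h₂, rfl⟩, ?_⟩
  have e : ((P⁻¹ : GL (Fin n) F) : Matrix (Fin n) (Fin n) F) *ᵥ v = u₁ + ω • u₂ := by
    funext i
    rw [h₃ i]
    rfl
  rw [← Matrix.mulVec_smul, ← Matrix.mulVec_add, ← e, gl_mulVec_inv]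

/-- criterion for membership in the subfield subgroup. -/
theorem mem_subfieldSubgroup_of_maps (F₀ : Subfield F) (P E : GL (Fin n) F) (c : F)
    (hc : c ≠ 0)
    (h : ∀ v, IsRat F₀ P v →
      ∃ v', IsRat F₀ P v' ∧ (E : Matrix (Fin n) (Fin n) F) *ᵥ v = c • v') :
    E ∈ Cfsg.Geo.subfieldSubgroup F₀ P := by
  classical
  obtain ⟨B, hB⟩ : ∃ B : Matrix (Fin n) (Fin n) F, B = c⁻¹ •
      (((P⁻¹ : GL (Fin n) F) : Matrix (Fin n) (Fin n) F) * (E : Matrix (Fin n) (Fin n) F) *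
        (P : Matrix (Fin n) (Fin n) F)) := ⟨_, rfl⟩
  have hBmem : ∀ i j, B i j ∈ F₀ := by
    intro i j
    obtain ⟨v', ⟨u', hu', rfl⟩, hv'⟩ := h _ (isRat_col F₀ P j)
    have h1 : B *ᵥ Pi.single j 1 = u' := by
      rw [hB, Matrix.smul_mulVec, ← Matrix.mulVec_mulVec, ← Matrix.mulVec_mulVec, hv',
        Matrix.mulVec_smul, gl_inv_mulVec, smul_smul, inv_mul_cancel₀ hc, one_smul]
    have h2 : B i j = u' i := by
      rw [← h1, Matrix.mulVec_single_one]
      rfl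
    rw [h2]
    exact hu' i
  obtain ⟨B₀, hB₀⟩ : ∃ B₀ : Matrix (Fin n) (Fin n) F₀, B₀ = fun i j => ⟨B i j, hBmem i j⟩ :=
    ⟨_, rfl⟩
  have hmap : B₀.map F₀.subtype = B := by
    ext i j
    rw [hB₀]
    rfl
  have hBdet : B.det ≠ 0 := by
    rw [hB, Matrix.det_smul, Matrix.det_mul, Matrix.det_mul]
    refine mul_ne_zero (pow_ne_zero _ (inv_ne_zero hc)) (mul_ne_zero (mul_ne_zero ?_ ?_) ?_)
    · exact ((Matrix.isUnit_iff_isUnit_det _).mp (P⁻¹).isUnit).ne_zero
    · exact ((Matrix.isUnit_iff_isUnit_det _).mp E.isUnit).ne_zero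
    · exact ((Matrix.isUnit_iff_isUnit_det _).mp P.isUnit).ne_zero
  have hB₀det : B₀.det ≠ 0 := by
    intro h0
    apply hBdet
    have := RingHom.map_det F₀.subtype B₀
    rw [h0, map_zero] at this
    rw [← hmap]
    exact this.symm
  obtain ⟨A₀, hA₀⟩ : ∃ A₀ : GL (Fin n) F₀,
      A₀ = Matrix.GeneralLinearGroup.mkOfDetNeZero B₀ hB₀det := ⟨_, rfl⟩
  have hA : ((Matrix.GeneralLinearGroup.map F₀.subtype A₀ : GL (Fin n) F) :
      Matrix (Fin n) (Fin n) F) = B := by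
    ext i j
    rw [Matrix.GeneralLinearGroup.map_apply, hA₀, ← hmap]
    rfl
  obtain ⟨s, hs⟩ : ∃ s : GL (Fin n) F, s = Units.map
      (Matrix.scalar (Fin n) : F →+* Matrix (Fin n) (Fin n) F).toMonoidHom (Units.mk0 c hc) :=
    ⟨_, rfl⟩
  have hsmem : s ∈ Cfsg.Geo.scalars (Fin n) F := by
    rw [hs]
    exact ⟨Units.mk0 c hc, rfl⟩
  have hsval : (s : Matrix (Fin n) (Fin n) F) = c • (1 : Matrix (Fin n) (Fin n) F) := by
    rw [hs]
    simp [Matrix.smul_one_eq_diagonal]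
  have hE : E = MulAut.conj P (Matrix.GeneralLinearGroup.map F₀.subtype A₀ * s) := by
    rw [MulAut.conj_apply]
    apply Units.ext
    rw [Units.val_mul, Units.val_mul, Units.val_mul, hA, hsval, hB, Matrix.mul_smul,
      Matrix.smul_mul, smul_smul, mul_inv_cancel₀ hc, one_smul, Matrix.mul_one,
      ← Matrix.mul_assoc, ← Matrix.mul_assoc, ← Units.val_mul, mul_inv_cancel, Units.val_one,
      Matrix.one_mul, Matrix.mul_assoc, ← Units.val_mul, mul_inv_cancel, Units.val_one,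
      Matrix.mul_one]
  unfold Cfsg.Geo.subfieldSubgroup
  rw [hE]
  exact Subgroup.mem_map_of_mem _ (Subgroup.mul_mem_sup ⟨A₀, rfl⟩ hsmem)

/-- elements of the subfield subgroup map rational vectors to a fixed multiple of rational
vectors. -/
theorem exists_scalar_of_mem_subfieldSubgroup (F₀ : Subfield F) (P E : GL (Fin n) F)
    (hE : E ∈ Cfsg.Geo.subfieldSubgroup F₀ P) :
    ∃ c : F, c ≠ 0 ∧ ∀ v, IsRat F₀ P v →
      ∃ v', IsRat F₀ P v' ∧ (E : Matrix (Fin n) (Fin n) F) *ᵥ v = c • v' := by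
  unfold Cfsg.Geo.subfieldSubgroup at hE
  obtain ⟨X, hX, rfl⟩ := Subgroup.mem_map.mp hE
  obtain ⟨Y, ⟨A₀, rfl⟩, S, hS, rfl⟩ := Subgroup.mem_sup_of_normal_right.mp hX
  obtain ⟨c, hc⟩ := (Cfsg.Geo.mem_scalars_iff S).mp hS
  refine ⟨c, c.ne_zero, ?_⟩
  rintro v ⟨u, hu, rfl⟩
  refine ⟨(P : Matrix (Fin n) (Fin n) F) *ᵥ
    (((Matrix.GeneralLinearGroup.map F₀.subtype A₀ : GL (Fin n) F) :
      Matrix (Fin n) (Fin n) F) *ᵥ u), ⟨_, ?_, rfl⟩, ?_⟩
  · intro i
    simp only [Matrix.mulVec, dotProduct]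
    refine F₀.sum_mem fun j _ => F₀.mul_mem ?_ (hu j)
    rw [Matrix.GeneralLinearGroup.map_apply]
    exact (A₀ i j).2
  · have e : ((MulAut.conj P).toMonoidHom
        (Matrix.GeneralLinearGroup.map F₀.subtype A₀ * S) : GL (Fin n) F) =
        P * (Matrix.GeneralLinearGroup.map F₀.subtype A₀ * S) * P⁻¹ := rfl
    rw [e, Units.val_mul, Units.val_mul, Units.val_mul, ← Matrix.mulVec_mulVec, gl_inv_mulVec,
      ← Matrix.mulVec_mulVec, ← Matrix.mulVec_mulVec, hc, Matrix.smul_mulVec,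
      Matrix.one_mulVec, Matrix.mulVec_smul, Matrix.mulVec_smul]

/-- an invertible matrix mapping every rational vector to a multiple of a rational vector lies
in the subfield subgroup. -/
theorem mem_subfieldSubgroup_of_forall (hF : Fintype.card F = q ^ 2) (F₀ : Subfield F)
    (hcard : Fintype.card F = Nat.card F₀ ^ 2) (P E : GL (Fin n) F) (hn : 1 ≤ n)
    (h : ∀ v, IsRat F₀ P v → ∃ (c : F) (v' : Fin n → F), IsRat F₀ P v' ∧
      (E : Matrix (Fin n) (Fin n) F) *ᵥ v = c • v') :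
    E ∈ Cfsg.Geo.subfieldSubgroup F₀ P := by
  classical
  have hfix := mem_subfield_iff_fixed hF F₀ hcard
  have hEinj : ∀ v, (E : Matrix (Fin n) (Fin n) F) *ᵥ v = 0 → v = 0 := by
    intro v hv
    have := congrArg (fun t => ((E⁻¹ : GL (Fin n) F) : Matrix (Fin n) (Fin n) F) *ᵥ t) hv
    simpa only [gl_inv_mulVec, Matrix.mulVec_zero] using this
  have hPinj : ∀ u, (P : Matrix (Fin n) (Fin n) F) *ᵥ u = 0 → u = 0 := by
    intro v hv
    have := congrArg (fun t => ((P⁻¹ : GL (Fin n) F) : Matrix (Fin n) (Fin n) F) *ᵥ t) hv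
    simpa only [gl_inv_mulVec, Matrix.mulVec_zero] using this
  obtain ⟨e₀, he₀⟩ : ∃ e₀ : Fin n → F, e₀ = Pi.single ⟨0, hn⟩ 1 := ⟨_, rfl⟩
  obtain ⟨v₀, hv₀def⟩ : ∃ v₀, v₀ = (P : Matrix (Fin n) (Fin n) F) *ᵥ e₀ := ⟨_, rfl⟩
  have hv₀ : IsRat F₀ P v₀ := by rw [hv₀def, he₀]; exact isRat_col F₀ P _
  have hv₀0 : v₀ ≠ 0 := by
    intro h0
    rw [hv₀def] at h0
    have h1 := congrFun (hPinj _ h0) ⟨0, hn⟩
    rw [he₀] at h1
    simp at h1
  obtain ⟨c₀, x₀, hx₀, hEv₀⟩ := h v₀ hv₀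
  have hc₀ : c₀ ≠ 0 := by
    rintro rfl
    rw [zero_smul] at hEv₀
    exact hv₀0 (hEinj _ hEv₀)
  apply mem_subfieldSubgroup_of_maps F₀ P E c₀ hc₀
  intro v hv
  obtain ⟨c, x, hx, hEv⟩ := h v hv
  by_cases hind : ∀ α β : F, α • v₀ + β • v = 0 → α = 0 ∧ β = 0
  · obtain ⟨c', x', hx', hEs⟩ := h (v₀ + v) (isRat_add hv₀ hv)
    rw [Matrix.mulVec_add, hEv₀, hEv] at hEs
    have hc' : c' ≠ 0 := by
      rintro rfl
      rw [zero_smul] at hEs
      have h1 : (E : Matrix (Fin n) (Fin n) F) *ᵥ (v₀ + v) = 0 := by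
        rw [Matrix.mulVec_add, hEv₀, hEv, hEs]
      have h2 := hind 1 1 (by rw [one_smul, one_smul]; exact hEinj _ h1)
      exact one_ne_zero h2.1
    have hc : c ≠ 0 := by
      rintro rfl
      rw [zero_smul] at hEv
      have h2 := hind 0 1 (by rw [zero_smul, one_smul, zero_add]; exact hEinj _ hEv)
      exact one_ne_zero h2.2
    obtain ⟨w₀, hw₀, rfl⟩ := hx₀
    obtain ⟨w, hw, rfl⟩ := hx
    obtain ⟨w', hw', rfl⟩ := hx'
    obtain ⟨a, ha⟩ : ∃ a, a = c₀ / c' := ⟨_, rfl⟩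
    obtain ⟨b, hb⟩ : ∃ b, b = c / c' := ⟨_, rfl⟩
    have h4 : a • w₀ + b • w = w' := by
      have h3 : (P : Matrix (Fin n) (Fin n) F) *ᵥ (a • w₀ + b • w - w') = 0 := by
        rw [Matrix.mulVec_sub, Matrix.mulVec_add, Matrix.mulVec_smul, Matrix.mulVec_smul]
        have h5 := congrArg (fun t => c'⁻¹ • t) hEs
        simp only [smul_add, smul_smul, inv_mul_cancel₀ hc', one_smul] at h5
        rw [← h5, ha, hb, div_eq_inv_mul, div_eq_inv_mul, sub_self]
      exact sub_eq_zero.mp (hPinj _ h3)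
    have hcoord : ∀ i, a * w₀ i + b * w i = w' i := by
      intro i
      have := congrFun h4 i
      simpa using this
    have hconj : ∀ i, a ^ q * w₀ i + b ^ q * w i = w' i := by
      intro i
      have := congrArg (fun t => t ^ q) (hcoord i)
      simp only [conj_add hF, mul_pow, (hfix _).mp (hw₀ i), (hfix _).mp (hw i),
        (hfix _).mp (hw' i)] at this
      exact this
    have hdiff : (a - a ^ q) • ((P : Matrix (Fin n) (Fin n) F) *ᵥ w₀) +
        (b - b ^ q) • ((P : Matrix (Fin n) (Fin n) F) *ᵥ w) = 0 := by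
      rw [← Matrix.mulVec_smul, ← Matrix.mulVec_smul, ← Matrix.mulVec_add]
      have : (a - a ^ q) • w₀ + (b - b ^ q) • w = 0 := by
        funext i
        simp only [Pi.add_apply, Pi.smul_apply, smul_eq_mul, Pi.zero_apply]
        linear_combination hcoord i - hconj i
      rw [this, Matrix.mulVec_zero]
    have h5 : (E : Matrix (Fin n) (Fin n) F) *ᵥ
        (((a - a ^ q) / c₀) • v₀ + ((b - b ^ q) / c) • v) = 0 := by
      rw [Matrix.mulVec_add, Matrix.mulVec_smul, Matrix.mulVec_smul, hEv₀, hEv, smul_smul,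
        smul_smul, div_mul_cancel₀ _ hc₀, div_mul_cancel₀ _ hc]
      exact hdiff
    have h6 := hind _ _ (hEinj _ h5)
    have haq : a ^ q = a := by
      rcases div_eq_zero_iff.mp h6.1 with h | h
      · exact (sub_eq_zero.mp h).symm
      · exact absurd h hc₀
    have hbq : b ^ q = b := by
      rcases div_eq_zero_iff.mp h6.2 with h | h
      · exact (sub_eq_zero.mp h).symm
      · exact absurd h hc
    have ha0 : a ≠ 0 := by rw [ha]; exact div_ne_zero hc₀ hc'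
    refine ⟨(b / a) • ((P : Matrix (Fin n) (Fin n) F) *ᵥ w),
      isRat_smul ((hfix _).mpr (by rw [div_pow, haq, hbq])) ⟨w, hw, rfl⟩, ?_⟩
    rw [hEv, smul_smul]
    congr 1
    rw [ha, hb]
    field_simp
  · push Not at hind
    obtain ⟨α, β, hαβ, hne⟩ := hind
    have hβ : β ≠ 0 := by
      rintro rfl
      rw [zero_smul, add_zero] at hαβ
      have hα : α = 0 := by
        rcases smul_eq_zero.mp hαβ with h | h
        · exact h
        · exact absurd h hv₀0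
      exact hne hα rfl
    have hv' : v = (-α / β) • v₀ := by
      have h1 := congrArg (fun t => β⁻¹ • t) hαβ
      simp only [smul_add, smul_smul, inv_mul_cancel₀ hβ, one_smul, smul_zero] at h1
      rw [eq_neg_of_add_eq_zero_right h1, ← neg_smul]
      congr 1
      field_simp
    obtain ⟨u, hu, rfl⟩ := hv
    have hγ : -α / β ∈ F₀ := by
      have h7 : u = (-α / β) • e₀ := by
        have h8 : (P : Matrix (Fin n) (Fin n) F) *ᵥ (u - (-α / β) • e₀) = 0 := by
          rw [Matrix.mulVec_sub, Matrix.mulVec_smul, ← hv₀def, ← hv', sub_self]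
        exact sub_eq_zero.mp (hPinj _ h8)
      have h9 := congrFun h7 ⟨0, hn⟩
      rw [he₀] at h9
      simp at h9
      rw [← h9]
      exact hu _
    refine ⟨(-α / β) • x₀, isRat_smul hγ hx₀, ?_⟩
    rw [hv', Matrix.mulVec_smul, hEv₀, smul_smul, smul_smul, mul_comm]

end SubfieldRat

end Cfsg.Agent.Lib.Helper13
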