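-- helper13: Sp_n(q) (the subfield subgroup of an alternating rational structure) is maximal
-- in SU_n(q).
import Mathlib
import Cfsg.Prelude.Def_GeometricClasses
import Cfsg.Agent.Lib.Helper13.SubfieldRat

set_option autoImplicit false

namespace Cfsg.Agent.Lib.Helper13

open Matrix Cfsg.Agent.Lib.Helper45 Cfsg.Agent.Lib.Helper44

section SUSp

set_option linter.unusedSectionVars false

variable {F : Type*} [Field F] [Fintype F] {q : ℕ} {n : ℕ}

/-- the data of a symplectic rational structure. -/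
structure SpRat (q : ℕ) (F₀ : Subfield F) (ζ : F) (P : GL (Fin n) F) : Prop where
  hF : Fintype.card F = q ^ 2
  hcard : Fintype.card F = Nat.card F₀ ^ 2
  hζ0 : ζ ≠ 0
  hζ : ζ + ζ ^ q = 0
  hP : Cfsg.Geo.IsFormRationalStructure (Cfsg.hermForm n F q) F₀ ζ P
  halt : ∀ u : Fin n → F, (∀ i, u i ∈ F₀) →
    Cfsg.hermForm n F q ((P : Matrix (Fin n) (Fin n) F) *ᵥ u)
      ((P : Matrix (Fin n) (Fin n) F) *ᵥ u) = 0

variable {F₀ : Subfield F} {ζ : F} {P : GL (Fin n) F}

theorem SpRat.fix (D : SpRat q F₀ ζ P) (a : F) : a ∈ F₀ ↔ a ^ q = a :=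
  mem_subfield_iff_fixed D.hF F₀ D.hcard a

theorem SpRat.zq (D : SpRat q F₀ ζ P) : ζ ^ q = -ζ := by linear_combination D.hζ

theorem SpRat.form (D : SpRat q F₀ ζ P) {x y : Fin n → F} (hx : IsRat F₀ P x)
    (hy : IsRat F₀ P y) : ζ * Cfsg.hermForm n F q x y ∈ F₀ := by
  obtain ⟨u, hu, rfl⟩ := hx
  obtain ⟨w, hw, rfl⟩ := hy
  exact D.hP u w hu hw

theorem SpRat.alt (D : SpRat q F₀ ζ P) {x : Fin n → F} (hx : IsRat F₀ P x) :
    Cfsg.hermForm n F q x x = 0 := by
  obtain ⟨u, hu, rfl⟩ := hx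
  exact D.halt u hu

theorem SpRat.swap (D : SpRat q F₀ ζ P) {x y : Fin n → F} (hx : IsRat F₀ P x)
    (hy : IsRat F₀ P y) : Cfsg.hermForm n F q y x = -Cfsg.hermForm n F q x y := by
  have h1 := (D.fix _).mp (D.form hx hy)
  rw [mul_pow, D.zq, herm_conj D.hF] at h1
  apply mul_left_cancel₀ D.hζ0
  linear_combination -h1

theorem SpRat.skew_div (D : SpRat q F₀ ζ P) (c : F) (hc : c ^ q = -c) : c / ζ ∈ F₀ := by
  rw [D.fix, div_pow, hc, D.zq, neg_div_neg_eq]

theorem SpRat.iso_iff (D : SpRat q F₀ ζ P) (ω : F) (hω : ω ^ q ≠ ω) {x y : Fin n → F}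
    (hx : IsRat F₀ P x) (hy : IsRat F₀ P y) :
    Cfsg.hermForm n F q (x + ω • y) (x + ω • y) = 0 ↔ Cfsg.hermForm n F q x y = 0 := by
  have e : Cfsg.hermForm n F q (x + ω • y) (x + ω • y) =
      (ω ^ q - ω) * Cfsg.hermForm n F q x y := by
    simp only [herm_add_left, herm_add_right D.hF, herm_smul_left, herm_smul_right, D.alt hx,
      D.alt hy, D.swap hx hy]
    ring
  rw [e, mul_eq_zero, sub_eq_zero]
  exact ⟨fun h => h.resolve_left hω, Or.inr⟩

theorem SpRat.tv_rat (D : SpRat q F₀ ζ P) {x v : Fin n → F} (hx : IsRat F₀ P x)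
    (hv : IsRat F₀ P v) (c : F) (hc : c ^ q = -c) :
    IsRat F₀ P (v + (c * Cfsg.hermForm n F q v x) • x) := by
  have e : c * Cfsg.hermForm n F q v x = (c / ζ) * (ζ * Cfsg.hermForm n F q v x) := by
    have := D.hζ0
    field_simp
  rw [e]
  exact isRat_add hv (isRat_smul (F₀.mul_mem (D.skew_div c hc) (D.form hv hx)) hx)

/-- rational vectors are centres of any group containing the subfield subgroup. -/
theorem SpRat.rat_ctr (D : SpRat q F₀ ζ P) (M : Subgroup (GL (Fin n) F))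
    (hM : Cfsg.Geo.subfieldSubgroup F₀ P ⊓ suGL n F q ≤ M) {x : Fin n → F}
    (hx : IsRat F₀ P x) : IsCtr q M x := by
  refine ⟨D.alt hx, fun c hc E hE => hM (Subgroup.mem_inf.mpr ⟨?_, ?_⟩)⟩
  · apply mem_subfieldSubgroup_of_maps F₀ P E 1 one_ne_zero
    intro v hv
    refine ⟨_, D.tv_rat hx hv c hc, ?_⟩
    rw [hE, utransv_mulVec, one_smul]
  · rw [mem_suGL_iff, hE]
    exact ⟨isHermIso_utransv D.hF x c (D.alt hx) hc, det_utransv x c (D.alt hx)⟩

theorem SpRat.exists_ne (D : SpRat q F₀ ζ P) (ω : F) (hω : ω ^ q ≠ ω) {x : Fin n → F}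
    (hx0 : x ≠ 0) : ∃ w, IsRat F₀ P w ∧ Cfsg.hermForm n F q x w ≠ 0 := by
  classical
  have hq : q ≠ 0 := by have := two_le_q D.hF; omega
  obtain ⟨i, hi⟩ : ∃ i, x i ≠ 0 := by
    by_contra hcon
    push Not at hcon
    exact hx0 (funext hcon)
  obtain ⟨w₁, w₂, h₁, h₂, hdec⟩ := exists_rat_decomp D.hF F₀ D.hcard P ω hω (Pi.single i 1)
  have h3 : Cfsg.hermForm n F q x (Pi.single i 1) ≠ 0 := by
    rw [herm_single_right hq]
    exact hi
  rw [hdec, herm_add_right D.hF, herm_smul_right] at h3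
  by_cases h4 : Cfsg.hermForm n F q x w₁ = 0
  · refine ⟨w₂, h₂, fun h5 => h3 ?_⟩
    rw [h4, h5, mul_zero, add_zero]
  · exact ⟨w₁, h₁, h4⟩

/-- linear independence of two vectors. -/
def VIndep (x y : Fin n → F) : Prop := ∀ α β : F, α • x + β • y = 0 → α = 0 ∧ β = 0

theorem VIndep.symm {x y : Fin n → F} (h : VIndep x y) : VIndep y x :=
  fun α β hab => (h β α (by rw [add_comm]; exact hab)).symm

theorem VIndep.left_ne {x y : Fin n → F} (h : VIndep x y) : x ≠ 0 := by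
  rintro rfl
  exact one_ne_zero (h 1 0 (by simp)).1

theorem VIndep.right_ne {x y : Fin n → F} (h : VIndep x y) : y ≠ 0 := h.symm.left_ne

theorem SpRat.exists_sep (D : SpRat q F₀ ζ P) (ω : F) (hω : ω ^ q ≠ ω) {x y : Fin n → F}
    (hx : IsRat F₀ P x) (hind : VIndep x y) :
    ∃ w, IsRat F₀ P w ∧ Cfsg.hermForm n F q x w = 0 ∧ Cfsg.hermForm n F q y w ≠ 0 := by
  have hy' : y ∉ Submodule.span F {x} := by
    intro hmem
    obtain ⟨α, hα⟩ := Submodule.mem_span_singleton.mp hmem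
    have := hind α (-1) (by rw [hα, neg_one_smul, add_neg_cancel])
    exact one_ne_zero (neg_eq_zero.mp this.2)
  obtain ⟨w', hw'x, hw'y⟩ := exists_perp_sep (q := q) D.hF (Submodule.span F {x}) y hy'
  have hxw' : Cfsg.hermForm n F q x w' = 0 := hw'x x (Submodule.mem_span_singleton_self x)
  obtain ⟨w₁, w₂, h₁, h₂, hdec⟩ := exists_rat_decomp D.hF F₀ D.hcard P ω hω w'
  rw [hdec, herm_add_right D.hF, herm_smul_right] at hxw' hw'y
  have hB : Cfsg.hermForm n F q x w₂ = 0 := by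
    by_contra hB
    have hA' := D.form hx h₁
    have hB' := D.form hx h₂
    have hB0 : ζ * Cfsg.hermForm n F q x w₂ ≠ 0 := mul_ne_zero D.hζ0 hB
    have e : ω ^ q = -(ζ * Cfsg.hermForm n F q x w₁) / (ζ * Cfsg.hermForm n F q x w₂) := by
      rw [eq_div_iff hB0]
      linear_combination ζ * hxw'
    have hmem : ω ^ q ∈ F₀ := by
      rw [e]
      exact F₀.div_mem (F₀.neg_mem hA') hB'
    have h5 := (D.fix _).mp hmem
    rw [conj_conj D.hF] at h5
    exact hω h5.symm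
  have hA : Cfsg.hermForm n F q x w₁ = 0 := by
    rw [hB, mul_zero, add_zero] at hxw'
    exact hxw'
  by_cases h4 : Cfsg.hermForm n F q y w₁ = 0
  · refine ⟨w₂, h₂, hB, fun h5 => hw'y ?_⟩
    rw [h4, h5, mul_zero, add_zero]
  · exact ⟨w₁, h₁, hA, h4⟩

/-- a transvection with rational centre moving `u` to `u'`. -/
theorem SpRat.move (D : SpRat q F₀ ζ P) (M : Subgroup (GL (Fin n) F))
    (hC : ∀ x, IsRat F₀ P x → IsCtr q M x) {u u' : Fin n → F} (hu : IsRat F₀ P u)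
    (hu' : IsRat F₀ P u') (huu' : Cfsg.hermForm n F q u u' ≠ 0) :
    ∃ τ : Matrix (Fin n) (Fin n) F, τ *ᵥ u = u' ∧
      (∀ z, IsRat F₀ P z → IsRat F₀ P (τ *ᵥ z)) ∧
      (∀ z, Cfsg.hermForm n F q z u = 0 → Cfsg.hermForm n F q z u' = 0 → τ *ᵥ z = z) ∧
      (∀ z, IsCtr q M z → IsCtr q M (τ *ᵥ z)) ∧ (∀ z, τ *ᵥ z = 0 → z = 0) := by
  have hF := D.hF
  obtain ⟨c, hcdef⟩ : ∃ c, c = (Cfsg.hermForm n F q u u')⁻¹ := ⟨_, rfl⟩
  have hc : c ^ q = -c := by
    rw [hcdef, inv_pow, herm_conj hF, D.swap hu hu', inv_neg]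
  have hv : IsRat F₀ P (u - u') := isRat_sub hu hu'
  have hvv := D.alt hv
  refine ⟨Cfsg.unitaryTransvection n q (u - u') c, ?_, ?_, ?_, ?_, ?_⟩
  · rw [utransv_mulVec, herm_sub_right hF, D.alt hu, zero_sub, hcdef, mul_neg,
      inv_mul_cancel₀ huu']
    module
  · intro z hz
    rw [utransv_mulVec]
    exact D.tv_rat hv hz c hc
  · intro z h1 h2
    rw [utransv_mulVec, herm_sub_right hF, h1, h2, sub_zero, mul_zero, zero_smul, add_zero]
  · intro z hz
    rw [utransv_mulVec]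
    exact isCtr_transv hF M hz (hC _ hv) c hc
  · intro z hz
    have h1 := congrArg (fun t => Cfsg.unitaryTransvection n q (u - u') (-c) *ᵥ t) hz
    simp only [Matrix.mulVec_mulVec, utransv_mul _ _ _ hvv, neg_add_cancel, utransv_zero,
      Matrix.one_mulVec, Matrix.mulVec_zero] at h1
    exact h1

/-- all independent orthogonal rational pairs give centres as soon as one does. -/
theorem SpRat.pairs_all (D : SpRat q F₀ ζ P) (ω : F) (hω : ω ^ q ≠ ω)
    (M : Subgroup (GL (Fin n) F)) (hC : ∀ x, IsRat F₀ P x → IsCtr q M x) {x₀ y₀ : Fin n → F}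
    (hx₀ : IsRat F₀ P x₀) (hy₀ : IsRat F₀ P y₀) (hind₀ : VIndep x₀ y₀)
    (h₀ : IsCtr q M (x₀ + ω • y₀)) {x y : Fin n → F} (hx : IsRat F₀ P x) (hy : IsRat F₀ P y)
    (hind : VIndep x y) (hxy : Cfsg.hermForm n F q x y = 0) : IsCtr q M (x + ω • y) := by
  have hF := D.hF
  have step : ∀ u y u' : Fin n → F, IsRat F₀ P u → IsRat F₀ P y → IsRat F₀ P u' →
      VIndep u y → Cfsg.hermForm n F q u u' ≠ 0 → IsCtr q M (u + ω • y) →
      ∃ y', IsRat F₀ P y' ∧ VIndep u' y' ∧ IsCtr q M (u' + ω • y') := by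
    intro u y u' hu hy hu' hi hne hc
    obtain ⟨τ, h1, h2, -, h4, h5⟩ := D.move M hC hu hu' hne
    refine ⟨τ *ᵥ y, h2 y hy, ?_, ?_⟩
    · intro α β hαβ
      apply hi α β
      apply h5
      rw [Matrix.mulVec_add, Matrix.mulVec_smul, Matrix.mulVec_smul, h1]
      exact hαβ
    · have := h4 _ hc
      rwa [Matrix.mulVec_add, Matrix.mulVec_smul, h1] at this
  obtain ⟨y₁, hy₁, hind₁, hc₁⟩ : ∃ y₁, IsRat F₀ P y₁ ∧ VIndep x y₁ ∧
      IsCtr q M (x + ω • y₁) := by
    by_cases hne : Cfsg.hermForm n F q x₀ x = 0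
    · obtain ⟨w₁, hw₁, hw₁ne⟩ := D.exists_ne ω hω hind₀.left_ne
      obtain ⟨w₂, hw₂, hw₂ne⟩ := D.exists_ne ω hω hind.left_ne
      obtain ⟨w, hw, hwa, hwb⟩ : ∃ w, IsRat F₀ P w ∧ Cfsg.hermForm n F q x₀ w ≠ 0 ∧
          Cfsg.hermForm n F q x w ≠ 0 := by
        by_cases h1 : Cfsg.hermForm n F q x w₁ = 0
        · by_cases h2 : Cfsg.hermForm n F q x₀ w₂ = 0
          · refine ⟨w₁ + w₂, isRat_add hw₁ hw₂, ?_, ?_⟩
            · rw [herm_add_right hF, h2, add_zero]
              exact hw₁ne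
            · rw [herm_add_right hF, h1, zero_add]
              exact hw₂ne
          · exact ⟨w₂, hw₂, h2, hw₂ne⟩
        · exact ⟨w₁, hw₁, hw₁ne, h1⟩
      obtain ⟨y', hy', hi', hc'⟩ := step x₀ y₀ w hx₀ hy₀ hw hind₀ hwa h₀
      exact step w y' x hw hy' hx hi' (herm_swap_ne hF hwb) hc'
    · exact step x₀ y₀ x hx₀ hy₀ hx hind₀ hne h₀
  have hxy₁ : Cfsg.hermForm n F q x y₁ = 0 := (D.iso_iff ω hω hx hy₁).mp hc₁.1
  have step2 : ∀ y₁ y : Fin n → F, IsRat F₀ P y₁ → IsRat F₀ P y →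
      Cfsg.hermForm n F q x y₁ = 0 → Cfsg.hermForm n F q x y = 0 →
      Cfsg.hermForm n F q y₁ y ≠ 0 → IsCtr q M (x + ω • y₁) → IsCtr q M (x + ω • y) := by
    intro y₁ y hy₁ hy h1 h2 hne hc
    obtain ⟨τ, t1, -, t3, t4, -⟩ := D.move M hC hy₁ hy hne
    have := t4 _ hc
    rwa [Matrix.mulVec_add, Matrix.mulVec_smul, t1, t3 x h1 h2] at this
  by_cases hne : Cfsg.hermForm n F q y₁ y = 0
  · obtain ⟨w₁, hw₁, hw₁x, hw₁ne⟩ := D.exists_sep ω hω hx hind₁
    obtain ⟨w₂, hw₂, hw₂x, hw₂ne⟩ := D.exists_sep ω hω hx hind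
    obtain ⟨w, hw, hwx, hwa, hwb⟩ : ∃ w, IsRat F₀ P w ∧ Cfsg.hermForm n F q x w = 0 ∧
        Cfsg.hermForm n F q y₁ w ≠ 0 ∧ Cfsg.hermForm n F q y w ≠ 0 := by
      by_cases h1 : Cfsg.hermForm n F q y w₁ = 0
      · by_cases h2 : Cfsg.hermForm n F q y₁ w₂ = 0
        · refine ⟨w₁ + w₂, isRat_add hw₁ hw₂, ?_, ?_, ?_⟩
          · rw [herm_add_right hF, hw₁x, hw₂x, add_zero]
          · rw [herm_add_right hF, h2, add_zero]
            exact hw₁ne
          · rw [herm_add_right hF, h1, zero_add]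
            exact hw₂ne
        · exact ⟨w₂, hw₂, hw₂x, h2, hw₂ne⟩
      · exact ⟨w₁, hw₁, hw₁x, hw₁ne, h1⟩
    exact step2 w y hw hy hwx hxy (herm_swap_ne hF hwb) (step2 y₁ w hy₁ hw hxy₁ hwx hwa hc₁)
  · exact step2 y₁ y hy₁ hy hxy₁ hxy hne hc₁

/-- The subfield subgroup of a symplectic rational structure is maximal in `SU_n(q)`. -/
theorem su_sp_max (D : SpRat q F₀ ζ P) (hn : 4 ≤ n) :
    Cfsg.Geo.IsMaximalIn (suGL n F q) (Cfsg.Geo.subfieldSubgroup F₀ P ⊓ suGL n F q) := by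
  classical
  have hF := D.hF
  have hq : q ≠ 0 := by have := two_le_q hF; omega
  obtain ⟨ω, hω⟩ : ∃ ω : F, ω ^ q ≠ ω := by
    obtain ⟨c, hc, hcc⟩ := exists_norm_one_sq_ne_one hF
    refine ⟨c, fun h => hcc ?_⟩
    rw [pow_succ, h] at hc
    exact eq_inv_of_mul_eq_one_left hc
  have hPinj : ∀ u, (P : Matrix (Fin n) (Fin n) F) *ᵥ u = 0 → u = 0 := by
    intro v hv
    have := congrArg (fun t => ((P⁻¹ : GL (Fin n) F) : Matrix (Fin n) (Fin n) F) *ᵥ t) hv
    simpa only [gl_inv_mulVec, Matrix.mulVec_zero] using this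
  -- a rational orthogonal independent pair
  obtain ⟨x, y, hx, hy, hind, hxy⟩ : ∃ x y, IsRat F₀ P x ∧ IsRat F₀ P y ∧ VIndep x y ∧
      Cfsg.hermForm n F q x y = 0 := by
    obtain ⟨x, hxdef⟩ : ∃ x, x = (P : Matrix (Fin n) (Fin n) F) *ᵥ
        Pi.single (⟨0, by omega⟩ : Fin n) 1 := ⟨_, rfl⟩
    have hx : IsRat F₀ P x := by rw [hxdef]; exact isRat_col F₀ P _
    have hx0 : x ≠ 0 := by
      intro h0
      rw [hxdef] at h0
      have h1 := congrFun (hPinj _ h0) ⟨0, by omega⟩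
      simp at h1
    obtain ⟨w, hw, hxw⟩ := D.exists_ne ω hω hx0
    obtain ⟨e, he⟩ := exists_not_mem_span_finset ({x, w} : Finset (Fin n → F)) (by
      have := Finset.card_insert_le x {w}
      rw [Finset.card_singleton] at this
      omega)
    obtain ⟨e₁, e₂, h₁, h₂, hdec⟩ := exists_rat_decomp hF F₀ D.hcard P ω hω e
    obtain ⟨e', he'r, he'⟩ : ∃ e', IsRat F₀ P e' ∧
        e' ∉ Submodule.span F (({x, w} : Finset (Fin n → F)) : Set (Fin n → F)) := by
      by_cases h3 : e₁ ∈ Submodule.span F (({x, w} : Finset (Fin n → F)) : Set (Fin n → F))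
      · refine ⟨e₂, h₂, fun h4 => he ?_⟩
        rw [hdec]
        exact Submodule.add_mem _ h3 (Submodule.smul_mem _ _ h4)
      · exact ⟨e₁, h₁, h3⟩
    have hxmem : x ∈ Submodule.span F (({x, w} : Finset (Fin n → F)) : Set (Fin n → F)) :=
      Submodule.subset_span (by simp)
    have hwmem : w ∈ Submodule.span F (({x, w} : Finset (Fin n → F)) : Set (Fin n → F)) :=
      Submodule.subset_span (by simp)
    obtain ⟨κ, hκ⟩ : ∃ κ, κ = (ζ * Cfsg.hermForm n F q x e') / (ζ * Cfsg.hermForm n F q x w) :=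
      ⟨_, rfl⟩
    have hκmem : κ ∈ F₀ := by rw [hκ]; exact F₀.div_mem (D.form hx he'r) (D.form hx hw)
    have hκq : κ ^ q = κ := (D.fix κ).mp hκmem
    refine ⟨x, e' - κ • w, hx, isRat_sub he'r (isRat_smul hκmem hw), ?_, ?_⟩
    · intro α β hαβ
      have hβ : β = 0 := by
        by_contra hβ
        apply he'
        have h7 : β • (e' - κ • w) = -(α • x) := by
          rw [eq_neg_iff_add_eq_zero, add_comm]
          exact hαβ
        have h8 : e' - κ • w = β⁻¹ • -(α • x) := by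
          rw [eq_inv_smul_iff₀ hβ]
          exact h7
        have h9 : e' = κ • w + β⁻¹ • -(α • x) := by
          rw [← h8]
          abel
        rw [h9]
        exact Submodule.add_mem _ (Submodule.smul_mem _ _ hwmem)
          (Submodule.smul_mem _ _ (Submodule.neg_mem _ (Submodule.smul_mem _ _ hxmem)))
      refine ⟨?_, hβ⟩
      rw [hβ, zero_smul, add_zero] at hαβ
      exact (smul_eq_zero.mp hαβ).resolve_right hx0
    · rw [herm_sub_right hF, herm_smul_right, hκq, hκ]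
      have := D.hζ0
      field_simp
      ring
  constructor
  · rw [SetLike.lt_iff_le_and_exists]
    refine ⟨inf_le_right, ?_⟩
    obtain ⟨z, hzdef⟩ : ∃ z, z = x + ω • y := ⟨_, rfl⟩
    have hz : Cfsg.hermForm n F q z z = 0 := by
      rw [hzdef]
      exact (D.iso_iff ω hω hx hy).mpr hxy
    have hζq := D.zq
    refine ⟨glOfDet _ (det_utransv z ζ hz),
      glOfDet_mem_suGL _ _ (isHermIso_utransv hF z ζ hz hζq), ?_⟩
    intro hmem
    obtain ⟨c₀, hc₀, hmap⟩ :=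
      exists_scalar_of_mem_subfieldSubgroup F₀ P _ (Subgroup.mem_inf.mp hmem).1
    obtain ⟨v, hv, hyv, hxv⟩ := D.exists_sep ω hω hy hind.symm
    have hvy : Cfsg.hermForm n F q v y = 0 := herm_swap_zero hF hyv
    have hvx : Cfsg.hermForm n F q v x ≠ 0 := herm_swap_ne hF hxv
    have hindvy : VIndep v y := by
      intro α β hαβ
      have h1 := congrArg (fun t => Cfsg.hermForm n F q x t) hαβ
      simp only [herm_add_right hF, herm_smul_right, hxy, mul_zero, add_zero,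
        herm_zero_right hF] at h1
      have hα : α = 0 := by
        rcases mul_eq_zero.mp h1 with h | h
        · exact (pow_eq_zero_iff hq).mp h
        · exact absurd h hxv
      refine ⟨hα, ?_⟩
      rw [hα, zero_smul, zero_add] at hαβ
      exact (smul_eq_zero.mp hαβ).resolve_right hind.right_ne
    obtain ⟨w, hw, hvw, hyw⟩ := D.exists_sep ω hω hv hindvy
    obtain ⟨v', hv', hTv⟩ := hmap v hv
    rw [glOfDet_val, utransv_mulVec] at hTv
    have hvz : Cfsg.hermForm n F q v z = Cfsg.hermForm n F q v x := by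
      rw [hzdef, herm_add_right hF, herm_smul_right, hvy, mul_zero, add_zero]
    rw [hvz] at hTv
    obtain ⟨κ, hκ⟩ : ∃ κ, κ = ζ * Cfsg.hermForm n F q v x := ⟨_, rfl⟩
    rw [← hκ] at hTv
    have hκmem : κ ∈ F₀ := by rw [hκ]; exact D.form hv hx
    have hκ0 : κ ≠ 0 := by rw [hκ]; exact mul_ne_zero D.hζ0 hvx
    have hyx : Cfsg.hermForm n F q y x = 0 := herm_swap_zero hF hxy
    have e1 := congrArg (fun t => Cfsg.hermForm n F q t x) hTv
    have e2 := congrArg (fun t => Cfsg.hermForm n F q t w) hTv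
    simp only [hzdef, herm_add_left, herm_smul_left, D.alt hx, hyx, hvw, mul_zero, add_zero,
      zero_add] at e1 e2
    -- e1 : h v x = c₀ * h v' x ;  e2 : κ * (h x w + ω * h y w) = c₀ * h v' w
    obtain ⟨A, hA⟩ : ∃ A, A = ζ * Cfsg.hermForm n F q x w := ⟨_, rfl⟩
    obtain ⟨B, hB⟩ : ∃ B, B = ζ * Cfsg.hermForm n F q y w := ⟨_, rfl⟩
    obtain ⟨A', hA'⟩ : ∃ A', A' = ζ * Cfsg.hermForm n F q v' x := ⟨_, rfl⟩
    obtain ⟨B', hB'⟩ : ∃ B', B' = ζ * Cfsg.hermForm n F q v' w := ⟨_, rfl⟩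
    have hAm : A ∈ F₀ := by rw [hA]; exact D.form hx hw
    have hBm : B ∈ F₀ := by rw [hB]; exact D.form hy hw
    have hA'm : A' ∈ F₀ := by rw [hA']; exact D.form hv' hx
    have hB'm : B' ∈ F₀ := by rw [hB']; exact D.form hv' hw
    have hB0 : B ≠ 0 := by rw [hB]; exact mul_ne_zero D.hζ0 hyw
    have k1 : κ = c₀ * A' := by
      rw [hκ, hA']
      linear_combination ζ * e1
    have hA'0 : A' ≠ 0 := by
      rintro h0
      rw [h0, mul_zero] at k1
      exact hκ0 k1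
    have k2 : κ * (A + ω * B) = c₀ * B' := by
      rw [hA, hB, hB']
      linear_combination ζ * e2
    have k3 : ω = (B' / A' - A) / B := by
      rw [eq_div_iff hB0, eq_sub_iff_add_eq, eq_div_iff hA'0]
      have k4 : c₀ * A' * (A + ω * B) = c₀ * B' := by rw [← k1]; exact k2
      have k5 : A' * (A + ω * B) = B' := by
        apply mul_left_cancel₀ hc₀
        linear_combination k4
      linear_combination k5
    have hωm : ω ∈ F₀ := by
      rw [k3]
      exact F₀.div_mem (F₀.sub_mem (F₀.div_mem hB'm hA'm) hAm) hBm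
    exact hω ((D.fix ω).mp hωm)
  · intro M hM1 hM2
    by_cases hMH : M = Cfsg.Geo.subfieldSubgroup F₀ P ⊓ suGL n F q
    · exact Or.inl hMH
    right
    refine le_antisymm hM2 (suGL_le_of_ctr hF (Or.inl hn) M ?_)
    obtain ⟨g, hgM, hgH⟩ := SetLike.exists_of_lt (lt_of_le_of_ne hM1 (Ne.symm hMH))
    have hgS := hM2 hgM
    have hiso : ∀ k ∈ M, IsHermIso n F q (k : Matrix (Fin n) (Fin n) F) :=
      fun k hk => ((mem_suGL_iff k).mp (hM2 hk)).1
    have hgW : g ∉ Cfsg.Geo.subfieldSubgroup F₀ P :=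
      fun h => hgH (Subgroup.mem_inf.mpr ⟨h, hgS⟩)
    have hC : ∀ x, IsRat F₀ P x → IsCtr q M x := fun x hx => D.rat_ctr M hM1 hx
    have hex : ∃ v, IsRat F₀ P v ∧ ∀ (c : F) (v' : Fin n → F), IsRat F₀ P v' →
        (g : Matrix (Fin n) (Fin n) F) *ᵥ v ≠ c • v' := by
      by_contra hcon
      push Not at hcon
      exact hgW (mem_subfieldSubgroup_of_forall hF F₀ D.hcard P g (by omega) (fun v hv => by
        obtain ⟨c, v', h1, h2⟩ := hcon v hv
        exact ⟨c, v', h1, h2⟩))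
    obtain ⟨v, hv, hvne⟩ := hex
    have hgv := isCtr_mulVec M g hgM (hiso g hgM) (hC v hv)
    obtain ⟨x₀, y₀, hx₀, hy₀, hdec⟩ := exists_rat_decomp hF F₀ D.hcard P ω hω
      ((g : Matrix (Fin n) (Fin n) F) *ᵥ v)
    have hind₀ : VIndep x₀ y₀ := by
      intro α β hαβ
      by_contra hne
      by_cases hβ : β = 0
      · have hα : α ≠ 0 := fun h => hne ⟨h, hβ⟩
        rw [hβ, zero_smul, add_zero] at hαβ
        have hx₀0 : x₀ = 0 := (smul_eq_zero.mp hαβ).resolve_left hα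
        apply hvne ω y₀ hy₀
        rw [hdec, hx₀0, zero_add]
      · have h7 : β • y₀ = -(α • x₀) := by
          rw [eq_neg_iff_add_eq_zero, add_comm]
          exact hαβ
        have h8 : y₀ = β⁻¹ • -(α • x₀) := by
          rw [eq_inv_smul_iff₀ hβ]
          exact h7
        apply hvne (1 - ω * (β⁻¹ * α)) x₀ hx₀
        rw [hdec, h8]
        module
    rw [hdec] at hgv
    intro z hz
    obtain ⟨x', y', hx', hy', hzdec⟩ := exists_rat_decomp hF F₀ D.hcard P ω hω z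
    rw [hzdec] at hz ⊢
    have hxy' := (D.iso_iff ω hω hx' hy').mp hz
    by_cases hind' : VIndep x' y'
    · exact D.pairs_all ω hω M hC hx₀ hy₀ hind₀ hgv hx' hy' hind' hxy'
    · unfold VIndep at hind'
      push Not at hind'
      obtain ⟨α, β, hαβ, hne⟩ := hind'
      by_cases hβ : β = 0
      · have hα : α ≠ 0 := fun h => hne h hβ
        rw [hβ, zero_smul, add_zero] at hαβ
        have hx0 : x' = 0 := (smul_eq_zero.mp hαβ).resolve_left hα
        rw [hx0, zero_add]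
        exact isCtr_smul hF M ω (hC y' hy')
      · have h7 : β • y' = -(α • x') := by
          rw [eq_neg_iff_add_eq_zero, add_comm]
          exact hαβ
        have h8 : y' = β⁻¹ • -(α • x') := by
          rw [eq_inv_smul_iff₀ hβ]
          exact h7
        have e : x' + ω • y' = (1 - ω * (β⁻¹ * α)) • x' := by
          rw [h8]
          module
        rw [e]
        exact isCtr_smul hF M _ (hC x' hx')

end SUSp

end Cfsg.Agent.Lib.Helper13
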