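-- helper13: orthogonal rational structures (index-2 subfield, form F₀-valued) inside the
-- unitary space F_{q^2}^n, q odd: Chevalley-Warning zeros, rational Siegel elements,
-- existence lemmas.
import Mathlib
import Cfsg.Prelude.Def_GeometricClasses
import Cfsg.Agent.Lib.Helper13.SUSpMax

set_option autoImplicit false

namespace Cfsg.Agent.Lib.Helper13

open Matrix Cfsg.Agent.Lib.Helper45 Cfsg.Agent.Lib.Helper44

section CWQuad

/-- Chevalley-Warning: three quadratic forms in more than six variables over a finite field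
have a common non-trivial zero. -/
theorem exists_common_zero_quad3 {K : Type*} [Field K] [Fintype K] {n : ℕ} (hn : 6 < n)
    (A : Fin 3 → Matrix (Fin n) (Fin n) K) :
    ∃ u : Fin n → K, u ≠ 0 ∧ ∀ k, ∑ i, ∑ j, A k i j * u i * u j = 0 := by
  classical
  obtain ⟨p, hp⟩ := CharP.exists K
  have := hp
  have hpp : p.Prime := CharP.char_is_prime K p
  obtain ⟨f, hf⟩ : ∃ f : Fin 3 → MvPolynomial (Fin n) K, f = fun k =>
      ∑ i, ∑ j, MvPolynomial.C (A k i j) * MvPolynomial.X i * MvPolynomial.X j := ⟨_, rfl⟩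
  have heval : ∀ k (x : Fin n → K), MvPolynomial.eval x (f k) =
      ∑ i, ∑ j, A k i j * x i * x j := by
    intro k x
    rw [hf]
    simp [map_sum]
  have hdeg : ∀ k, (f k).totalDegree ≤ 2 := by
    intro k
    rw [hf]
    refine MvPolynomial.totalDegree_finsetSum_le fun i _ => ?_
    refine MvPolynomial.totalDegree_finsetSum_le fun j _ => ?_
    refine le_trans (MvPolynomial.totalDegree_mul _ _) ?_
    refine le_trans (add_le_add (MvPolynomial.totalDegree_mul _ _) le_rfl) ?_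
    rw [MvPolynomial.totalDegree_C, MvPolynomial.totalDegree_X, MvPolynomial.totalDegree_X]
  have hsum : ∑ k ∈ (Finset.univ : Finset (Fin 3)), (f k).totalDegree <
      Fintype.card (Fin n) := by
    calc ∑ k ∈ (Finset.univ : Finset (Fin 3)), (f k).totalDegree
        ≤ ∑ _k ∈ (Finset.univ : Finset (Fin 3)), 2 := Finset.sum_le_sum fun k _ => hdeg k
      _ = 6 := by simp
      _ < Fintype.card (Fin n) := by simpa using hn
  have hdvd := char_dvd_card_solutions_of_sum_lt p hsum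
  obtain ⟨z, hz⟩ : ∃ z : {x : Fin n → K // ∀ i ∈ (Finset.univ : Finset (Fin 3)),
      MvPolynomial.eval x (f i) = 0}, z = ⟨0, fun k _ => by rw [heval]; simp⟩ := ⟨_, rfl⟩
  rw [Fintype.card_eq_nat_card] at hdvd
  have hpos : 0 < Nat.card {x : Fin n → K // ∀ i ∈ (Finset.univ : Finset (Fin 3)),
      MvPolynomial.eval x (f i) = 0} := Nat.card_pos_iff.mpr ⟨⟨z⟩, inferInstance⟩
  have hnt := Finite.one_lt_card_iff_nontrivial.mp
    (lt_of_lt_of_le hpp.one_lt (Nat.le_of_dvd hpos hdvd))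
  obtain ⟨y, hy⟩ := exists_ne z
  refine ⟨y.1, fun h0 => hy (Subtype.ext (by rw [h0, hz])), fun k => ?_⟩
  rw [← heval]
  exact y.2 k (Finset.mem_univ _)

end CWQuad

section ORat

set_option linter.unusedSectionVars false

variable {F : Type*} [Field F] [Fintype F] {q : ℕ} {n : ℕ}

theorem herm_mulVec_expand (hF : Fintype.card F = q ^ 2) (R S : Matrix (Fin n) (Fin n) F)
    (u w : Fin n → F) :
    Cfsg.hermForm n F q (R *ᵥ u) (S *ᵥ w) = ∑ i, ∑ j,
      Cfsg.hermForm n F q (R *ᵥ Pi.single i 1) (S *ᵥ Pi.single j 1) * u i * (w j) ^ q := by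
  classical
  have hR : ∀ (T : Matrix (Fin n) (Fin n) F) (i l : Fin n),
      (T *ᵥ Pi.single i 1) l = T l i := by
    intro T i l
    rw [Matrix.mulVec_single_one]
    rfl
  simp only [herm_def, hR]
  simp only [Matrix.mulVec, dotProduct, conj_sum hF, mul_pow, Finset.sum_mul, Finset.mul_sum]
  calc ∑ l, ∑ j, ∑ i, R l i * u i * (S l j ^ q * w j ^ q)
      = ∑ l, ∑ i, ∑ j, R l i * u i * (S l j ^ q * w j ^ q) :=
        Finset.sum_congr rfl fun l _ => Finset.sum_comm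
    _ = ∑ i, ∑ l, ∑ j, R l i * u i * (S l j ^ q * w j ^ q) := Finset.sum_comm
    _ = ∑ i, ∑ j, ∑ l, R l i * u i * (S l j ^ q * w j ^ q) :=
        Finset.sum_congr rfl fun i _ => Finset.sum_comm
    _ = _ := by
      refine Finset.sum_congr rfl fun i _ => Finset.sum_congr rfl fun j _ =>
        Finset.sum_congr rfl fun l _ => ?_
      ring

/-- the data of an orthogonal rational structure (q odd). -/
structure ORat (q : ℕ) (F₀ : Subfield F) (P : GL (Fin n) F) : Prop where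
  hF : Fintype.card F = q ^ 2
  hcard : Fintype.card F = Nat.card F₀ ^ 2
  hodd : Odd q
  hP : Cfsg.Geo.IsFormRationalStructure (Cfsg.hermForm n F q) F₀ 1 P

variable {F₀ : Subfield F} {P : GL (Fin n) F}

theorem ORat.fix (D : ORat q F₀ P) (a : F) : a ∈ F₀ ↔ a ^ q = a :=
  mem_subfield_iff_fixed D.hF F₀ D.hcard a

theorem ORat.two_ne (D : ORat q F₀ P) : (2 : F) ≠ 0 := by
  have hodd : Odd (Fintype.card F) := by rw [D.hF]; exact D.hodd.pow
  have h2 : ringChar F ≠ 2 := by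
    intro h
    have h3 := FiniteField.even_card_iff_char_two.mp h
    have h4 := Nat.odd_iff.mp hodd
    omega
  exact Ring.two_ne_zero h2

theorem ORat.two_mem (_D : ORat q F₀ P) : (2 : F) ∈ F₀ := by
  have : (2 : F) = 1 + 1 := by norm_num
  rw [this]
  exact F₀.add_mem F₀.one_mem F₀.one_mem

theorem ORat.form (D : ORat q F₀ P) {x y : Fin n → F} (hx : IsRat F₀ P x)
    (hy : IsRat F₀ P y) : Cfsg.hermForm n F q x y ∈ F₀ := by
  obtain ⟨u, hu, rfl⟩ := hx
  obtain ⟨w, hw, rfl⟩ := hy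
  have := D.hP u w hu hw
  rwa [one_mul] at this

theorem ORat.symm (D : ORat q F₀ P) {x y : Fin n → F} (hx : IsRat F₀ P x)
    (hy : IsRat F₀ P y) : Cfsg.hermForm n F q y x = Cfsg.hermForm n F q x y := by
  rw [← herm_conj D.hF]
  exact (D.fix _).mp (D.form hx hy)

theorem ORat.skew_div (D : ORat q F₀ P) {c e : F} (hc : c ^ q = -c) (he : e ^ q = -e) :
    c / e ∈ F₀ := by
  rw [D.fix, div_pow, hc, he, neg_div_neg_eq]

theorem ORat.omega_ne (D : ORat q F₀ P) {ω : F} (hω0 : ω ≠ 0) (hω : ω ^ q = -ω) :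
    ω ^ q ≠ ω := by
  rw [hω]
  intro h
  have h2 : (2 : F) * ω = 0 := by linear_combination -h
  rcases mul_eq_zero.mp h2 with h3 | h3
  · exact D.two_ne h3
  · exact hω0 h3

theorem ORat.omega_not_mem (D : ORat q F₀ P) {ω : F} (hω0 : ω ≠ 0) (hω : ω ^ q = -ω) :
    ω ∉ F₀ := fun h => D.omega_ne hω0 hω ((D.fix ω).mp h)

theorem ORat.omega_sq_mem (D : ORat q F₀ P) {ω : F} (hω : ω ^ q = -ω) : ω ^ 2 ∈ F₀ := by
  rw [D.fix, ← pow_mul, mul_comm, pow_mul, hω]
  ring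

theorem ORat.norm_add (D : ORat q F₀ P) {ω : F} (hω : ω ^ q = -ω) {x y : Fin n → F}
    (hx : IsRat F₀ P x) (hy : IsRat F₀ P y) :
    Cfsg.hermForm n F q (x + ω • y) (x + ω • y) =
      Cfsg.hermForm n F q x x - ω ^ 2 * Cfsg.hermForm n F q y y := by
  simp only [herm_add_left, herm_add_right D.hF, herm_smul_left, herm_smul_right, hω,
    D.symm hx hy]
  ring

theorem gl_mulVec_injective (E : GL (Fin n) F) {u w : Fin n → F}
    (h : (E : Matrix (Fin n) (Fin n) F) *ᵥ u = (E : Matrix (Fin n) (Fin n) F) *ᵥ w) : u = w := by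
  have := congrArg (fun t => ((E⁻¹ : GL (Fin n) F) : Matrix (Fin n) (Fin n) F) *ᵥ t) h
  simpa only [gl_inv_mulVec] using this

theorem isRat_smul_mem {v : Fin n → F} {a : F} (hv : IsRat F₀ P v) (hv0 : v ≠ 0)
    (hav : IsRat F₀ P (a • v)) : a ∈ F₀ := by
  obtain ⟨u, hu, rfl⟩ := hv
  obtain ⟨u', hu', h⟩ := hav
  rw [← Matrix.mulVec_smul] at h
  have e : u' = a • u := gl_mulVec_injective P h
  obtain ⟨i, hi⟩ : ∃ i, u i ≠ 0 := by
    by_contra hcon
    push Not at hcon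
    apply hv0
    have : u = 0 := funext hcon
    rw [this, Matrix.mulVec_zero]
  have h1 : a = u' i / u i := by
    rw [e, Pi.smul_apply, smul_eq_mul, mul_div_assoc, div_self hi, mul_one]
  rw [h1]
  exact F₀.div_mem (hu' i) (hu i)

theorem ORat.exists_ne (D : ORat q F₀ P) {ω : F} (hω : ω ^ q ≠ ω) {x : Fin n → F}
    (hx0 : x ≠ 0) : ∃ w, IsRat F₀ P w ∧ Cfsg.hermForm n F q x w ≠ 0 := by
  classical
  have hq : q ≠ 0 := by have := two_le_q D.hF; omega
  obtain ⟨i, hi⟩ : ∃ i, x i ≠ 0 := by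
    by_contra hcon
    push Not at hcon
    exact hx0 (funext hcon)
  obtain ⟨w₁, w₂, h₁, h₂, hdec⟩ := exists_rat_decomp D.hF F₀ D.hcard P ω hω (Pi.single i 1)
  have h3 : Cfsg.hermForm n F q x (Pi.single i 1) ≠ 0 := by
    rw [herm_single_right hq]
    exact hi
  rw [hdec, herm_add_right D.hF, herm_smul_right] at h3
  by_cases h4 : Cfsg.hermForm n F q x w₁ = 0
  · refine ⟨w₂, h₂, fun h5 => h3 ?_⟩
    rw [h4, h5, mul_zero, add_zero]
  · exact ⟨w₁, h₁, h4⟩

theorem ORat.exists_ne2 (D : ORat q F₀ P) {ω : F} (hω : ω ^ q ≠ ω) {x y : Fin n → F}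
    (hx0 : x ≠ 0) (hy0 : y ≠ 0) :
    ∃ w, IsRat F₀ P w ∧ Cfsg.hermForm n F q x w ≠ 0 ∧ Cfsg.hermForm n F q y w ≠ 0 := by
  have hF := D.hF
  obtain ⟨w₁, hw₁, hw₁ne⟩ := D.exists_ne hω hx0
  obtain ⟨w₂, hw₂, hw₂ne⟩ := D.exists_ne hω hy0
  by_cases h1 : Cfsg.hermForm n F q y w₁ = 0
  · by_cases h2 : Cfsg.hermForm n F q x w₂ = 0
    · refine ⟨w₁ + w₂, isRat_add hw₁ hw₂, ?_, ?_⟩
      · rw [herm_add_right hF, h2, add_zero]
        exact hw₁ne
      · rw [herm_add_right hF, h1, zero_add]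
        exact hw₂ne
    · exact ⟨w₂, hw₂, h2, hw₂ne⟩
  · exact ⟨w₁, hw₁, hw₁ne, h1⟩

theorem ORat.exists_sep (D : ORat q F₀ P) {ω : F} (hω : ω ^ q ≠ ω) {x y : Fin n → F}
    (hx : IsRat F₀ P x) (hy' : y ∉ Submodule.span F {x}) :
    ∃ w, IsRat F₀ P w ∧ Cfsg.hermForm n F q x w = 0 ∧ Cfsg.hermForm n F q y w ≠ 0 := by
  obtain ⟨w', hw'x, hw'y⟩ := exists_perp_sep (q := q) D.hF (Submodule.span F {x}) y hy'
  have hxw' : Cfsg.hermForm n F q x w' = 0 := hw'x x (Submodule.mem_span_singleton_self x)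
  obtain ⟨w₁, w₂, h₁, h₂, hdec⟩ := exists_rat_decomp D.hF F₀ D.hcard P ω hω w'
  rw [hdec, herm_add_right D.hF, herm_smul_right] at hxw' hw'y
  have hB : Cfsg.hermForm n F q x w₂ = 0 := by
    by_contra hB
    have hA' := D.form hx h₁
    have hB' := D.form hx h₂
    have e : ω ^ q = -(Cfsg.hermForm n F q x w₁) / (Cfsg.hermForm n F q x w₂) := by
      rw [eq_div_iff hB]
      linear_combination hxw'
    have hmem : ω ^ q ∈ F₀ := by
      rw [e]
      exact F₀.div_mem (F₀.neg_mem hA') hB'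
    have h5 := (D.fix _).mp hmem
    rw [conj_conj D.hF] at h5
    exact hω h5.symm
  have hA : Cfsg.hermForm n F q x w₁ = 0 := by
    rw [hB, mul_zero, add_zero] at hxw'
    exact hxw'
  by_cases h4 : Cfsg.hermForm n F q y w₁ = 0
  · refine ⟨w₂, h₂, hB, fun h5 => hw'y ?_⟩
    rw [h4, h5, mul_zero, add_zero]
  · exact ⟨w₁, h₁, hA, h4⟩

/-- rational Siegel elements lie in every overgroup of the subfield subgroup. -/
theorem ORat.siegel_mem (D : ORat q F₀ P) (M : Subgroup (GL (Fin n) F))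
    (hM : Cfsg.Geo.subfieldSubgroup F₀ P ⊓ suGL n F q ≤ M) {v w : Fin n → F}
    (hv : IsRat F₀ P v) (hw : IsRat F₀ P w) (hvv : Cfsg.hermForm n F q v v = 0)
    (hwv : Cfsg.hermForm n F q w v = 0) (E : GL (Fin n) F)
    (hE : (E : Matrix (Fin n) (Fin n) F) = siegel q v w (-(Cfsg.hermForm n F q w w) / 2)) :
    E ∈ M := by
  have hF := D.hF
  have h2 := D.two_ne
  have hvw : Cfsg.hermForm n F q v w = 0 := herm_swap_zero hF hwv
  have hcm : -(Cfsg.hermForm n F q w w) / 2 ∈ F₀ :=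
    F₀.div_mem (F₀.neg_mem (D.form hw hw)) D.two_mem
  refine hM (Subgroup.mem_inf.mpr ⟨?_, ?_⟩)
  · apply mem_subfieldSubgroup_of_maps F₀ P E 1 one_ne_zero
    intro x hx
    refine ⟨_, ?_, by rw [hE, siegel_mulVec v w _ hvv, one_smul]⟩
    exact isRat_add (isRat_sub (isRat_add hx (isRat_smul (D.form hx hv) hw))
      (isRat_smul (D.form hx hw) hv)) (isRat_smul (F₀.mul_mem hcm (D.form hx hv)) hv)
  · rw [mem_suGL_iff, hE]
    refine ⟨isHermIso_siegel hF v w _ hvv hwv ?_, det_siegel v w _ hvv hwv hvw⟩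
    rw [(D.fix _).mp hcm]
    field_simp
    ring

/-- three rational "quadratic forms" have a common non-zero rational zero. -/
theorem ORat.exists_zero3 (D : ORat q F₀ P) (hn : 6 < n)
    (R S : Fin 3 → Matrix (Fin n) (Fin n) F)
    (hR : ∀ k i, IsRat F₀ P (R k *ᵥ Pi.single i 1))
    (hS : ∀ k i, IsRat F₀ P (S k *ᵥ Pi.single i 1)) :
    ∃ u : Fin n → F, (∀ i, u i ∈ F₀) ∧ u ≠ 0 ∧
      ∀ k, Cfsg.hermForm n F q (R k *ᵥ u) (S k *ᵥ u) = 0 := by
  classical
  have : Fintype F₀ := Fintype.ofFinite _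
  obtain ⟨A, hA⟩ : ∃ A : Fin 3 → Matrix (Fin n) (Fin n) F₀, A = fun k i j =>
      ⟨Cfsg.hermForm n F q (R k *ᵥ Pi.single i 1) (S k *ᵥ Pi.single j 1),
        D.form (hR k i) (hS k j)⟩ := ⟨_, rfl⟩
  obtain ⟨u₀, hu₀, hz⟩ := exists_common_zero_quad3 hn A
  refine ⟨fun i => (u₀ i : F), fun i => (u₀ i).2, ?_, fun k => ?_⟩
  · intro h0
    apply hu₀
    funext i
    exact Subtype.ext (congrFun h0 i)
  · rw [herm_mulVec_expand D.hF]
    have h1 := congrArg F₀.subtype (hz k)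
    rw [map_sum, map_zero] at h1
    rw [← h1]
    refine Finset.sum_congr rfl fun i _ => ?_
    rw [map_sum]
    refine Finset.sum_congr rfl fun j _ => ?_
    rw [map_mul, map_mul, (D.fix _).mp (u₀ j).2, hA]
    rfl

theorem ORat.exists_singular_perp (D : ORat q F₀ P) (hn : 6 < n) {a₁ a₂ : Fin n → F}
    (h₁ : IsRat F₀ P a₁) (h₂ : IsRat F₀ P a₂) :
    ∃ s, IsRat F₀ P s ∧ s ≠ 0 ∧ Cfsg.hermForm n F q s s = 0 ∧
      Cfsg.hermForm n F q s a₁ = 0 ∧ Cfsg.hermForm n F q s a₂ = 0 := by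
  classical
  have hF := D.hF
  obtain ⟨u, hu, hu0, hz⟩ := D.exists_zero3 hn
    ![(P : Matrix (Fin n) (Fin n) F), hermRank1 q a₁ a₁ * (P : Matrix (Fin n) (Fin n) F),
      hermRank1 q a₂ a₂ * (P : Matrix (Fin n) (Fin n) F)]
    ![(P : Matrix (Fin n) (Fin n) F), (P : Matrix (Fin n) (Fin n) F),
      (P : Matrix (Fin n) (Fin n) F)]
    (by
      intro k i
      fin_cases k
      · exact isRat_col F₀ P i
      · show IsRat F₀ P ((hermRank1 q a₁ a₁ * (P : Matrix (Fin n) (Fin n) F)) *ᵥ _)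
        rw [← Matrix.mulVec_mulVec, hermRank1_mulVec]
        exact isRat_smul (D.form (isRat_col F₀ P i) h₁) h₁
      · show IsRat F₀ P ((hermRank1 q a₂ a₂ * (P : Matrix (Fin n) (Fin n) F)) *ᵥ _)
        rw [← Matrix.mulVec_mulVec, hermRank1_mulVec]
        exact isRat_smul (D.form (isRat_col F₀ P i) h₂) h₂)
    (by
      intro k i
      fin_cases k <;> exact isRat_col F₀ P i)
  have hs : IsRat F₀ P ((P : Matrix (Fin n) (Fin n) F) *ᵥ u) := ⟨u, hu, rfl⟩
  refine ⟨(P : Matrix (Fin n) (Fin n) F) *ᵥ u, hs, ?_, hz 0, ?_, ?_⟩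
  · intro h0
    apply hu0
    apply gl_mulVec_injective P
    rw [h0, Matrix.mulVec_zero]
  · have h3 := hz 1
    change Cfsg.hermForm n F q ((hermRank1 q a₁ a₁ * (P : Matrix (Fin n) (Fin n) F)) *ᵥ u)
      ((P : Matrix (Fin n) (Fin n) F) *ᵥ u) = 0 at h3
    rw [← Matrix.mulVec_mulVec, hermRank1_mulVec, herm_smul_left, D.symm hs h₁] at h3
    exact mul_self_eq_zero.mp h3
  · have h3 := hz 2
    change Cfsg.hermForm n F q ((hermRank1 q a₂ a₂ * (P : Matrix (Fin n) (Fin n) F)) *ᵥ u)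
      ((P : Matrix (Fin n) (Fin n) F) *ᵥ u) = 0 at h3
    rw [← Matrix.mulVec_mulVec, hermRank1_mulVec, herm_smul_left, D.symm hs h₂] at h3
    exact mul_self_eq_zero.mp h3

/-- make a rational vector singular by adding a multiple of a singular vector. -/
theorem ORat.singularize (D : ORat q F₀ P) {e s : Fin n → F} (he : IsRat F₀ P e)
    (hs : IsRat F₀ P s) (hss : Cfsg.hermForm n F q s s = 0)
    (hes : Cfsg.hermForm n F q e s ≠ 0) :
    ∃ κ : F, κ ∈ F₀ ∧ Cfsg.hermForm n F q (e + κ • s) (e + κ • s) = 0 := by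
  have h2 := D.two_ne
  refine ⟨-(Cfsg.hermForm n F q e e) / (2 * Cfsg.hermForm n F q e s),
    F₀.div_mem (F₀.neg_mem (D.form he he)) (F₀.mul_mem D.two_mem (D.form he hs)), ?_⟩
  obtain ⟨κ, hκ⟩ : ∃ κ, κ = -(Cfsg.hermForm n F q e e) / (2 * Cfsg.hermForm n F q e s) :=
    ⟨_, rfl⟩
  have hκm : κ ∈ F₀ := by
    rw [hκ]
    exact F₀.div_mem (F₀.neg_mem (D.form he he)) (F₀.mul_mem D.two_mem (D.form he hs))
  rw [← hκ]
  simp only [herm_add_left, herm_add_right D.hF, herm_smul_left, herm_smul_right,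
    (D.fix κ).mp hκm, hss, D.symm he hs]
  rw [hκ]
  field_simp
  ring

theorem ORat.exists_singular_perp_indep (D : ORat q F₀ P) (hn : 6 < n) {ω : F}
    (hω : ω ^ q ≠ ω) {v : Fin n → F} (hv : IsRat F₀ P v) (hv0 : v ≠ 0) :
    ∃ z, IsRat F₀ P z ∧ z ≠ 0 ∧ Cfsg.hermForm n F q z z = 0 ∧
      Cfsg.hermForm n F q z v = 0 ∧ z ∉ Submodule.span F {v} := by
  obtain ⟨e, he, hve⟩ := D.exists_ne hω hv0
  obtain ⟨z, hz, hz0, hzz, hzv, hze⟩ := D.exists_singular_perp hn hv he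
  refine ⟨z, hz, hz0, hzz, hzv, fun hmem => ?_⟩
  obtain ⟨κ, rfl⟩ := Submodule.mem_span_singleton.mp hmem
  rw [herm_smul_left] at hze
  rcases mul_eq_zero.mp hze with h | h
  · apply hz0
    rw [h, zero_smul]
  · exact hve h

end ORat

end Cfsg.Agent.Lib.Helper13
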