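-- helper13: the two families of maximal parabolics of GL_n are isomorphic but not conjugate.
import Mathlib
import Cfsg.Prelude.Def_ClassicalGeometry
import Cfsg.Agent.Lib.Helper13.Parabolic

set_option autoImplicit false

namespace Cfsg.Agent.Lib.Helper13

open Matrix

universe u

variable {F : Type u} [Field F]

/-- entrywise membership criterion for the standard maximal parabolic. -/
theorem mem_parabolic_iff {n k : ℕ} (hk : k ≤ n) (g : Matrix.GeneralLinearGroup (Fin n) F) :
    g ∈ Cfsg.stabilizing (Cfsg.glToMat (Fin n) F)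
        {v : Fin n → F | ∀ i : Fin n, k ≤ (i : ℕ) → v i = 0} ↔
      ∀ i j : Fin n, k ≤ (i : ℕ) → (j : ℕ) < k → (g : Matrix (Fin n) (Fin n) F) i j = 0 := by
  constructor
  · intro hg i j hi hj
    have h1 := (hg (Pi.single j 1)).mp (by
      intro i' hi'
      rw [Pi.single_apply, if_neg]
      intro h
      rw [h] at hi'
      omega)
    have h2 := h1 i hi
    change ((g : Matrix (Fin n) (Fin n) F) *ᵥ Pi.single j 1) i = 0 at h2
    rw [mulVec_single_one] at h2
    exact h2
  · intro h
    have hdet : ((g : Matrix (Fin n) (Fin n) F).submatrix (splitEquiv hk) (splitEquiv hk)).det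
        ≠ 0 := by
      rw [det_submatrix_equiv_self]
      exact ((Matrix.isUnit_iff_isUnit_det _).mp g.isUnit).ne_zero
    refine (stab_submatrix_iff (splitEquiv hk) (g : Matrix (Fin n) (Fin n) F) _).mpr ?_
    rw [split_set hk]
    refine (stab_inr_iff _ hdet).mpr ?_
    ext b a
    exact h _ _ (by rw [splitEquiv_inr]; omega) (by rw [splitEquiv_inl]; exact a.2)

/-- the inverse-transpose-reversal automorphism of `GL_n`. -/
def thetaGL {n : ℕ} (g : Matrix.GeneralLinearGroup (Fin n) F) :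
    Matrix.GeneralLinearGroup (Fin n) F :=
  ⟨((g⁻¹ : Matrix.GeneralLinearGroup (Fin n) F) : Matrix (Fin n) (Fin n) F)ᵀ.submatrix
      Fin.revPerm Fin.revPerm,
    ((g : Matrix (Fin n) (Fin n) F))ᵀ.submatrix Fin.revPerm Fin.revPerm, by
      rw [submatrix_mul_equiv, ← transpose_mul, Units.mul_inv, transpose_one, submatrix_one_equiv],
    by
      rw [submatrix_mul_equiv, ← transpose_mul, Units.inv_mul, transpose_one,
        submatrix_one_equiv]⟩

theorem thetaGL_mul {n : ℕ} (g h : Matrix.GeneralLinearGroup (Fin n) F) :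
    thetaGL (g * h) = thetaGL g * thetaGL h := by
  apply Units.ext
  change (((g * h)⁻¹ : Matrix.GeneralLinearGroup (Fin n) F) : Matrix (Fin n) (Fin n) F)ᵀ.submatrix
      Fin.revPerm Fin.revPerm =
    ((g⁻¹ : Matrix.GeneralLinearGroup (Fin n) F) : Matrix (Fin n) (Fin n) F)ᵀ.submatrix
      Fin.revPerm Fin.revPerm *
    ((h⁻¹ : Matrix.GeneralLinearGroup (Fin n) F) : Matrix (Fin n) (Fin n) F)ᵀ.submatrix
      Fin.revPerm Fin.revPerm
  rw [submatrix_mul_equiv, ← transpose_mul, _root_.mul_inv_rev, Units.val_mul]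

theorem thetaGL_thetaGL {n : ℕ} (g : Matrix.GeneralLinearGroup (Fin n) F) :
    thetaGL (thetaGL g) = g := by
  apply Units.ext
  change (((g : Matrix (Fin n) (Fin n) F))ᵀ.submatrix Fin.revPerm Fin.revPerm)ᵀ.submatrix
      Fin.revPerm Fin.revPerm = (g : Matrix (Fin n) (Fin n) F)
  ext i j
  simp

theorem thetaGL_apply {n : ℕ} (g : Matrix.GeneralLinearGroup (Fin n) F) (i j : Fin n) :
    (thetaGL g : Matrix (Fin n) (Fin n) F) i j =
      ((g⁻¹ : Matrix.GeneralLinearGroup (Fin n) F) : Matrix (Fin n) (Fin n) F) j.rev i.rev := rfl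

theorem thetaGL_mem {n k : ℕ} (hk : k ≤ n) (g : Matrix.GeneralLinearGroup (Fin n) F)
    (hg : g ∈ Cfsg.stabilizing (Cfsg.glToMat (Fin n) F)
        {v : Fin n → F | ∀ i : Fin n, k ≤ (i : ℕ) → v i = 0}) :
    thetaGL g ∈ Cfsg.stabilizing (Cfsg.glToMat (Fin n) F)
        {v : Fin n → F | ∀ i : Fin n, n - k ≤ (i : ℕ) → v i = 0} := by
  rw [mem_parabolic_iff (Nat.sub_le n k)]
  intro i j hi hj
  rw [thetaGL_apply]
  have hinv := (mem_parabolic_iff hk g⁻¹).mp (Subgroup.inv_mem _ hg)
  apply hinv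
  · rw [Fin.val_rev]
    have := j.2
    omega
  · rw [Fin.val_rev]
    have := i.2
    omega

/-- the maximal parabolics of dimensions `k` and `n - k` are isomorphic. -/
noncomputable def parabolicDualEquiv {n k : ℕ} (hk : k ≤ n) :
    ↥(Cfsg.stabilizing (Cfsg.glToMat (Fin n) F)
        {v : Fin n → F | ∀ i : Fin n, k ≤ (i : ℕ) → v i = 0}) ≃*
      ↥(Cfsg.stabilizing (Cfsg.glToMat (Fin n) F)
        {v : Fin n → F | ∀ i : Fin n, n - k ≤ (i : ℕ) → v i = 0}) where
  toFun x := ⟨thetaGL x.1, thetaGL_mem hk x.1 x.2⟩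
  invFun y := ⟨thetaGL y.1, by
    have := thetaGL_mem (Nat.sub_le n k) y.1 y.2
    rwa [Nat.sub_sub_self hk] at this⟩
  left_inv x := Subtype.ext (thetaGL_thetaGL x.1)
  right_inv y := Subtype.ext (thetaGL_thetaGL y.1)
  map_mul' x y := Subtype.ext (thetaGL_mul x.1 y.1)

/-- an elementary transvection as an element of `GL_n`. -/
noncomputable def transGL {n : ℕ} (i j : Fin n) (hij : i ≠ j) :
    Matrix.GeneralLinearGroup (Fin n) F :=
  Matrix.GeneralLinearGroup.mkOfDetNeZero (Matrix.transvection i j (1 : F)) (by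
    rw [Matrix.det_transvection_of_ne _ _ hij]
    exact one_ne_zero)

theorem transGL_mem {n k : ℕ} (hk : k ≤ n) (i j : Fin n) (hij : i ≠ j)
    (h : ¬ (k ≤ (i : ℕ) ∧ (j : ℕ) < k)) :
    (transGL i j hij : Matrix.GeneralLinearGroup (Fin n) F) ∈
      Cfsg.stabilizing (Cfsg.glToMat (Fin n) F)
        {v : Fin n → F | ∀ i : Fin n, k ≤ (i : ℕ) → v i = 0} := by
  rw [mem_parabolic_iff hk]
  intro a b ha hb
  change Matrix.transvection i j (1 : F) a b = 0
  have hab : a ≠ b := by
    intro hab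
    rw [hab] at ha
    omega
  rw [Matrix.transvection, Matrix.add_apply, Matrix.one_apply_ne hab, zero_add,
    Matrix.single_apply_of_ne]
  rintro ⟨rfl, rfl⟩
  exact h ⟨ha, hb⟩

theorem transGL_mulVec {n : ℕ} (i j : Fin n) (hij : i ≠ j) (u : Fin n → F) :
    ((transGL i j hij : Matrix.GeneralLinearGroup (Fin n) F) : Matrix (Fin n) (Fin n) F) *ᵥ u =
      u + Pi.single i (u j) := by
  change Matrix.transvection i j (1 : F) *ᵥ u = _
  rw [Matrix.transvection, Matrix.add_mulVec, Matrix.one_mulVec, Matrix.single_mulVec, one_mul]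
  rfl

/-- the number of vectors of the coordinate subspace. -/
theorem card_coordSet {n k : ℕ} (hk : k ≤ n) :
    Nat.card {v : Fin n → F // ∀ i : Fin n, k ≤ (i : ℕ) → v i = 0} = Nat.card F ^ k := by
  have e : {v : Fin n → F // ∀ i : Fin n, k ≤ (i : ℕ) → v i = 0} ≃ (Fin k → F) :=
    { toFun := fun v a => v.1 (Fin.castLE hk a)
      invFun := fun w => ⟨fun i => if h : (i : ℕ) < k then w ⟨i, h⟩ else 0, by
        intro i hi
        show (if h : (i : ℕ) < k then w ⟨i, h⟩ else 0) = 0
        rw [dif_neg (by omega)]⟩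
      left_inv := by
        intro v
        apply Subtype.ext
        funext i
        by_cases h : (i : ℕ) < k
        · simp only [dif_pos h]
          rfl
        · simp only [dif_neg h]
          exact (v.2 i (by omega)).symm
      right_inv := by
        intro w
        funext a
        simp }
  rw [Nat.card_congr e, Nat.card_fun, Nat.card_fin]

theorem single_mem_of_decomp {n : ℕ} (U : Submodule F (Fin n → F)) (u : Fin n → F) (hu : u ∈ U)
    (j : Fin n) (hj : u j ≠ 0)
    (h : ∀ i : Fin n, i ≠ j → u i ≠ 0 → (Pi.single i 1 : Fin n → F) ∈ U) :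
    (Pi.single j 1 : Fin n → F) ∈ U := by
  have hsum := pi_eq_sum_univ' u
  rw [← Finset.add_sum_erase Finset.univ _ (Finset.mem_univ j)] at hsum
  have h1 : u j • (Pi.single j 1 : Fin n → F) =
      u - ∑ i ∈ Finset.univ.erase j, u i • (Pi.single i 1 : Fin n → F) := by
    rw [eq_sub_iff_add_eq]
    exact hsum.symm
  have h2 : u j • (Pi.single j 1 : Fin n → F) ∈ U := by
    rw [h1]
    apply U.sub_mem hu
    apply U.sum_mem
    intro i hi
    by_cases h0 : u i = 0
    · rw [h0, zero_smul]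
      exact U.zero_mem
    · exact U.smul_mem _ (h i (Finset.ne_of_mem_erase hi) h0)
  have h3 := U.smul_mem (u j)⁻¹ h2
  rwa [smul_smul, inv_mul_cancel₀ hj, one_smul] at h3

/-- Standard maximal parabolics of different dimensions are not conjugate. -/
theorem parabolic_not_conj [Finite F] {n k k' : ℕ} (hk0 : 0 < k) (hkn : k < n)
    (hk'n : k' ≤ n) (hne : k ≠ k') (g : Matrix.GeneralLinearGroup (Fin n) F) :
    (Cfsg.stabilizing (Cfsg.glToMat (Fin n) F)
        {v : Fin n → F | ∀ i : Fin n, k ≤ (i : ℕ) → v i = 0}).map (MulAut.conj g).toMonoidHom ≠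
      Cfsg.stabilizing (Cfsg.glToMat (Fin n) F)
        {v : Fin n → F | ∀ i : Fin n, k' ≤ (i : ℕ) → v i = 0} := by
  intro heq
  have hMMi : (g : Matrix (Fin n) (Fin n) F) *
      ((g⁻¹ : Matrix.GeneralLinearGroup (Fin n) F) : Matrix (Fin n) (Fin n) F) = 1 := g.mul_inv
  have hMiM : ((g⁻¹ : Matrix.GeneralLinearGroup (Fin n) F) : Matrix (Fin n) (Fin n) F) *
      (g : Matrix (Fin n) (Fin n) F) = 1 := g.inv_mul
  let U : Submodule F (Fin n → F) :=
    { carrier := {u | ∀ i : Fin n, k ≤ (i : ℕ) →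
        (((g⁻¹ : Matrix.GeneralLinearGroup (Fin n) F) : Matrix (Fin n) (Fin n) F) *ᵥ u) i = 0}
      add_mem' := by
        intro a b ha hb i hi
        rw [mulVec_add, Pi.add_apply, ha i hi, hb i hi, add_zero]
      zero_mem' := by
        intro i hi
        rw [mulVec_zero]
        rfl
      smul_mem' := by
        intro c a ha i hi
        rw [mulVec_smul, Pi.smul_apply, ha i hi, smul_zero] }
  have hU : ∀ u : Fin n → F, u ∈ U ↔ ∀ i : Fin n, k ≤ (i : ℕ) →
      (((g⁻¹ : Matrix.GeneralLinearGroup (Fin n) F) : Matrix (Fin n) (Fin n) F) *ᵥ u) i = 0 :=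
    fun u => Iff.rfl
  -- elements of the second parabolic preserve `U`
  have hstab : ∀ y : Matrix.GeneralLinearGroup (Fin n) F,
      y ∈ Cfsg.stabilizing (Cfsg.glToMat (Fin n) F)
        {v : Fin n → F | ∀ i : Fin n, k' ≤ (i : ℕ) → v i = 0} →
      ∀ u ∈ U, (y : Matrix (Fin n) (Fin n) F) *ᵥ u ∈ U := by
    intro y hy u hu
    rw [← heq] at hy
    obtain ⟨x, hx, rfl⟩ := hy
    have h2 : (((MulAut.conj g).toMonoidHom x : Matrix.GeneralLinearGroup (Fin n) F) :
        Matrix (Fin n) (Fin n) F) = (g : Matrix (Fin n) (Fin n) F) *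
          (x : Matrix (Fin n) (Fin n) F) *
          ((g⁻¹ : Matrix.GeneralLinearGroup (Fin n) F) : Matrix (Fin n) (Fin n) F) := rfl
    rw [hU, h2]
    intro i hi
    rw [mulVec_mulVec, ← Matrix.mul_assoc, ← Matrix.mul_assoc, hMiM, Matrix.one_mul,
      ← mulVec_mulVec]
    exact (hx _).mp ((hU u).mp hu) i hi
  -- the key consequence of transvections
  have key : ∀ u ∈ U, ∀ i j : Fin n, i ≠ j → ¬ (k' ≤ (i : ℕ) ∧ (j : ℕ) < k') → u j ≠ 0 →
      (Pi.single i 1 : Fin n → F) ∈ U := by
    intro u hu i j hij hcond huj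
    have h1 := hstab _ (transGL_mem hk'n i j hij hcond) u hu
    rw [transGL_mulVec] at h1
    have h2 : (Pi.single i (u j) : Fin n → F) ∈ U := by
      have := U.sub_mem h1 hu
      rwa [add_sub_cancel_left] at this
    have h3 := U.smul_mem (u j)⁻¹ h2
    have h4 : (u j)⁻¹ • (Pi.single i (u j) : Fin n → F) = Pi.single i 1 := by
      ext a
      by_cases ha : a = i
      · subst ha
        simp [huj]
      · simp [ha]
    rwa [h4] at h3
  have hn : 0 < n := by omega
  by_cases hA : ∃ u ∈ U, ∃ j : Fin n, k' ≤ (j : ℕ) ∧ u j ≠ 0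
  · obtain ⟨u, hu, j, hj, huj⟩ := hA
    have hall : ∀ i : Fin n, i ≠ j → (Pi.single i 1 : Fin n → F) ∈ U := fun i hi =>
      key u hu i j hi (by omega) huj
    have hj' : (Pi.single j 1 : Fin n → F) ∈ U :=
      single_mem_of_decomp U u hu j huj (fun i hi _ => hall i hi)
    have hall' : ∀ i : Fin n, (Pi.single i 1 : Fin n → F) ∈ U := by
      intro i
      by_cases hi : i = j
      · rw [hi]
        exact hj'
      · exact hall i hi
    have htop : ∀ v : Fin n → F, v ∈ U := by
      intro v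
      rw [pi_eq_sum_univ' v]
      apply U.sum_mem
      intro i _
      exact U.smul_mem _ (hall' i)
    have h1 := (hU _).mp (htop ((g : Matrix (Fin n) (Fin n) F) *ᵥ
      (Pi.single (⟨n - 1, by omega⟩ : Fin n) 1))) ⟨n - 1, by omega⟩ (by
        change k ≤ n - 1
        omega)
    rw [mulVec_mulVec, hMiM, one_mulVec, Pi.single_eq_same] at h1
    exact one_ne_zero h1
  · push Not at hA
    -- a nonzero element of `U`
    have hu₀ : (g : Matrix (Fin n) (Fin n) F) *ᵥ (Pi.single (⟨0, hn⟩ : Fin n) 1) ∈ U := by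
      rw [hU]
      intro i hi
      rw [mulVec_mulVec, hMiM, one_mulVec, Pi.single_apply, if_neg]
      intro h
      rw [h] at hi
      change k ≤ 0 at hi
      omega
    have hu₀ne : (g : Matrix (Fin n) (Fin n) F) *ᵥ (Pi.single (⟨0, hn⟩ : Fin n) 1) ≠ 0 := by
      intro h0
      have := congrArg (fun v => ((g⁻¹ : Matrix.GeneralLinearGroup (Fin n) F) :
        Matrix (Fin n) (Fin n) F) *ᵥ v) h0
      simp only [mulVec_mulVec, hMiM, one_mulVec, mulVec_zero] at this
      have h1 := congrFun this ⟨0, hn⟩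
      rw [Pi.single_eq_same] at h1
      exact one_ne_zero h1
    obtain ⟨j, hj⟩ : ∃ j : Fin n,
        ((g : Matrix (Fin n) (Fin n) F) *ᵥ (Pi.single (⟨0, hn⟩ : Fin n) 1)) j ≠ 0 := by
      by_contra hcon
      push Not at hcon
      exact hu₀ne (funext hcon)
    have hjk : (j : ℕ) < k' := by
      by_contra hjk
      exact hj (hA _ hu₀ j (by omega))
    have hsmall : ∀ i : Fin n, (i : ℕ) < k' → i ≠ j → (Pi.single i 1 : Fin n → F) ∈ U :=
      fun i hi hij => key _ hu₀ i j hij (by omega) hj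
    have hj' : (Pi.single j 1 : Fin n → F) ∈ U := by
      apply single_mem_of_decomp U _ hu₀ j hj
      intro i hij hi0
      apply hsmall i _ hij
      by_contra hik
      exact hi0 (hA _ hu₀ i (by omega))
    have hsmall' : ∀ i : Fin n, (i : ℕ) < k' → (Pi.single i 1 : Fin n → F) ∈ U := by
      intro i hi
      by_cases hij : i = j
      · rw [hij]
        exact hj'
      · exact hsmall i hi hij
    have hsub : ∀ v : Fin n → F, (∀ i : Fin n, k' ≤ (i : ℕ) → v i = 0) → v ∈ U := by
      intro v hv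
      rw [pi_eq_sum_univ' v]
      apply U.sum_mem
      intro i _
      by_cases hi : (i : ℕ) < k'
      · exact U.smul_mem _ (hsmall' i hi)
      · rw [hv i (by omega), zero_smul]
        exact U.zero_mem
    -- count
    have hcard : Nat.card {v : Fin n → F // ∀ i : Fin n, k' ≤ (i : ℕ) → v i = 0} =
        Nat.card {v : Fin n → F // ∀ i : Fin n, k ≤ (i : ℕ) → v i = 0} := by
      apply Nat.card_congr
      refine Equiv.ofBijective (fun v => ⟨((g⁻¹ : Matrix.GeneralLinearGroup (Fin n) F) :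
        Matrix (Fin n) (Fin n) F) *ᵥ v.1, (hU v.1).mp (hsub v.1 v.2)⟩) ⟨?_, ?_⟩
      · intro v w hvw
        apply Subtype.ext
        have h1 : ((g⁻¹ : Matrix.GeneralLinearGroup (Fin n) F) :
            Matrix (Fin n) (Fin n) F) *ᵥ v.1 = ((g⁻¹ : Matrix.GeneralLinearGroup (Fin n) F) :
            Matrix (Fin n) (Fin n) F) *ᵥ w.1 := congrArg Subtype.val hvw
        have h2 := congrArg (fun z => (g : Matrix (Fin n) (Fin n) F) *ᵥ z) h1
        simpa only [mulVec_mulVec, hMMi, one_mulVec] using h2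
      · intro w
        have hmem : (g : Matrix (Fin n) (Fin n) F) *ᵥ w.1 ∈ U := by
          rw [hU]
          intro i hi
          rw [mulVec_mulVec, hMiM, one_mulVec]
          exact w.2 i hi
        refine ⟨⟨(g : Matrix (Fin n) (Fin n) F) *ᵥ w.1, fun i hi => hA _ hmem i hi⟩, ?_⟩
        apply Subtype.ext
        change ((g⁻¹ : Matrix.GeneralLinearGroup (Fin n) F) :
            Matrix (Fin n) (Fin n) F) *ᵥ ((g : Matrix (Fin n) (Fin n) F) *ᵥ w.1) = w.1
        rw [mulVec_mulVec, hMiM, one_mulVec]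
    rw [card_coordSet hk'n, card_coordSet hkn.le] at hcard
    have hq : 1 < Nat.card F := Finite.one_lt_card
    exact hne (Nat.pow_right_injective hq hcard).symm

end Cfsg.Agent.Lib.Helper13
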