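-- helper13: reflections of a quadratic form on `Fin n → F` (Cfsg.reflectionMatrix).
import Mathlib
import Cfsg.Prelude.Def_ClassicalGeometry

set_option autoImplicit false

namespace Cfsg.Agent.Lib.Helper13

open Matrix

variable {F : Type*} [Field F] {ι : Type} [Fintype ι] [DecidableEq ι]

/-- the polar vector represents the polar form. -/
theorem polarVec_dotProduct (Q : QuadraticForm F (ι → F)) (v x : ι → F) :
    Cfsg.polarVec (⇑Q) v ⬝ᵥ x = QuadraticMap.polar (⇑Q) v x := by
  have h := LinearMap.pi_apply_eq_sum_univ (QuadraticMap.polarBilin Q v) x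
  have h' : QuadraticMap.polar (⇑Q) v x
      = ∑ i, x i • QuadraticMap.polar (⇑Q) v (fun j => if i = j then 1 else 0) := h
  rw [h']
  unfold Cfsg.polarVec dotProduct
  apply Finset.sum_congr rfl
  intro i _
  have : (Pi.single i (1 : F) : ι → F) = fun j => if i = j then 1 else 0 := by
    ext j
    simp [Pi.single_apply, eq_comm]
  show QuadraticMap.polar (⇑Q) v (Pi.single i 1) * x i = _
  rw [this, smul_eq_mul, mul_comm]

theorem reflectionMatrix_mulVec (Q : QuadraticForm F (ι → F)) (v x : ι → F) :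
    (Cfsg.reflectionMatrix (⇑Q) v) *ᵥ x = x - ((Q v)⁻¹ * QuadraticMap.polar (⇑Q) v x) • v := by
  unfold Cfsg.reflectionMatrix
  rw [Matrix.sub_mulVec, Matrix.one_mulVec, Matrix.smul_mulVec, Matrix.vecMulVec_mulVec,
    op_smul_eq_smul, smul_smul, polarVec_dotProduct]

theorem reflectionMatrix_preserves (Q : QuadraticForm F (ι → F)) (v : ι → F) (hv : Q v ≠ 0)
    (x : ι → F) : Q ((Cfsg.reflectionMatrix (⇑Q) v) *ᵥ x) = Q x := by
  rw [reflectionMatrix_mulVec, sub_eq_add_neg, ← neg_smul, QuadraticMap.map_add (⇑Q),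
    QuadraticMap.map_smul, QuadraticMap.polar_smul_right, QuadraticMap.polar_comm (⇑Q) x v]
  simp only [smul_eq_mul]
  field_simp
  ring

theorem reflectionMatrix_mulVec_self (Q : QuadraticForm F (ι → F)) (v : ι → F) (hv : Q v ≠ 0) :
    (Cfsg.reflectionMatrix (⇑Q) v) *ᵥ v = -v := by
  rw [reflectionMatrix_mulVec, QuadraticMap.polar_self]
  have : (Q v)⁻¹ * (2 • Q v) = 2 := by
    rw [nsmul_eq_mul]
    push_cast
    field_simp
  rw [this, two_smul]
  abel

theorem reflectionMatrix_mulVec_of_polar_eq_zero (Q : QuadraticForm F (ι → F)) (v x : ι → F)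
    (h : QuadraticMap.polar (⇑Q) v x = 0) : (Cfsg.reflectionMatrix (⇑Q) v) *ᵥ x = x := by
  rw [reflectionMatrix_mulVec, h]
  simp

theorem reflectionMatrix_det (Q : QuadraticForm F (ι → F)) (v : ι → F) (hv : Q v ≠ 0) :
    (Cfsg.reflectionMatrix (⇑Q) v).det = -1 := by
  unfold Cfsg.reflectionMatrix
  have h1 : (1 : Matrix ι ι F) - (Q v)⁻¹ • Matrix.vecMulVec v (Cfsg.polarVec (⇑Q) v)
      = 1 + Matrix.replicateCol Unit ((-(Q v)⁻¹) • v)
          * Matrix.replicateRow Unit (Cfsg.polarVec (⇑Q) v) := by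
    rw [← Matrix.vecMulVec_eq, Matrix.smul_vecMulVec, neg_smul, sub_eq_add_neg]
  rw [h1, Matrix.det_one_add_replicateCol_mul_replicateRow, dotProduct_smul, polarVec_dotProduct,
    QuadraticMap.polar_self]
  have : (Q v)⁻¹ * (2 • Q v) = 2 := by
    rw [nsmul_eq_mul]
    push_cast
    field_simp
  rw [smul_eq_mul, neg_mul, this]
  ring

end Cfsg.Agent.Lib.Helper13
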