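-- helper13: the orthogonal subfield subgroup O_n(q) (q odd) is maximal in SU_n(q).
import Mathlib
import Cfsg.Prelude.Def_GeometricClasses
import Cfsg.Agent.Lib.Helper13.ORat

set_option autoImplicit false

namespace Cfsg.Agent.Lib.Helper13

open Matrix Cfsg.Agent.Lib.Helper45 Cfsg.Agent.Lib.Helper44

section SUOrth

set_option linter.unusedSectionVars false

variable {F : Type*} [Field F] [Fintype F] {q : ℕ} {n : ℕ}

/-- the matrix `A` is the matrix of an element of `M`. -/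
def InM (M : Subgroup (GL (Fin n) F)) (A : Matrix (Fin n) (Fin n) F) : Prop :=
  ∃ E : GL (Fin n) F, E ∈ M ∧ (E : Matrix (Fin n) (Fin n) F) = A

theorem InM.mem {M : Subgroup (GL (Fin n) F)} {A : Matrix (Fin n) (Fin n) F} (h : InM M A)
    (E : GL (Fin n) F) (hE : (E : Matrix (Fin n) (Fin n) F) = A) : E ∈ M := by
  obtain ⟨E', h1, h2⟩ := h
  have : E = E' := Units.ext (by rw [hE, h2])
  rwa [this]

theorem InM.of_mem {M : Subgroup (GL (Fin n) F)} {E : GL (Fin n) F} (h : E ∈ M) :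
    InM M (E : Matrix (Fin n) (Fin n) F) := ⟨E, h, rfl⟩

theorem InM.mul {M : Subgroup (GL (Fin n) F)} {A B : Matrix (Fin n) (Fin n) F} (hA : InM M A)
    (hB : InM M B) : InM M (A * B) := by
  obtain ⟨E₁, h1, rfl⟩ := hA
  obtain ⟨E₂, h2, rfl⟩ := hB
  exact ⟨E₁ * E₂, M.mul_mem h1 h2, rfl⟩

/-- `B = A⁻¹ C`. -/
theorem InM.of_mul_eq {M : Subgroup (GL (Fin n) F)} {A B C : Matrix (Fin n) (Fin n) F}
    (hA : InM M A) (hC : InM M C) (h : A * B = C) : InM M B := by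
  obtain ⟨E₁, h1, rfl⟩ := hA
  obtain ⟨E₂, h2, rfl⟩ := hC
  refine ⟨E₁⁻¹ * E₂, M.mul_mem (M.inv_mem h1) h2, ?_⟩
  rw [Units.val_mul, ← h, ← Matrix.mul_assoc, ← Units.val_mul, inv_mul_cancel, Units.val_one,
    Matrix.one_mul]

/-- `A = C B⁻¹`. -/
theorem InM.of_mul_eq' {M : Subgroup (GL (Fin n) F)} {A B C : Matrix (Fin n) (Fin n) F}
    (hB : InM M B) (hC : InM M C) (h : A * B = C) : InM M A := by
  obtain ⟨E₁, h1, rfl⟩ := hB
  obtain ⟨E₂, h2, rfl⟩ := hC
  refine ⟨E₂ * E₁⁻¹, M.mul_mem h2 (M.inv_mem h1), ?_⟩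
  rw [Units.val_mul, ← h, Matrix.mul_assoc, ← Units.val_mul, mul_inv_cancel, Units.val_one,
    Matrix.mul_one]

theorem InM.conj_siegel {M : Subgroup (GL (Fin n) F)} {K : Matrix (Fin n) (Fin n) F}
    (hK : InM M K) (hKi : IsHermIso n F q K) {v w : Fin n → F} {c : F}
    (hS : InM M (siegel q v w c)) (hv : Cfsg.hermForm n F q v v = 0) :
    InM M (siegel q (K *ᵥ v) (K *ᵥ w) c) :=
  InM.of_mul_eq' hK (hK.mul hS) (siegel_conj hKi v w c hv).symm

theorem InM.conj_utransv {M : Subgroup (GL (Fin n) F)} {K : Matrix (Fin n) (Fin n) F}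
    (hK : InM M K) (hKi : IsHermIso n F q K) {v : Fin n → F} {c : F}
    (hS : InM M (Cfsg.unitaryTransvection n q v c)) :
    InM M (Cfsg.unitaryTransvection n q (K *ᵥ v) c) :=
  InM.of_mul_eq' hK (hK.mul hS) (utransv_conj hKi v c).symm

theorem siegel_mul_utransv (hF : Fintype.card F = q ^ 2) (v w : Fin n → F) (c e : F)
    (hv : Cfsg.hermForm n F q v v = 0) (hvw : Cfsg.hermForm n F q v w = 0) :
    siegel q v w c * Cfsg.unitaryTransvection n q v e = siegel q v w (c + e) := by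
  rw [← siegel_zero hF v e hv, siegel_mul hF v w 0 c e hv (herm_zero_left hF n v) hvw, add_zero,
    herm_zero_left hF, sub_zero]

theorem siegel_comm (hF : Fintype.card F = q ^ 2) (v w₁ w₂ : Fin n → F) (c₁ c₂ : F)
    (hv : Cfsg.hermForm n F q v v = 0) (h₁ : Cfsg.hermForm n F q w₁ v = 0)
    (h₂ : Cfsg.hermForm n F q w₂ v = 0) :
    siegel q v w₂ c₂ * siegel q v w₁ c₁ * Cfsg.unitaryTransvection n q v
      (Cfsg.hermForm n F q w₁ w₂ - Cfsg.hermForm n F q w₂ w₁) =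
      siegel q v w₁ c₁ * siegel q v w₂ c₂ := by
  have h₁' : Cfsg.hermForm n F q v w₁ = 0 := herm_swap_zero hF h₁
  have h₂' : Cfsg.hermForm n F q v w₂ = 0 := herm_swap_zero hF h₂
  rw [siegel_mul hF v w₂ w₁ c₂ c₁ hv h₁ h₂', siegel_mul hF v w₁ w₂ c₁ c₂ hv h₂ h₁',
    siegel_mul_utransv hF v _ _ _ hv (by rw [herm_add_right hF, h₂', h₁', add_zero]),
    add_comm w₂ w₁]
  congr 1
  ring

theorem InM.comm_siegel (hF : Fintype.card F = q ^ 2) {M : Subgroup (GL (Fin n) F)}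
    {v w₁ w₂ : Fin n → F} {c₁ c₂ : F} (hA : InM M (siegel q v w₁ c₁))
    (hB : InM M (siegel q v w₂ c₂)) (hv : Cfsg.hermForm n F q v v = 0)
    (h₁ : Cfsg.hermForm n F q w₁ v = 0) (h₂ : Cfsg.hermForm n F q w₂ v = 0) :
    InM M (Cfsg.unitaryTransvection n q v
      (Cfsg.hermForm n F q w₁ w₂ - Cfsg.hermForm n F q w₂ w₁)) :=
  InM.of_mul_eq (hB.mul hA) (hA.mul hB) (siegel_comm hF v w₁ w₂ c₁ c₂ hv h₁ h₂)

theorem siegel_add_smul (hF : Fintype.card F = q ^ 2) (v w : Fin n → F) (κ c : F)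
    (hv : Cfsg.hermForm n F q v v = 0) :
    siegel q v (w + κ • v) c = siegel q v w (c + κ - κ ^ q) := by
  rw [Matrix.ext_iff_mulVec]
  intro x
  rw [siegel_mulVec v _ c hv, siegel_mulVec v w _ hv]
  simp only [herm_add_right hF, herm_smul_right]
  module

theorem isCtr_of_inM {M : Subgroup (GL (Fin n) F)} {v : Fin n → F}
    (hv : Cfsg.hermForm n F q v v = 0)
    (h : ∀ c : F, c ^ q = -c → InM M (Cfsg.unitaryTransvection n q v c)) : IsCtr q M v :=
  ⟨hv, fun c hc E hE => (h c hc).mem E hE⟩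

theorem IsCtr.inM {M : Subgroup (GL (Fin n) F)} {v : Fin n → F} (h : IsCtr q M v) (c : F)
    (hc : c ^ q = -c) : InM M (Cfsg.unitaryTransvection n q v c) :=
  ⟨glOfDet _ (det_utransv v c h.1), h.2 c hc _ rfl, rfl⟩

variable {F₀ : Subfield F} {P : GL (Fin n) F}

theorem ORat.siegel_inM (D : ORat q F₀ P) (M : Subgroup (GL (Fin n) F))
    (hM : Cfsg.Geo.subfieldSubgroup F₀ P ⊓ suGL n F q ≤ M) {v w : Fin n → F}
    (hv : IsRat F₀ P v) (hw : IsRat F₀ P w) (hvv : Cfsg.hermForm n F q v v = 0)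
    (hwv : Cfsg.hermForm n F q w v = 0) :
    InM M (siegel q v w (-(Cfsg.hermForm n F q w w) / 2)) :=
  ⟨glOfDet _ (det_siegel v w _ hvv hwv (herm_swap_zero D.hF hwv)),
    D.siegel_mem M hM hv hw hvv hwv _ rfl, rfl⟩

/-- type T: `g v` is a non-rational point of a rational totally singular line. -/
theorem ORat.ctr_typeT (D : ORat q F₀ P) {ω : F} (hω0 : ω ≠ 0) (hω : ω ^ q = -ω)
    (M : Subgroup (GL (Fin n) F)) (hM : Cfsg.Geo.subfieldSubgroup F₀ P ⊓ suGL n F q ≤ M)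
    (g : GL (Fin n) F) (hg : g ∈ M) (hgi : IsHermIso n F q (g : Matrix (Fin n) (Fin n) F))
    {v x y : Fin n → F} (hv : IsRat F₀ P v) (hvv : Cfsg.hermForm n F q v v = 0)
    (hx : IsRat F₀ P x) (hy : IsRat F₀ P y) (hyy : Cfsg.hermForm n F q y y = 0)
    (hxy : Cfsg.hermForm n F q x y = 0)
    (hgv : (g : Matrix (Fin n) (Fin n) F) *ᵥ v = x + ω • y)
    (hT : y ∉ Submodule.span F {(g : Matrix (Fin n) (Fin n) F) *ᵥ v}) : IsCtr q M v := by
  have hF := D.hF
  have h2 := D.two_ne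
  have hωne := D.omega_ne hω0 hω
  have hxx : Cfsg.hermForm n F q x x = 0 := by
    have h1 := D.norm_add hω hx hy
    rw [← hgv, hgi, hvv, hyy, mul_zero, sub_zero] at h1
    exact h1.symm
  have hyx : Cfsg.hermForm n F q y x = 0 := by rw [D.symm hx hy]; exact hxy
  obtain ⟨p, hp⟩ : ∃ p, p = (g : Matrix (Fin n) (Fin n) F) *ᵥ v := ⟨_, rfl⟩
  have hpd : p = x + ω • y := by rw [hp, hgv]
  have hpp : Cfsg.hermForm n F q p p = 0 := by rw [hp, hgi, hvv]
  have hsep : ((g⁻¹ : GL (Fin n) F) : Matrix (Fin n) (Fin n) F) *ᵥ y ∉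
      Submodule.span F {v} := by
    intro hmem
    obtain ⟨κ, hκ⟩ := Submodule.mem_span_singleton.mp hmem
    apply hT
    rw [Submodule.mem_span_singleton]
    refine ⟨κ, ?_⟩
    rw [← Matrix.mulVec_smul, hκ, gl_mulVec_inv]
  obtain ⟨w, hw, hvw, hyw⟩ := D.exists_sep hωne hv hsep
  have hwv : Cfsg.hermForm n F q w v = 0 := herm_swap_zero hF hvw
  obtain ⟨a, ha⟩ : ∃ a, a = Cfsg.hermForm n F q ((g : Matrix (Fin n) (Fin n) F) *ᵥ w) y :=
    ⟨_, rfl⟩
  have ha0 : a ≠ 0 := by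
    rw [ha]
    apply herm_swap_ne hF
    have e : Cfsg.hermForm n F q y ((g : Matrix (Fin n) (Fin n) F) *ᵥ w) =
        Cfsg.hermForm n F q (((g⁻¹ : GL (Fin n) F) : Matrix (Fin n) (Fin n) F) *ᵥ y) w := by
      have h1 := hgi (((g⁻¹ : GL (Fin n) F) : Matrix (Fin n) (Fin n) F) *ᵥ y) w
      rw [gl_mulVec_inv] at h1
      exact h1
    rw [e]
    exact hyw
  have hρ : InM M (siegel q x y 0) := by
    have := D.siegel_inM M hM hx hy hxx hyx
    rwa [hyy, neg_zero, zero_div] at this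
  have hρi : IsHermIso n F q (siegel q x y 0) :=
    isHermIso_siegel hF x y 0 hxx hyx (by rw [hyy, conj_zero hF]; ring)
  have hpx : Cfsg.hermForm n F q p x = 0 := by
    rw [hpd, herm_add_left, herm_smul_left, hxx, hyx, mul_zero, add_zero]
  have hpy : Cfsg.hermForm n F q p y = 0 := by
    rw [hpd, herm_add_left, herm_smul_left, hxy, hyy, mul_zero, add_zero]
  have hρp : siegel q x y 0 *ᵥ p = p := by
    rw [siegel_mulVec x y 0 hxx, hpx, hpy]
    module
  obtain ⟨e₁, he₁⟩ : ∃ e₁, e₁ = -4 * ω * (a ^ q * a) := ⟨_, rfl⟩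
  have key : ∀ s ∈ F₀, InM M (Cfsg.unitaryTransvection n q v (s ^ 2 * e₁)) := by
    intro s hs
    have hsq : s ^ q = s := (D.fix s).mp hs
    have hsw : IsRat F₀ P (s • w) := isRat_smul hs hw
    have hswv : Cfsg.hermForm n F q (s • w) v = 0 := by rw [herm_smul_left, hwv, mul_zero]
    obtain ⟨c, hc⟩ : ∃ c, c = -(Cfsg.hermForm n F q (s • w) (s • w)) / 2 := ⟨_, rfl⟩
    have hR : InM M (siegel q v (s • w) c) := by
      rw [hc]
      exact D.siegel_inM M hM hv hsw hvv hswv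
    obtain ⟨z, hz⟩ : ∃ z, z = (g : Matrix (Fin n) (Fin n) F) *ᵥ (s • w) := ⟨_, rfl⟩
    have hA : InM M (siegel q p z c) := by
      rw [hp, hz]
      exact InM.conj_siegel (InM.of_mem hg) hgi hR hvv
    have hB : InM M (siegel q p (siegel q x y 0 *ᵥ z) c) := by
      have := InM.conj_siegel hρ hρi hA hpp
      rwa [hρp] at this
    have hzp : Cfsg.hermForm n F q z p = 0 := by rw [hz, hp, hgi]; exact hswv
    have hz'p : Cfsg.hermForm n F q (siegel q x y 0 *ᵥ z) p = 0 := by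
      have := hρi z p
      rw [hρp] at this
      rw [this]
      exact hzp
    have hcomm := InM.comm_siegel hF hA hB hpp hzp hz'p
    have hzy : Cfsg.hermForm n F q z y = s * a := by
      rw [hz, Matrix.mulVec_smul, herm_smul_left, ha]
    have hzx : Cfsg.hermForm n F q z x = ω * (s * a) := by
      have h1 := hzp
      rw [hpd, herm_add_right hF, herm_smul_right, hω, hzy] at h1
      linear_combination h1
    have hyz : Cfsg.hermForm n F q y z = s * a ^ q := by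
      rw [← herm_conj hF, hzy, mul_pow, hsq]
    have hxz : Cfsg.hermForm n F q x z = -(ω * (s * a ^ q)) := by
      rw [← herm_conj hF, hzx, mul_pow, mul_pow, hω, hsq]
      ring
    have hpar : Cfsg.hermForm n F q z (siegel q x y 0 *ᵥ z) -
        Cfsg.hermForm n F q (siegel q x y 0 *ᵥ z) z = s ^ 2 * e₁ := by
      rw [siegel_mulVec x y 0 hxx]
      simp only [herm_add_left, herm_sub_left, herm_add_right hF, herm_sub_right hF,
        herm_smul_left, herm_smul_right, hzy, hzx, hyz, hxz, mul_pow, hω, hsq, zero_mul,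
        conj_zero hF]
      rw [he₁]
      ring
    rw [hpar] at hcomm
    have h5 := InM.conj_utransv (InM.of_mem (M.inv_mem hg)) (isHermIso_gl_inv hgi) hcomm
    rwa [hp, gl_inv_mulVec] at h5
  have h4 : (4 : F) ≠ 0 := by
    have : (4 : F) = 2 * 2 := by norm_num
    rw [this]
    exact mul_ne_zero h2 h2
  have he₁0 : e₁ ≠ 0 := by
    rw [he₁]
    exact mul_ne_zero (mul_ne_zero (neg_ne_zero.mpr h4) hω0)
      (mul_ne_zero (pow_ne_zero _ ha0) ha0)
  have h4q : (4 : F) ^ q = 4 := by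
    rw [← D.fix]
    have : (4 : F) = 2 * 2 := by norm_num
    rw [this]
    exact F₀.mul_mem D.two_mem D.two_mem
  have he₁q : e₁ ^ q = -e₁ := by
    rw [he₁, mul_pow, mul_pow, mul_pow, conj_neg hF, h4q, hω, conj_conj hF]
    ring
  refine isCtr_of_inM hvv fun c hc => ?_
  obtain ⟨t, ht⟩ : ∃ t, t = c / e₁ := ⟨_, rfl⟩
  have htm : t ∈ F₀ := by rw [ht]; exact D.skew_div hc he₁q
  have hs₁ : (t + 1) / 2 ∈ F₀ := F₀.div_mem (F₀.add_mem htm F₀.one_mem) D.two_mem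
  have hs₂ : (t - 1) / 2 ∈ F₀ := F₀.div_mem (F₀.sub_mem htm F₀.one_mem) D.two_mem
  have k₁ := key _ hs₁
  have k₂ := key _ hs₂
  refine InM.of_mul_eq' k₂ k₁ ?_
  rw [utransv_mul v _ _ hvv]
  congr 1
  rw [ht]
  field_simp
  ring

/-- type R: `g` maps the rational singular `v` to a multiple of the rational `x'`. -/
theorem ORat.ctr_or_rat_typeR (D : ORat q F₀ P) {ω : F} (hω0 : ω ≠ 0) (hω : ω ^ q = -ω)
    (M : Subgroup (GL (Fin n) F)) (hM : Cfsg.Geo.subfieldSubgroup F₀ P ⊓ suGL n F q ≤ M)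
    (g : GL (Fin n) F) (hg : g ∈ M) (hgi : IsHermIso n F q (g : Matrix (Fin n) (Fin n) F))
    {v x' : Fin n → F} {lam : F} (hv : IsRat F₀ P v) (hvv : Cfsg.hermForm n F q v v = 0)
    (hx' : IsRat F₀ P x') (hx'0 : x' ≠ 0) (hlam : lam ≠ 0)
    (hgv : (g : Matrix (Fin n) (Fin n) F) *ᵥ v = lam • x') :
    IsCtr q M x' ∨ ∀ w, IsRat F₀ P w → Cfsg.hermForm n F q w v = 0 →
      IsRat F₀ P (lam ^ q • ((g : Matrix (Fin n) (Fin n) F) *ᵥ w)) := by
  have hF := D.hF
  have h2 := D.two_ne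
  have hωne := D.omega_ne hω0 hω
  have hlq : lam ^ q ≠ 0 := pow_ne_zero _ hlam
  have hx'x' : Cfsg.hermForm n F q x' x' = 0 := by
    have h1 := hgi v v
    rw [hgv, herm_smul_left, herm_smul_right, hvv] at h1
    rcases mul_eq_zero.mp h1 with h | h
    · exact absurd h hlam
    · rcases mul_eq_zero.mp h with h | h
      · exact absurd h hlq
      · exact h
  have hS : ∀ w, IsRat F₀ P w → Cfsg.hermForm n F q w v = 0 →
      InM M (siegel q x' (lam ^ q • ((g : Matrix (Fin n) (Fin n) F) *ᵥ w))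
        (lam ^ (q + 1) * (-(Cfsg.hermForm n F q w w) / 2))) ∧
      Cfsg.hermForm n F q (lam ^ q • ((g : Matrix (Fin n) (Fin n) F) *ᵥ w)) x' = 0 := by
    intro w hw hwv
    constructor
    · have h1 := InM.conj_siegel (InM.of_mem hg) hgi (D.siegel_inM M hM hv hw hvv hwv) hvv
      rw [hgv, siegel_smul_left hF _ _ _ _ hx'x'] at h1
      exact h1
    · have h1 := hgi w v
      rw [hgv, herm_smul_right, hwv] at h1
      rw [herm_smul_left]
      rcases mul_eq_zero.mp h1 with h | h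
      · exact absurd h hlq
      · rw [h, mul_zero]
  have hR2 : ∀ w y₁ κ, IsRat F₀ P w → Cfsg.hermForm n F q w v = 0 → IsRat F₀ P y₁ → κ ∈ F₀ →
      lam ^ q • ((g : Matrix (Fin n) (Fin n) F) *ᵥ w) = y₁ + (ω * κ) • x' →
      InM M (Cfsg.unitaryTransvection n q x' (2 * ω * κ)) := by
    intro w y₁ κ hw hwv hy₁ hκ hdec
    obtain ⟨h1, h3⟩ := hS w hw hwv
    have hκq : κ ^ q = κ := (D.fix κ).mp hκ
    have hy₁x' : Cfsg.hermForm n F q y₁ x' = 0 := by
      rw [hdec, herm_add_left, herm_smul_left, hx'x', mul_zero, add_zero] at h3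
      exact h3
    have hx'y₁ : Cfsg.hermForm n F q x' y₁ = 0 := herm_swap_zero hF hy₁x'
    have hQ : Cfsg.hermForm n F q y₁ y₁ = lam ^ (q + 1) * Cfsg.hermForm n F q w w := by
      have h4 : Cfsg.hermForm n F q (lam ^ q • ((g : Matrix (Fin n) (Fin n) F) *ᵥ w))
          (lam ^ q • ((g : Matrix (Fin n) (Fin n) F) *ᵥ w)) =
          lam ^ (q + 1) * Cfsg.hermForm n F q w w := by
        rw [herm_smul_left, herm_smul_right, hgi, conj_conj hF]
        ring
      rw [hdec] at h4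
      simp only [herm_add_left, herm_add_right hF, herm_smul_left, herm_smul_right, hx'x',
        hy₁x', hx'y₁, mul_zero, add_zero] at h4
      exact h4
    rw [hdec, siegel_add_smul hF _ _ _ _ hx'x'] at h1
    have h5 : lam ^ (q + 1) * (-(Cfsg.hermForm n F q w w) / 2) + ω * κ - (ω * κ) ^ q =
        -(Cfsg.hermForm n F q y₁ y₁) / 2 + 2 * ω * κ := by
      rw [hQ, mul_pow, hω, hκq]
      ring
    rw [h5, ← siegel_mul_utransv hF _ _ _ _ hx'x' hx'y₁] at h1
    exact InM.of_mul_eq (D.siegel_inM M hM hx' hy₁ hx'x' hy₁x') h1 rfl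
  by_cases hex : ∃ w y₁ κ, IsRat F₀ P w ∧ Cfsg.hermForm n F q w v = 0 ∧ IsRat F₀ P y₁ ∧
      κ ∈ F₀ ∧ κ ≠ 0 ∧ lam ^ q • ((g : Matrix (Fin n) (Fin n) F) *ᵥ w) = y₁ + (ω * κ) • x'
  · left
    obtain ⟨w, y₁, κ, hw, hwv, hy₁, hκ, hκ0, hdec⟩ := hex
    refine isCtr_of_inM hx'x' fun c hc => ?_
    have hskew : (2 * ω * κ) ^ q = -(2 * ω * κ) := by
      rw [mul_pow, mul_pow, hω, (D.fix κ).mp hκ, (D.fix 2).mp D.two_mem]
      ring
    obtain ⟨s, hs⟩ : ∃ s, s = c / (2 * ω * κ) := ⟨_, rfl⟩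
    have hsm : s ∈ F₀ := by rw [hs]; exact D.skew_div hc hskew
    have h6 := hR2 (s • w) (s • y₁) (s * κ) (isRat_smul hsm hw)
      (by rw [herm_smul_left, hwv, mul_zero]) (isRat_smul hsm hy₁) (F₀.mul_mem hsm hκ)
      (by rw [Matrix.mulVec_smul, smul_comm, hdec]; module)
    have h7 : 2 * ω * (s * κ) = c := by
      rw [hs]
      field_simp
    rwa [h7] at h6
  · by_cases hcase : ∃ w w', IsRat F₀ P w ∧ Cfsg.hermForm n F q w v = 0 ∧ IsRat F₀ P w' ∧
        Cfsg.hermForm n F q w' x' = 0 ∧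
        Cfsg.hermForm n F q (lam ^ q • ((g : Matrix (Fin n) (Fin n) F) *ᵥ w)) w' ≠
          Cfsg.hermForm n F q w' (lam ^ q • ((g : Matrix (Fin n) (Fin n) F) *ᵥ w))
    · left
      obtain ⟨w, w', hw, hwv, hw', hw'x', hne⟩ := hcase
      obtain ⟨h1, h3⟩ := hS w hw hwv
      obtain ⟨yw, hyw⟩ : ∃ yw, yw = lam ^ q • ((g : Matrix (Fin n) (Fin n) F) *ᵥ w) := ⟨_, rfl⟩
      rw [← hyw] at h1 h3 hne
      obtain ⟨e₀, he₀⟩ : ∃ e₀, e₀ = Cfsg.hermForm n F q yw w' - Cfsg.hermForm n F q w' yw :=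
        ⟨_, rfl⟩
      have he₀0 : e₀ ≠ 0 := by rw [he₀]; exact sub_ne_zero.mpr hne
      have he₀q : e₀ ^ q = -e₀ := by
        rw [he₀, conj_sub hF, herm_conj hF, herm_conj hF]
        ring
      refine isCtr_of_inM hx'x' fun c hc => ?_
      obtain ⟨s, hs⟩ : ∃ s, s = c / e₀ := ⟨_, rfl⟩
      have hsm : s ∈ F₀ := by rw [hs]; exact D.skew_div hc he₀q
      have h6 := InM.comm_siegel hF h1 (D.siegel_inM M hM hx' (isRat_smul hsm hw') hx'x'
        (by rw [herm_smul_left, hw'x', mul_zero])) hx'x' h3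
        (by rw [herm_smul_left, hw'x', mul_zero])
      have h7 : Cfsg.hermForm n F q yw (s • w') - Cfsg.hermForm n F q (s • w') yw = c := by
        rw [herm_smul_left, herm_smul_right, (D.fix s).mp hsm, ← mul_sub, ← he₀, hs]
        field_simp
      rwa [h7] at h6
    · right
      push Not at hcase
      intro w hw hwv
      obtain ⟨y₁, y₂, hy₁, hy₂, hdec⟩ := exists_rat_decomp hF F₀ D.hcard P ω hωne
        (lam ^ q • ((g : Matrix (Fin n) (Fin n) F) *ᵥ w))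
      have hperp : ∀ w', IsRat F₀ P w' → Cfsg.hermForm n F q x' w' = 0 →
          Cfsg.hermForm n F q y₂ w' = 0 := by
        intro w' hw' hx'w'
        have h8 := hcase w w' hw hwv hw' (herm_swap_zero hF hx'w')
        rw [hdec, herm_add_left, herm_add_right hF, herm_smul_left, herm_smul_right, hω,
          D.symm hy₁ hw', D.symm hy₂ hw'] at h8
        have h9 : (2 * ω) * Cfsg.hermForm n F q y₂ w' = 0 := by linear_combination h8
        rcases mul_eq_zero.mp h9 with h | h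
        · exact absurd h (mul_ne_zero h2 hω0)
        · exact h
      have hmem : y₂ ∈ Submodule.span F {x'} := by
        by_contra hnot
        obtain ⟨w', hw', h10, h11⟩ := D.exists_sep hωne hx' hnot
        exact h11 (hperp w' hw' h10)
      obtain ⟨κ, hκ⟩ := Submodule.mem_span_singleton.mp hmem
      have hκm : κ ∈ F₀ := isRat_smul_mem hx' hx'0 (by rw [hκ]; exact hy₂)
      have hκ0 : κ = 0 := by
        by_contra hκ0
        exact hex ⟨w, y₁, κ, hw, hwv, hy₁, hκm, hκ0, by rw [hdec, ← hκ, smul_smul]⟩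
      rw [hdec, ← hκ, hκ0, zero_smul, smul_zero, add_zero]
      exact hy₁

/-- an element of `M` outside the subfield subgroup yields a rational centre. -/
theorem ORat.exists_ctr (D : ORat q F₀ P) (hn : 6 < n) {ω : F} (hω0 : ω ≠ 0)
    (hω : ω ^ q = -ω) (M : Subgroup (GL (Fin n) F))
    (hM : Cfsg.Geo.subfieldSubgroup F₀ P ⊓ suGL n F q ≤ M) (g : GL (Fin n) F) (hg : g ∈ M)
    (hgi : IsHermIso n F q (g : Matrix (Fin n) (Fin n) F))
    (hgW : g ∉ Cfsg.Geo.subfieldSubgroup F₀ P) :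
    ∃ v, IsRat F₀ P v ∧ v ≠ 0 ∧ IsCtr q M v := by
  classical
  have hF := D.hF
  have h2 := D.two_ne
  have hωne := D.omega_ne hω0 hω
  -- decompose P⁻¹ g P = X + ω Y
  have hdec : ∀ i j, ∃ a b : F, a ∈ F₀ ∧ b ∈ F₀ ∧
      (((P⁻¹ : GL (Fin n) F) : Matrix (Fin n) (Fin n) F) * (g : Matrix (Fin n) (Fin n) F) *
        (P : Matrix (Fin n) (Fin n) F)) i j = a + ω * b :=
    fun i j => exists_subfield_decomp hF F₀ D.hcard ω hωne _
  choose X Y hX hY hXY using hdec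
  have hB : ((P⁻¹ : GL (Fin n) F) : Matrix (Fin n) (Fin n) F) *
      (g : Matrix (Fin n) (Fin n) F) * (P : Matrix (Fin n) (Fin n) F) =
      (Matrix.of X) + ω • (Matrix.of Y) := by
    ext i j
    rw [hXY]
    rfl
  have hgP : (g : Matrix (Fin n) (Fin n) F) * (P : Matrix (Fin n) (Fin n) F) =
      (P : Matrix (Fin n) (Fin n) F) * ((Matrix.of X) + ω • (Matrix.of Y)) := by
    have h1 : (P : Matrix (Fin n) (Fin n) F) *
        ((P⁻¹ : GL (Fin n) F) : Matrix (Fin n) (Fin n) F) = 1 := by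
      rw [← Units.val_mul, mul_inv_cancel, Units.val_one]
    rw [← hB, ← Matrix.mul_assoc, ← Matrix.mul_assoc, h1, Matrix.one_mul]
  have hcolX : ∀ i, IsRat F₀ P (((P : Matrix (Fin n) (Fin n) F) * Matrix.of X) *ᵥ
      Pi.single i 1) := by
    intro i
    rw [← Matrix.mulVec_mulVec]
    refine ⟨_, fun l => ?_, rfl⟩
    rw [Matrix.mulVec_single_one]
    exact hX l i
  have hcolY : ∀ i, IsRat F₀ P (((P : Matrix (Fin n) (Fin n) F) * Matrix.of Y) *ᵥ
      Pi.single i 1) := by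
    intro i
    rw [← Matrix.mulVec_mulVec]
    refine ⟨_, fun l => ?_, rfl⟩
    rw [Matrix.mulVec_single_one]
    exact hY l i
  obtain ⟨u, hu, hu0, hz⟩ := D.exists_zero3 hn
    ![(P : Matrix (Fin n) (Fin n) F), (P : Matrix (Fin n) (Fin n) F) * Matrix.of Y,
      (P : Matrix (Fin n) (Fin n) F) * Matrix.of X]
    ![(P : Matrix (Fin n) (Fin n) F), (P : Matrix (Fin n) (Fin n) F) * Matrix.of Y,
      (P : Matrix (Fin n) (Fin n) F) * Matrix.of Y]
    (by
      intro k i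
      fin_cases k
      · exact isRat_col F₀ P i
      · exact hcolY i
      · exact hcolX i)
    (by
      intro k i
      fin_cases k
      · exact isRat_col F₀ P i
      · exact hcolY i
      · exact hcolY i)
  obtain ⟨v, hvdef⟩ : ∃ v, v = (P : Matrix (Fin n) (Fin n) F) *ᵥ u := ⟨_, rfl⟩
  obtain ⟨x, hxdef⟩ : ∃ x, x = ((P : Matrix (Fin n) (Fin n) F) * Matrix.of X) *ᵥ u := ⟨_, rfl⟩
  obtain ⟨y, hydef⟩ : ∃ y, y = ((P : Matrix (Fin n) (Fin n) F) * Matrix.of Y) *ᵥ u := ⟨_, rfl⟩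
  have hv : IsRat F₀ P v := ⟨u, hu, hvdef.symm⟩
  have hx : IsRat F₀ P x := by
    rw [hxdef, ← Matrix.mulVec_mulVec]
    refine ⟨_, fun l => ?_, rfl⟩
    simp only [Matrix.mulVec, dotProduct]
    exact F₀.sum_mem fun j _ => F₀.mul_mem (hX l j) (hu j)
  have hy : IsRat F₀ P y := by
    rw [hydef, ← Matrix.mulVec_mulVec]
    refine ⟨_, fun l => ?_, rfl⟩
    simp only [Matrix.mulVec, dotProduct]
    exact F₀.sum_mem fun j _ => F₀.mul_mem (hY l j) (hu j)
  have hv0 : v ≠ 0 := by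
    intro h0
    apply hu0
    apply gl_mulVec_injective P
    rw [← hvdef, h0, Matrix.mulVec_zero]
  have hvv : Cfsg.hermForm n F q v v = 0 := by rw [hvdef]; exact hz 0
  have hyy : Cfsg.hermForm n F q y y = 0 := by rw [hydef]; exact hz 1
  have hxy : Cfsg.hermForm n F q x y = 0 := by rw [hxdef, hydef]; exact hz 2
  have hgv : (g : Matrix (Fin n) (Fin n) F) *ᵥ v = x + ω • y := by
    rw [hvdef, Matrix.mulVec_mulVec, hgP, Matrix.mul_add, Matrix.add_mulVec, Matrix.mul_smul,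
      Matrix.smul_mulVec, hxdef, hydef]
  have hgv0 : (g : Matrix (Fin n) (Fin n) F) *ᵥ v ≠ 0 := by
    intro h0
    apply hv0
    apply gl_mulVec_injective g
    rw [h0, Matrix.mulVec_zero]
  by_cases hT : y ∈ Submodule.span F {(g : Matrix (Fin n) (Fin n) F) *ᵥ v}
  · -- type R
    obtain ⟨lam, x', hlam, hx', hgx'⟩ : ∃ (lam : F) (x' : Fin n → F), lam ≠ 0 ∧
        IsRat F₀ P x' ∧ (g : Matrix (Fin n) (Fin n) F) *ᵥ v = lam • x' := by
      obtain ⟨κ, hκ⟩ := Submodule.mem_span_singleton.mp hT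
      by_cases hκ0 : κ = 0
      · refine ⟨1, x, one_ne_zero, hx, ?_⟩
        rw [hgv, ← hκ, hκ0, zero_smul, smul_zero, add_zero, one_smul]
      · refine ⟨κ⁻¹, y, inv_ne_zero hκ0, hy, ?_⟩
        rw [← hκ, smul_smul, inv_mul_cancel₀ hκ0, one_smul]
    have hx'0 : x' ≠ 0 := by
      rintro rfl
      rw [smul_zero] at hgx'
      exact hgv0 hgx'
    rcases D.ctr_or_rat_typeR hω0 hω M hM g hg hgi hv hvv hx' hx'0 hlam hgx' with hc | hrat
    · exact ⟨x', hx', hx'0, hc⟩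
    obtain ⟨z, hz, hz0, hzz, hzv, hzspan⟩ := D.exists_singular_perp_indep hn hωne hv hv0
    have hlq : lam ^ q ≠ 0 := pow_ne_zero _ hlam
    obtain ⟨z₁, hz₁⟩ : ∃ z₁, z₁ = lam ^ q • ((g : Matrix (Fin n) (Fin n) F) *ᵥ z) := ⟨_, rfl⟩
    have hz₁r : IsRat F₀ P z₁ := by rw [hz₁]; exact hrat z hz hzv
    have hgz : (g : Matrix (Fin n) (Fin n) F) *ᵥ z = (lam ^ q)⁻¹ • z₁ := by
      rw [hz₁, smul_smul, inv_mul_cancel₀ hlq, one_smul]
    have hz₁0 : z₁ ≠ 0 := by
      rintro rfl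
      rw [smul_zero] at hgz
      apply hz0
      apply gl_mulVec_injective g
      rw [hgz, Matrix.mulVec_zero]
    rcases D.ctr_or_rat_typeR hω0 hω M hM g hg hgi hz hzz hz₁r hz₁0 (inv_ne_zero hlq) hgz
      with hc | hrat2
    · exact ⟨z₁, hz₁r, hz₁0, hc⟩
    exfalso
    apply hgW
    have hnorm : lam ^ (q + 1) ∈ F₀ := by rw [D.fix]; exact norm_fixed hF lam
    have hrat2' : ∀ w, IsRat F₀ P w → Cfsg.hermForm n F q w z = 0 →
        IsRat F₀ P (lam ^ q • ((g : Matrix (Fin n) (Fin n) F) *ᵥ w)) := by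
      intro w hw hwz
      have h5 := isRat_smul hnorm (hrat2 w hw hwz)
      have h6 : lam ^ (q + 1) • ((lam ^ q)⁻¹ ^ q • ((g : Matrix (Fin n) (Fin n) F) *ᵥ w)) =
          lam ^ q • ((g : Matrix (Fin n) (Fin n) F) *ᵥ w) := by
        rw [smul_smul, inv_pow, conj_conj hF, pow_succ, mul_assoc, mul_inv_cancel₀ hlam, mul_one]
      rwa [h6] at h5
    have hzspan' : z ∉ Submodule.span F {v} := hzspan
    obtain ⟨u₀, hu₀, hvu₀, hzu₀⟩ := D.exists_sep hωne hv hzspan'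
    have hu₀z : Cfsg.hermForm n F q u₀ z ≠ 0 := herm_swap_ne hF hzu₀
    apply mem_subfieldSubgroup_of_maps F₀ P g (lam ^ q)⁻¹ (inv_ne_zero hlq)
    intro t ht
    refine ⟨lam ^ q • ((g : Matrix (Fin n) (Fin n) F) *ᵥ t), ?_, by
      rw [smul_smul, inv_mul_cancel₀ hlq, one_smul]⟩
    obtain ⟨τ, hτ⟩ : ∃ τ, τ = Cfsg.hermForm n F q t z / Cfsg.hermForm n F q u₀ z := ⟨_, rfl⟩
    have hτm : τ ∈ F₀ := by rw [hτ]; exact F₀.div_mem (D.form ht hz) (D.form hu₀ hz)
    have h7 : IsRat F₀ P (lam ^ q • ((g : Matrix (Fin n) (Fin n) F) *ᵥ (t - τ • u₀))) := by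
      apply hrat2' _ (isRat_sub ht (isRat_smul hτm hu₀))
      rw [herm_sub_left, herm_smul_left, hτ, div_mul_cancel₀ _ hu₀z, sub_self]
    have h8 : IsRat F₀ P (lam ^ q • ((g : Matrix (Fin n) (Fin n) F) *ᵥ (τ • u₀))) := by
      apply hrat _ (isRat_smul hτm hu₀)
      rw [herm_smul_left, herm_swap_zero hF hvu₀, mul_zero]
    have h9 := isRat_add h7 h8
    rwa [← smul_add, ← Matrix.mulVec_add, sub_add_cancel] at h9
  · exact ⟨v, hv, hv0, D.ctr_typeT hω0 hω M hM g hg hgi hv hvv hx hy hyy hxy hgv hT⟩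

/-- moving a centre to an orthogonal rational singular vector. -/
theorem ORat.ctr_move_perp (D : ORat q F₀ P) {ω : F} (hω0 : ω ≠ 0) (hω : ω ^ q = -ω)
    (M : Subgroup (GL (Fin n) F)) (hM : Cfsg.Geo.subfieldSubgroup F₀ P ⊓ suGL n F q ≤ M)
    {v₁ v₂ : Fin n → F} (h₁ : IsRat F₀ P v₁) (h₂ : IsRat F₀ P v₂) (h₁0 : v₁ ≠ 0)
    (h₂0 : v₂ ≠ 0) (h₂₂ : Cfsg.hermForm n F q v₂ v₂ = 0)
    (hperp : Cfsg.hermForm n F q v₁ v₂ = 0) (hc : IsCtr q M v₁) : IsCtr q M v₂ := by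
  have hF := D.hF
  have h2 := D.two_ne
  have hωne := D.omega_ne hω0 hω
  have h₁₁ := hc.1
  have hperp' : Cfsg.hermForm n F q v₂ v₁ = 0 := herm_swap_zero hF hperp
  obtain ⟨e, he, hv₁e, hv₂e⟩ := D.exists_ne2 hωne h₁0 h₂0
  have hev₁ : Cfsg.hermForm n F q e v₁ ≠ 0 := herm_swap_ne hF hv₁e
  obtain ⟨κ, hκ, hsing⟩ := D.singularize he h₁ h₁₁ hev₁
  obtain ⟨u, hudef⟩ : ∃ u, u = e + κ • v₁ := ⟨_, rfl⟩
  rw [← hudef] at hsing
  have hu : IsRat F₀ P u := by rw [hudef]; exact isRat_add he (isRat_smul hκ h₁)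
  obtain ⟨a, ha⟩ : ∃ a, a = Cfsg.hermForm n F q v₁ u := ⟨_, rfl⟩
  obtain ⟨b, hb⟩ : ∃ b, b = Cfsg.hermForm n F q v₂ u := ⟨_, rfl⟩
  have ha' : a = Cfsg.hermForm n F q v₁ e := by
    rw [ha, hudef, herm_add_right hF, herm_smul_right, h₁₁, mul_zero, add_zero]
  have hb' : b = Cfsg.hermForm n F q v₂ e := by
    rw [hb, hudef, herm_add_right hF, herm_smul_right, hperp', mul_zero, add_zero]
  have ha0 : a ≠ 0 := by rw [ha']; exact hv₁e
  have hb0 : b ≠ 0 := by rw [hb']; exact hv₂e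
  have ham : a ∈ F₀ := by rw [ha]; exact D.form h₁ hu
  have hbm : b ∈ F₀ := by rw [hb]; exact D.form h₂ hu
  have haq : a ^ q = a := (D.fix a).mp ham
  have hbq : b ^ q = b := (D.fix b).mp hbm
  -- normalised vectors
  obtain ⟨u', hu'def⟩ : ∃ u', u' = a⁻¹ • u := ⟨_, rfl⟩
  obtain ⟨v₂', hv₂'def⟩ : ∃ v₂', v₂' = (a / b) • v₂ := ⟨_, rfl⟩
  have hu' : IsRat F₀ P u' := by rw [hu'def]; exact isRat_smul (F₀.inv_mem ham) hu
  have hv₂' : IsRat F₀ P v₂' := by rw [hv₂'def]; exact isRat_smul (F₀.div_mem ham hbm) h₂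
  have hu'u' : Cfsg.hermForm n F q u' u' = 0 := by
    rw [hu'def, herm_smul_left, herm_smul_right, hsing, mul_zero, mul_zero]
  obtain ⟨w, hwdef⟩ : ∃ w, w = v₂' - v₁ := ⟨_, rfl⟩
  have hw : IsRat F₀ P w := by rw [hwdef]; exact isRat_sub hv₂' h₁
  have hwu' : Cfsg.hermForm n F q w u' = 0 := by
    rw [hwdef, hu'def, hv₂'def, herm_sub_left, herm_smul_left, herm_smul_right,
      herm_smul_right, ← ha, ← hb, inv_pow, haq]
    field_simp
    ring
  have hww : Cfsg.hermForm n F q w w = 0 := by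
    rw [hwdef, hv₂'def]
    simp only [herm_sub_left, herm_sub_right hF, herm_smul_left, herm_smul_right, h₂₂, h₁₁,
      hperp, hperp', mul_zero, sub_zero]
  have hS := D.siegel_inM M hM hu' hw hu'u' hwu'
  rw [hww, neg_zero, zero_div] at hS
  have hSi : IsHermIso n F q (siegel q u' w 0) :=
    isHermIso_siegel hF u' w 0 hu'u' hwu' (by rw [hww, conj_zero hF]; ring)
  obtain ⟨E, hE, hEval⟩ := hS
  have h3 := isCtr_mulVec M E hE (by rw [hEval]; exact hSi) hc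
  have hv₁u' : Cfsg.hermForm n F q v₁ u' = 1 := by
    rw [hu'def, herm_smul_right, ← ha, inv_pow, haq, inv_mul_cancel₀ ha0]
  have hv₁w : Cfsg.hermForm n F q v₁ w = 0 := by
    rw [hwdef, hv₂'def, herm_sub_right hF, herm_smul_right, hperp, h₁₁, mul_zero, sub_zero]
  have h4 : (E : Matrix (Fin n) (Fin n) F) *ᵥ v₁ = v₂' := by
    rw [hEval, siegel_mulVec u' w 0 hu'u', hv₁u', hv₁w, hwdef]
    module
  rw [h4] at h3
  have h5 := isCtr_smul hF M (b / a) h3
  have h6 : (b / a) • v₂' = v₂ := by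
    rw [hv₂'def, smul_smul]
    have : b / a * (a / b) = 1 := by field_simp
    rw [this, one_smul]
  rwa [h6] at h5

/-- all rational singular vectors are centres as soon as one non-zero one is. -/
theorem ORat.ctr_all_rat (D : ORat q F₀ P) (hn : 6 < n) {ω : F} (hω0 : ω ≠ 0)
    (hω : ω ^ q = -ω) (M : Subgroup (GL (Fin n) F))
    (hM : Cfsg.Geo.subfieldSubgroup F₀ P ⊓ suGL n F q ≤ M)
    {v₁ : Fin n → F} (h₁ : IsRat F₀ P v₁) (h₁0 : v₁ ≠ 0) (hc : IsCtr q M v₁)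
    {v₂ : Fin n → F} (h₂ : IsRat F₀ P v₂) (h₂₂ : Cfsg.hermForm n F q v₂ v₂ = 0) :
    IsCtr q M v₂ := by
  have hF := D.hF
  by_cases h₂0 : v₂ = 0
  · rw [h₂0]
    exact isCtr_zero hF M
  by_cases hperp : Cfsg.hermForm n F q v₁ v₂ = 0
  · exact D.ctr_move_perp hω0 hω M hM h₁ h₂ h₁0 h₂0 h₂₂ hperp hc
  · obtain ⟨s, hs, hs0, hss, hsv₁, hsv₂⟩ := D.exists_singular_perp hn h₁ h₂
    have hcs := D.ctr_move_perp hω0 hω M hM h₁ hs h₁0 hs0 hss (herm_swap_zero hF hsv₁) hc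
    exact D.ctr_move_perp hω0 hω M hM hs h₂ hs0 h₂0 h₂₂ hsv₂ hcs

/-- isotropic vectors `x + ω y` with `x, y` rational singular are centres. -/
theorem ORat.ctr_pair (D : ORat q F₀ P) {ω : F} (hω0 : ω ≠ 0) (hω : ω ^ q = -ω)
    (M : Subgroup (GL (Fin n) F))
    (hC : ∀ x, IsRat F₀ P x → Cfsg.hermForm n F q x x = 0 → IsCtr q M x)
    {x y : Fin n → F} (hx : IsRat F₀ P x) (hy : IsRat F₀ P y)
    (hxx : Cfsg.hermForm n F q x x = 0) (hyy : Cfsg.hermForm n F q y y = 0) :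
    IsCtr q M (x + ω • y) := by
  have hF := D.hF
  have h2 := D.two_ne
  have hωne := D.omega_ne hω0 hω
  -- the case of a non-orthogonal pair
  have base : ∀ x y : Fin n → F, IsRat F₀ P x → IsRat F₀ P y →
      Cfsg.hermForm n F q x x = 0 → Cfsg.hermForm n F q y y = 0 →
      Cfsg.hermForm n F q x y ≠ 0 → IsCtr q M (x + ω • y) := by
    intro x y hx hy hxx hyy hxy
    have hm := D.form hx hy
    have hc : (ω / Cfsg.hermForm n F q x y) ^ q = -(ω / Cfsg.hermForm n F q x y) := by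
      rw [div_pow, hω, (D.fix _).mp hm, neg_div]
    have h1 := isCtr_transv hF M (hC x hx hxx) (hC y hy hyy) _ hc
    rwa [div_mul_cancel₀ _ hxy] at h1
  by_cases hxy : Cfsg.hermForm n F q x y = 0
  · by_cases hsp : y ∈ Submodule.span F {x}
    · obtain ⟨μ, rfl⟩ := Submodule.mem_span_singleton.mp hsp
      have e : x + ω • μ • x = (1 + ω * μ) • x := by module
      rw [e]
      exact isCtr_smul hF M _ (hC x hx hxx)
    · obtain ⟨t, ht, hxt, hyt⟩ := D.exists_sep hωne hx hsp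
      have hty : Cfsg.hermForm n F q t y ≠ 0 := herm_swap_ne hF hyt
      obtain ⟨κ, hκ, hsing⟩ := D.singularize ht hy hyy hty
      obtain ⟨z, hzdef⟩ : ∃ z, z = t + κ • y := ⟨_, rfl⟩
      rw [← hzdef] at hsing
      have hz : IsRat F₀ P z := by rw [hzdef]; exact isRat_add ht (isRat_smul hκ hy)
      have hxz : Cfsg.hermForm n F q x z = 0 := by
        rw [hzdef, herm_add_right hF, herm_smul_right, hxt, hxy, mul_zero, add_zero]
      have hzx : Cfsg.hermForm n F q z x = 0 := herm_swap_zero hF hxz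
      obtain ⟨b, hb⟩ : ∃ b, b = Cfsg.hermForm n F q y z := ⟨_, rfl⟩
      have hb' : b = Cfsg.hermForm n F q y t := by
        rw [hb, hzdef, herm_add_right hF, herm_smul_right, hyy, mul_zero, add_zero]
      have hb0 : b ≠ 0 := by rw [hb']; exact hyt
      have hbm : b ∈ F₀ := by rw [hb]; exact D.form hy hz
      have hbq : b ^ q = b := (D.fix b).mp hbm
      have hzy : Cfsg.hermForm n F q z y = b := by rw [D.symm hy hz, hb]
      have hx'x' : Cfsg.hermForm n F q (x + z) (x + z) = 0 := by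
        simp only [herm_add_left, herm_add_right hF, hxx, hxz, hzx, hsing, add_zero]
      have hx'y : Cfsg.hermForm n F q (x + z) y ≠ 0 := by
        rw [herm_add_left, hxy, zero_add, hzy]
        exact hb0
      have h1 := base (x + z) y (isRat_add hx hz) hy hx'x' hyy hx'y
      have hc : (-(ω * b)⁻¹) ^ q = -(-(ω * b)⁻¹) := by
        rw [conj_neg hF, inv_pow, mul_pow, hω, hbq]
        field_simp
      have h3 := isCtr_transv hF M h1 (hC z hz hsing) _ hc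
      have h4 : Cfsg.hermForm n F q (x + z + ω • y) z = ω * b := by
        simp only [herm_add_left, herm_smul_left, hxz, hsing, ← hb, zero_add]
      have h5 : x + z + ω • y + (-(ω * b)⁻¹ * Cfsg.hermForm n F q (x + z + ω • y) z) • z =
          x + ω • y := by
        rw [h4, neg_mul, inv_mul_cancel₀ (mul_ne_zero hω0 hb0)]
        module
      rwa [h5] at h3
  · exact base x y hx hy hxx hyy hxy

/-- every isotropic vector is a centre as soon as all rational singular vectors are. -/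
theorem ORat.ctr_all (D : ORat q F₀ P) (hn : 6 < n) {ω : F} (hω0 : ω ≠ 0) (hω : ω ^ q = -ω)
    (M : Subgroup (GL (Fin n) F))
    (hC : ∀ x, IsRat F₀ P x → Cfsg.hermForm n F q x x = 0 → IsCtr q M x)
    (z : Fin n → F) (hz : Cfsg.hermForm n F q z z = 0) : IsCtr q M z := by
  have hF := D.hF
  have h2 := D.two_ne
  have hωne := D.omega_ne hω0 hω
  have hω2 := D.omega_sq_mem hω
  obtain ⟨x, y, hx, hy, rfl⟩ := exists_rat_decomp hF F₀ D.hcard P ω hωne z
  have hnorm := D.norm_add hω hx hy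
  rw [hz] at hnorm
  have hxx : Cfsg.hermForm n F q x x = ω ^ 2 * Cfsg.hermForm n F q y y := by
    linear_combination -hnorm
  by_cases hyy : Cfsg.hermForm n F q y y = 0
  · rw [hyy, mul_zero] at hxx
    exact D.ctr_pair hω0 hω M hC hx hy hxx hyy
  obtain ⟨Qy, hQy⟩ : ∃ Qy, Qy = Cfsg.hermForm n F q y y := ⟨_, rfl⟩
  obtain ⟨β, hβ⟩ : ∃ β, β = Cfsg.hermForm n F q x y := ⟨_, rfl⟩
  rw [← hQy] at hxx hyy
  have hQym : Qy ∈ F₀ := by rw [hQy]; exact D.form hy hy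
  have hβm : β ∈ F₀ := by rw [hβ]; exact D.form hx hy
  have hyx : Cfsg.hermForm n F q y x = β := by rw [D.symm hx hy, hβ]
  obtain ⟨Δ, hΔ⟩ : ∃ Δ, Δ = ω ^ 2 * Qy * Qy - β ^ 2 := ⟨_, rfl⟩
  have hΔm : Δ ∈ F₀ :=
    by rw [hΔ]; exact F₀.sub_mem (F₀.mul_mem (F₀.mul_mem hω2 hQym) hQym) (F₀.pow_mem hβm 2)
  have hΔ0 : Δ ≠ 0 := by
    intro h0
    rw [hΔ] at h0
    have h3 : (ω * Qy - β) * (ω * Qy + β) = 0 := by linear_combination h0
    have hmem : ω ∈ F₀ := by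
      rcases mul_eq_zero.mp h3 with h | h
      · have : ω = β / Qy := by
          rw [eq_div_iff hyy]
          linear_combination h
        rw [this]
        exact F₀.div_mem hβm hQym
      · have : ω = -β / Qy := by
          rw [eq_div_iff hyy]
          linear_combination h
        rw [this]
        exact F₀.div_mem (F₀.neg_mem hβm) hQym
    exact D.omega_not_mem hω0 hω hmem
  obtain ⟨s, hs, hs0, hss, hsx, hsy⟩ := D.exists_singular_perp hn hx hy
  have hxs : Cfsg.hermForm n F q x s = 0 := herm_swap_zero hF hsx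
  have hys : Cfsg.hermForm n F q y s = 0 := herm_swap_zero hF hsy
  obtain ⟨e', he', hse'⟩ := D.exists_ne hωne hs0
  have he's : Cfsg.hermForm n F q e' s ≠ 0 := herm_swap_ne hF hse'
  obtain ⟨a, ha⟩ : ∃ a, a = Cfsg.hermForm n F q e' x := ⟨_, rfl⟩
  obtain ⟨b, hb⟩ : ∃ b, b = Cfsg.hermForm n F q e' y := ⟨_, rfl⟩
  have ham : a ∈ F₀ := by rw [ha]; exact D.form he' hx
  have hbm : b ∈ F₀ := by rw [hb]; exact D.form he' hy
  obtain ⟨α₁, hα₁⟩ : ∃ α₁, α₁ = ((1 - a) * Qy - (1 - b) * β) / Δ := ⟨_, rfl⟩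
  obtain ⟨α₂, hα₂⟩ : ∃ α₂, α₂ = ((1 - b) * (ω ^ 2 * Qy) - (1 - a) * β) / Δ := ⟨_, rfl⟩
  have hα₁m : α₁ ∈ F₀ := by
    rw [hα₁]
    exact F₀.div_mem (F₀.sub_mem (F₀.mul_mem (F₀.sub_mem F₀.one_mem ham) hQym)
      (F₀.mul_mem (F₀.sub_mem F₀.one_mem hbm) hβm)) hΔm
  have hα₂m : α₂ ∈ F₀ := by
    rw [hα₂]
    exact F₀.div_mem (F₀.sub_mem (F₀.mul_mem (F₀.sub_mem F₀.one_mem hbm)
      (F₀.mul_mem hω2 hQym)) (F₀.mul_mem (F₀.sub_mem F₀.one_mem ham) hβm)) hΔm
  obtain ⟨e, hedef⟩ : ∃ e, e = e' + α₁ • x + α₂ • y := ⟨_, rfl⟩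
  have he : IsRat F₀ P e := by
    rw [hedef]
    exact isRat_add (isRat_add he' (isRat_smul hα₁m hx)) (isRat_smul hα₂m hy)
  have hex : Cfsg.hermForm n F q e x = 1 := by
    rw [hedef]
    simp only [herm_add_left, herm_smul_left, ← ha, hxx, hyx]
    rw [hα₁, hα₂]
    field_simp
    rw [hΔ]
    ring
  have hey : Cfsg.hermForm n F q e y = 1 := by
    rw [hedef]
    simp only [herm_add_left, herm_smul_left, ← hb, ← hβ, ← hQy]
    rw [hα₁, hα₂]
    field_simp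
    rw [hΔ]
    ring
  have hes : Cfsg.hermForm n F q e s ≠ 0 := by
    rw [hedef]
    simp only [herm_add_left, herm_smul_left, hxs, hys, mul_zero, add_zero]
    exact he's
  obtain ⟨κ, hκ, hsing⟩ := D.singularize he hs hss hes
  obtain ⟨z₀, hz₀def⟩ : ∃ z₀, z₀ = e + κ • s := ⟨_, rfl⟩
  rw [← hz₀def] at hsing
  have hz₀ : IsRat F₀ P z₀ := by rw [hz₀def]; exact isRat_add he (isRat_smul hκ hs)
  have hxz₀ : Cfsg.hermForm n F q x z₀ = 1 := by
    rw [hz₀def, herm_add_right hF, herm_smul_right, hxs, mul_zero, add_zero, D.symm he hx, hex]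
  have hyz₀ : Cfsg.hermForm n F q y z₀ = 1 := by
    rw [hz₀def, herm_add_right hF, herm_smul_right, hys, mul_zero, add_zero, D.symm he hy, hey]
  have hz₀x : Cfsg.hermForm n F q z₀ x = 1 := by rw [D.symm hx hz₀, hxz₀]
  have hz₀y : Cfsg.hermForm n F q z₀ y = 1 := by rw [D.symm hy hz₀, hyz₀]
  -- the new pair
  obtain ⟨c', hc'⟩ : ∃ c', c' = -Qy / 2 := ⟨_, rfl⟩
  have hc'm : c' ∈ F₀ := by rw [hc']; exact F₀.div_mem (F₀.neg_mem hQym) D.two_mem
  have hc'q : c' ^ q = c' := (D.fix c').mp hc'm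
  obtain ⟨x', hx'def⟩ : ∃ x', x' = x + (c' * ω ^ 2) • z₀ := ⟨_, rfl⟩
  obtain ⟨y', hy'def⟩ : ∃ y', y' = y + c' • z₀ := ⟨_, rfl⟩
  have hx' : IsRat F₀ P x' := by
    rw [hx'def]; exact isRat_add hx (isRat_smul (F₀.mul_mem hc'm hω2) hz₀)
  have hy' : IsRat F₀ P y' := by rw [hy'def]; exact isRat_add hy (isRat_smul hc'm hz₀)
  have hω2q : (ω ^ 2) ^ q = ω ^ 2 := (D.fix _).mp hω2
  have hx'x' : Cfsg.hermForm n F q x' x' = 0 := by
    rw [hx'def]
    simp only [herm_add_left, herm_add_right hF, herm_smul_left, herm_smul_right, hxx, hxz₀,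
      hz₀x, hsing, mul_pow, hc'q, hω2q]
    rw [hc']
    field_simp
    ring
  have hy'y' : Cfsg.hermForm n F q y' y' = 0 := by
    rw [hy'def]
    simp only [herm_add_left, herm_add_right hF, herm_smul_left, herm_smul_right, ← hQy, hyz₀,
      hz₀y, hsing, hc'q]
    rw [hc']
    field_simp
    ring
  have h1 := D.ctr_pair hω0 hω M hC hx' hy' hx'x' hy'y'
  have hc : (-(c' * ω)) ^ q = -(-(c' * ω)) := by
    rw [conj_neg hF, mul_pow, hω, hc'q]
    ring
  have h3 := isCtr_transv hF M h1 (hC z₀ hz₀ hsing) _ hc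
  have h4 : Cfsg.hermForm n F q (x' + ω • y') z₀ = 1 + ω := by
    rw [hx'def, hy'def]
    simp only [herm_add_left, herm_smul_left, hxz₀, hyz₀, hsing]
    ring
  have h5 : x' + ω • y' + (-(c' * ω) * Cfsg.hermForm n F q (x' + ω • y') z₀) • z₀ =
      x + ω • y := by
    rw [h4, hx'def, hy'def]
    module
  rwa [h5] at h3

/-- The orthogonal subfield subgroup is maximal in `SU_n(q)`, `q` odd. -/
theorem su_orth_max (D : ORat q F₀ P) (hn : 6 < n) :
    Cfsg.Geo.IsMaximalIn (suGL n F q) (Cfsg.Geo.subfieldSubgroup F₀ P ⊓ suGL n F q) := by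
  classical
  have hF := D.hF
  have h2 := D.two_ne
  obtain ⟨ω, hω0, hω⟩ := exists_skew hF
  have hωne := D.omega_ne hω0 hω
  constructor
  · rw [SetLike.lt_iff_le_and_exists]
    refine ⟨inf_le_right, ?_⟩
    obtain ⟨s, hs, hs0, hss, -, -⟩ := D.exists_singular_perp hn (isRat_zero F₀ P)
      (isRat_zero F₀ P)
    refine ⟨glOfDet _ (det_utransv s ω hss),
      glOfDet_mem_suGL _ _ (isHermIso_utransv hF s ω hss hω), ?_⟩
    intro hmem
    obtain ⟨c₀, hc₀, hmap⟩ :=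
      exists_scalar_of_mem_subfieldSubgroup F₀ P _ (Subgroup.mem_inf.mp hmem).1
    obtain ⟨s', hs', hTs⟩ := hmap s hs
    rw [glOfDet_val, utransv_mulVec, hss, mul_zero, zero_smul, add_zero] at hTs
    have hs'0 : s' ≠ 0 := by
      rintro rfl
      rw [smul_zero] at hTs
      exact hs0 hTs
    have hc₀m : c₀ ∈ F₀ := isRat_smul_mem hs' hs'0 (by rw [← hTs]; exact hs)
    obtain ⟨e, he, hse⟩ := D.exists_ne hωne hs0
    have hes : Cfsg.hermForm n F q e s ≠ 0 := herm_swap_ne hF hse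
    obtain ⟨e'', he'', hTe⟩ := hmap e he
    rw [glOfDet_val, utransv_mulVec] at hTe
    have h3 : IsRat F₀ P ((ω * Cfsg.hermForm n F q e s) • s) := by
      have h4 : (ω * Cfsg.hermForm n F q e s) • s = c₀ • e'' - e := by
        rw [← hTe]
        abel
      rw [h4]
      exact isRat_sub (isRat_smul hc₀m he'') he
    have h5 := isRat_smul_mem hs hs0 h3
    have h6 : ω = ω * Cfsg.hermForm n F q e s / Cfsg.hermForm n F q e s := by
      field_simp
    apply D.omega_not_mem hω0 hω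
    rw [h6]
    exact F₀.div_mem h5 (D.form he hs)
  · intro M hM1 hM2
    by_cases hMH : M = Cfsg.Geo.subfieldSubgroup F₀ P ⊓ suGL n F q
    · exact Or.inl hMH
    right
    refine le_antisymm hM2 (suGL_le_of_ctr hF (Or.inl (by omega)) M ?_)
    obtain ⟨g, hgM, hgH⟩ := SetLike.exists_of_lt (lt_of_le_of_ne hM1 (Ne.symm hMH))
    have hgS := hM2 hgM
    have hgi : IsHermIso n F q (g : Matrix (Fin n) (Fin n) F) := ((mem_suGL_iff g).mp hgS).1
    have hgW : g ∉ Cfsg.Geo.subfieldSubgroup F₀ P :=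
      fun h => hgH (Subgroup.mem_inf.mpr ⟨h, hgS⟩)
    obtain ⟨v₁, hv₁, hv₁0, hc₁⟩ := D.exists_ctr hn hω0 hω M hM1 g hgM hgi hgW
    have hC : ∀ x, IsRat F₀ P x → Cfsg.hermForm n F q x x = 0 → IsCtr q M x :=
      fun x hx hxx => D.ctr_all_rat hn hω0 hω M hM1 hv₁ hv₁0 hc₁ hx hxx
    exact D.ctr_all hn hω0 hω M hC

end SUOrth

end Cfsg.Agent.Lib.Helper13
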