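-- helper13: the normaliser of the diagonal torus of Sp_2m(q) (monomial symplectic matrices).
import Mathlib
import Cfsg.Prelude.Def_ClassicalGeometry
import Cfsg.Agent.Lib.Helper13.Symp
import Cfsg.Agent.Lib.Helper13.SpBorel

set_option autoImplicit false

namespace Cfsg.Agent.Lib.Helper13

open Matrix

universe u

section Mono

variable {F : Type u} [Field F] {ι : Type} [DecidableEq ι]

/-- the monomial matrix with `e_j ↦ d j • e_(σ j)`. -/
def monoMat (σ : Equiv.Perm ι) (d : ι → F) : Matrix ι ι F :=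
  Matrix.of fun i j => if i = σ j then d j else 0

theorem monoMat_apply (σ : Equiv.Perm ι) (d : ι → F) (i j : ι) :
    monoMat σ d i j = if i = σ j then d j else 0 := rfl

theorem monoMat_mul [Fintype ι] (σ σ' : Equiv.Perm ι) (d d' : ι → F) :
    monoMat σ d * monoMat σ' d' = monoMat (σ * σ') (fun j => d (σ' j) * d' j) := by
  ext i j
  rw [Matrix.mul_apply, Finset.sum_eq_single (σ' j)]
  · rw [monoMat_apply, monoMat_apply, monoMat_apply, if_pos rfl, Equiv.Perm.mul_apply]
    split_ifs <;> simp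
  · intro b _ hb
    simp [monoMat_apply, hb]
  · intro h
    exact absurd (Finset.mem_univ _) h

theorem monoMat_one (d : ι → F) : monoMat (1 : Equiv.Perm ι) d = Matrix.diagonal d := by
  ext i j
  simp only [monoMat_apply, Equiv.Perm.one_apply, Matrix.diagonal_apply]
  by_cases h : i = j
  · subst h; simp
  · simp [h]

theorem monoMat_inj (σ σ' : Equiv.Perm ι) (d d' : ι → F) (hd : ∀ j, d j ≠ 0)
    (h : monoMat σ d = monoMat σ' d') : σ = σ' ∧ d = d' := by
  have h1 : ∀ j, σ j = σ' j := by
    intro j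
    have h2 := congrFun (congrFun h (σ j)) j
    rw [monoMat_apply, monoMat_apply, if_pos rfl] at h2
    by_contra hne
    rw [if_neg hne] at h2
    exact hd j h2
  have hσ : σ = σ' := Equiv.ext h1
  subst hσ
  refine ⟨rfl, ?_⟩
  funext j
  have h2 := congrFun (congrFun h (σ j)) j
  rw [monoMat_apply, monoMat_apply, if_pos rfl, if_pos rfl] at h2
  exact h2

end Mono

section Symp

variable {F : Type u} [Field F] {m : ℕ}

/-- the sign `J i (τ i)`. -/
def jSign (m : ℕ) (F : Type u) [Field F] : Fin m ⊕ Fin m → F :=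
  Sum.elim (fun _ => -1) (fun _ => 1)

/-- the swap of the two halves. -/
abbrev tauI (m : ℕ) : Equiv.Perm (Fin m ⊕ Fin m) := Equiv.sumComm (Fin m) (Fin m)

theorem tauI_tauI (i : Fin m ⊕ Fin m) : tauI m (tauI m i) = i := by
  rcases i with a | a <;> rfl

theorem tauI_ne (i : Fin m ⊕ Fin m) : tauI m i ≠ i := by
  rcases i with a | a <;> simp [tauI]

theorem jSign_ne_zero (i : Fin m ⊕ Fin m) : jSign m F i ≠ 0 := by
  rcases i with a | a <;> simp [jSign]

theorem jSign_mul_self (i : Fin m ⊕ Fin m) : jSign m F i * jSign m F i = 1 := by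
  rcases i with a | a <;> simp [jSign]

theorem jSign_tauI (i : Fin m ⊕ Fin m) : jSign m F (tauI m i) = - jSign m F i := by
  rcases i with a | a <;> simp [jSign, tauI]

theorem J_apply_eq (i j : Fin m ⊕ Fin m) :
    Matrix.J (Fin m) F i j = if j = tauI m i then jSign m F i else 0 := by
  rcases i with a | a <;> rcases j with b | b
  · simp [Matrix.J, tauI]
  · simp only [Matrix.J, jSign, tauI, fromBlocks_apply₁₂, Matrix.neg_apply, Matrix.one_apply,
      Equiv.sumComm_apply, Sum.swap_inl, Sum.inr.injEq, Sum.elim_inl]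
    by_cases h : a = b
    · subst h; simp
    · have h' : ¬ b = a := fun h'' => h h''.symm
      simp [h, h']
  · simp only [Matrix.J, jSign, tauI, fromBlocks_apply₂₁, Matrix.one_apply,
      Equiv.sumComm_apply, Sum.swap_inr, Sum.inl.injEq, Sum.elim_inr]
    by_cases h : a = b
    · subst h; simp
    · have h' : ¬ b = a := fun h'' => h h''.symm
      simp [h, h']
  · simp [Matrix.J, tauI]

theorem monoMat_mem_symp_iff (σ : Equiv.Perm (Fin m ⊕ Fin m)) (d : Fin m ⊕ Fin m → F) :
    monoMat σ d ∈ Matrix.symplecticGroup (Fin m) F ↔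
      ∀ i j, d i * d j * Matrix.J (Fin m) F (σ i) (σ j) = Matrix.J (Fin m) F i j := by
  have key : (monoMat σ d)ᵀ * Matrix.J (Fin m) F * monoMat σ d =
      Matrix.of fun i j => d i * d j * Matrix.J (Fin m) F (σ i) (σ j) := by
    ext i j
    rw [Matrix.mul_apply, Finset.sum_eq_single (σ j)]
    · rw [Matrix.mul_apply, Finset.sum_eq_single (σ i)]
      · simp [monoMat_apply]
        ring
      · intro b _ hb
        simp [monoMat_apply, hb]
      · intro h
        exact absurd (Finset.mem_univ _) h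
    · intro b _ hb
      simp [monoMat_apply, hb]
    · intro h
      exact absurd (Finset.mem_univ _) h
  rw [SymplecticGroup.mem_iff', key]
  constructor
  · intro h i j
    exact congrFun (congrFun h i) j
  · intro h
    ext i j
    exact h i j

theorem comm_of_monoMat_symp (σ : Equiv.Perm (Fin m ⊕ Fin m)) (d : Fin m ⊕ Fin m → F)
    (h : monoMat σ d ∈ Matrix.symplecticGroup (Fin m) F) (i : Fin m ⊕ Fin m) :
    σ (tauI m i) = tauI m (σ i) := by
  have h1 := (monoMat_mem_symp_iff σ d).mp h i (tauI m i)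
  rw [J_apply_eq, J_apply_eq, if_pos rfl] at h1
  by_contra hne
  rw [if_neg hne, mul_zero] at h1
  exact jSign_ne_zero i h1.symm

theorem monoMat_symp_iff_of_comm (σ : Equiv.Perm (Fin m ⊕ Fin m))
    (hσ : ∀ i, σ (tauI m i) = tauI m (σ i)) (d : Fin m ⊕ Fin m → F) :
    monoMat σ d ∈ Matrix.symplecticGroup (Fin m) F ↔
      ∀ i, d i * d (tauI m i) * jSign m F (σ i) = jSign m F i := by
  rw [monoMat_mem_symp_iff]
  constructor
  · intro h i
    have h1 := h i (tauI m i)
    rw [J_apply_eq, J_apply_eq, if_pos rfl, if_pos (hσ i)] at h1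
    exact h1
  · intro h i j
    rw [J_apply_eq, J_apply_eq]
    by_cases hj : j = tauI m i
    · subst hj
      rw [if_pos rfl, if_pos (hσ i)]
      exact h i
    · have hj' : ¬ σ j = tauI m (σ i) := by
        rw [← hσ i]
        exact fun h' => hj (σ.injective h')
      rw [if_neg hj, if_neg hj', mul_zero]

end Symp

section Torus

variable {F : Type u} [Field F] {m : ℕ}

/-- the diagonal torus of `Sp_2m(F)`: the common stabiliser of the coordinate axes. -/
abbrev spTorus (m : ℕ) (F : Type u) [Field F] : Subgroup ↥(Matrix.symplecticGroup (Fin m) F) :=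
  ⨅ i : Fin m ⊕ Fin m, Cfsg.stabilizing (Cfsg.spToMat m F)
    ((Submodule.span F {(Pi.single i (1 : F) : Fin m ⊕ Fin m → F)} :
      Submodule F (Fin m ⊕ Fin m → F)) : Set (Fin m ⊕ Fin m → F))

theorem span_single_eq (i : Fin m ⊕ Fin m) :
    ((Submodule.span F {(Pi.single i (1 : F) : Fin m ⊕ Fin m → F)} :
      Submodule F (Fin m ⊕ Fin m → F)) : Set (Fin m ⊕ Fin m → F)) =
      {v | ∀ j, ¬ (j = i) → v j = 0} := by
  ext v
  simp only [SetLike.mem_coe, Submodule.mem_span_singleton, Set.mem_ofPred_eq]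
  constructor
  · rintro ⟨c, rfl⟩ j hj
    simp [hj]
  · intro h
    refine ⟨v i, ?_⟩
    funext j
    by_cases hj : j = i
    · subst hj; simp
    · simp [hj, h j hj]

theorem symp_det_ne_zero (t : ↥(Matrix.symplecticGroup (Fin m) F)) : t.1.det ≠ 0 :=
  (SymplecticGroup.symplectic_det t.2).ne_zero

theorem mem_spTorus_iff (t : ↥(Matrix.symplecticGroup (Fin m) F)) :
    t ∈ spTorus m F ↔ ∀ i j, i ≠ j → t.1 i j = 0 := by
  have hdet : t.1.det ≠ 0 := symp_det_ne_zero t
  rw [Subgroup.mem_iInf]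
  constructor
  · intro h i j hij
    have h1 : ∀ v, v ∈ ((Submodule.span F {(Pi.single j (1 : F) : Fin m ⊕ Fin m → F)} :
        Submodule F (Fin m ⊕ Fin m → F)) : Set (Fin m ⊕ Fin m → F)) ↔ t.1 *ᵥ v ∈
        ((Submodule.span F {(Pi.single j (1 : F) : Fin m ⊕ Fin m → F)} :
        Submodule F (Fin m ⊕ Fin m → F)) : Set (Fin m ⊕ Fin m → F)) := h j
    rw [span_single_eq] at h1
    exact (stab_pred_iff (fun x => x = j) t.1 hdet).mp h1 i j hij rfl
  · intro h i
    have h1 := (stab_pred_iff (fun x => x = i) t.1 hdet).mpr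
      (fun a b ha hb => by subst hb; exact h a b ha)
    rw [← span_single_eq] at h1
    exact h1

theorem eq_diagonal_of_mem_spTorus (t : ↥(Matrix.symplecticGroup (Fin m) F))
    (ht : t ∈ spTorus m F) : t.1 = Matrix.diagonal (fun i => t.1 i i) := by
  rw [mem_spTorus_iff] at ht
  ext a b
  by_cases hab : a = b
  · subst hab; simp
  · rw [Matrix.diagonal_apply_ne _ hab]
    exact ht a b hab

theorem exists_sep [Fintype F] (hq : 4 ≤ Fintype.card F) (i i' : Fin m ⊕ Fin m) (hii : i ≠ i') :
    ∃ t : ↥(Matrix.symplecticGroup (Fin m) F), t ∈ spTorus m F ∧ t.1 i i ≠ t.1 i' i' := by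
  classical
  obtain ⟨c, hc0, hc1, hc2⟩ : ∃ c : F, c ≠ 0 ∧ c ≠ 1 ∧ c ≠ -1 := by
    by_contra hcon
    push Not at hcon
    have hsub : (Finset.univ : Finset F) ⊆ {0, 1, -1} := by
      intro c _
      by_cases h0 : c = 0
      · simp [h0]
      · by_cases h1 : c = 1
        · simp [h1]
        · simp [hcon c h0 h1]
    have h1 := Finset.card_le_card hsub
    have h2 : ({0, 1, -1} : Finset F).card ≤ 3 := Finset.card_le_three
    rw [Finset.card_univ] at h1
    omega
  have hcc : c * c ≠ 1 := by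
    intro h
    rcases mul_self_eq_one_iff.mp h with h | h
    · exact hc1 h
    · exact hc2 h
  let d : Fin m ⊕ Fin m → F := fun x => if x = i then c else if x = tauI m i then c⁻¹ else 1
  have hd : ∀ x, d x * d (tauI m x) = 1 := by
    intro x
    by_cases h1 : x = i
    · subst h1
      simp only [d, if_pos rfl, if_neg (tauI_ne x)]
      exact mul_inv_cancel₀ hc0
    · by_cases h2 : x = tauI m i
      · subst h2
        simp only [d, if_neg h1, if_pos rfl, tauI_tauI]
        exact inv_mul_cancel₀ hc0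
      · have h3 : tauI m x ≠ i := by
          intro h
          apply h2
          rw [← h, tauI_tauI]
        have h4 : tauI m x ≠ tauI m i := fun h => h1 ((tauI m).injective h)
        simp only [d, if_neg h1, if_neg h2, if_neg h3, if_neg h4, mul_one]
  have hmem : Matrix.diagonal d ∈ Matrix.symplecticGroup (Fin m) F := by
    rw [← monoMat_one, monoMat_symp_iff_of_comm 1 (fun _ => rfl)]
    intro x
    rw [hd x, one_mul, Equiv.Perm.one_apply]
  refine ⟨⟨Matrix.diagonal d, hmem⟩, ?_, ?_⟩
  · rw [mem_spTorus_iff]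
    intro a b hab
    exact Matrix.diagonal_apply_ne _ hab
  · change Matrix.diagonal d i i ≠ Matrix.diagonal d i' i'
    rw [Matrix.diagonal_apply_eq, Matrix.diagonal_apply_eq]
    simp only [d, if_pos rfl, if_neg (Ne.symm hii)]
    by_cases h : i' = tauI m i
    · rw [if_pos h]
      intro h'
      apply hcc
      nth_rewrite 2 [h']
      exact mul_inv_cancel₀ hc0
    · rw [if_neg h]
      exact hc1

theorem normalizer_torus_mono [Fintype F] (hq : 4 ≤ Fintype.card F)
    (g : ↥(Matrix.symplecticGroup (Fin m) F))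
    (hg : g ∈ Subgroup.normalizer (spTorus m F : Set ↥(Matrix.symplecticGroup (Fin m) F))) :
    ∃ (σ : Equiv.Perm (Fin m ⊕ Fin m)) (d : Fin m ⊕ Fin m → F),
      (∀ j, d j ≠ 0) ∧ g.1 = monoMat σ d := by
  have hcol : ∀ i i' j, g.1 i j ≠ 0 → g.1 i' j ≠ 0 → i = i' := by
    intro i i' j h1 h2
    by_contra hne
    obtain ⟨t, ht, htne⟩ := exists_sep hq i i' hne
    have h3 : g⁻¹ * t * g ∈ spTorus m F := (Subgroup.mem_normalizer_iff''.mp hg t).mp ht
    have h4 : t.1 * g.1 = g.1 * (g⁻¹ * t * g).1 := by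
      have : t * g = g * (g⁻¹ * t * g) := by group
      exact congrArg Subtype.val this
    rw [eq_diagonal_of_mem_spTorus t ht, eq_diagonal_of_mem_spTorus _ h3] at h4
    have e1 := congrFun (congrFun h4 i) j
    have e2 := congrFun (congrFun h4 i') j
    rw [Matrix.diagonal_mul, Matrix.mul_diagonal] at e1 e2
    have e3 : t.1 i i = (g⁻¹ * t * g).1 j j := by
      apply mul_right_cancel₀ h1
      rw [e1, mul_comm]
    have e4 : t.1 i' i' = (g⁻¹ * t * g).1 j j := by
      apply mul_right_cancel₀ h2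
      rw [e2, mul_comm]
    exact htne (e3.trans e4.symm)
  have hrow : ∀ i j j', g.1 i j ≠ 0 → g.1 i j' ≠ 0 → j = j' := by
    intro i j j' h1 h2
    by_contra hne
    obtain ⟨t, ht, htne⟩ := exists_sep hq j j' hne
    have h3 : g * t * g⁻¹ ∈ spTorus m F := (Subgroup.mem_normalizer_iff.mp hg t).mp ht
    have h4 : g.1 * t.1 = (g * t * g⁻¹).1 * g.1 := by
      have : g * t = (g * t * g⁻¹) * g := by group
      exact congrArg Subtype.val this
    rw [eq_diagonal_of_mem_spTorus t ht, eq_diagonal_of_mem_spTorus _ h3] at h4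
    have e1 := congrFun (congrFun h4 i) j
    have e2 := congrFun (congrFun h4 i) j'
    rw [Matrix.diagonal_mul, Matrix.mul_diagonal] at e1 e2
    have e3 : t.1 j j = (g * t * g⁻¹).1 i i := by
      apply mul_left_cancel₀ h1
      rw [e1, mul_comm]
    have e4 : t.1 j' j' = (g * t * g⁻¹).1 i i := by
      apply mul_left_cancel₀ h2
      rw [e2, mul_comm]
    exact htne (e3.trans e4.symm)
  have hex : ∀ j, ∃ i, g.1 i j ≠ 0 := by
    intro j
    by_contra hcon
    push Not at hcon
    have h1 : (g⁻¹).1 * g.1 = 1 := congrArg Subtype.val (inv_mul_cancel g)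
    have h2 := congrFun (congrFun h1 j) j
    rw [Matrix.mul_apply, Matrix.one_apply_eq] at h2
    rw [Finset.sum_eq_zero (fun i _ => by rw [hcon i, mul_zero])] at h2
    exact zero_ne_one h2
  choose s hs using hex
  have hinj : Function.Injective s := by
    intro j j' hjj
    have h2 := hs j'
    rw [← hjj] at h2
    exact hrow (s j) j j' (hs j) h2
  refine ⟨Equiv.ofBijective s (Finite.injective_iff_bijective.mp hinj), fun j => g.1 (s j) j,
    hs, ?_⟩
  ext i j
  rw [monoMat_apply, Equiv.ofBijective_apply]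
  by_cases h : i = s j
  · rw [if_pos h, h]
  · rw [if_neg h]
    by_contra hne
    exact h (hcol i (s j) j hne (hs j))

theorem mono_mem_normalizer [Finite F] (g : ↥(Matrix.symplecticGroup (Fin m) F))
    (σ : Equiv.Perm (Fin m ⊕ Fin m)) (d : Fin m ⊕ Fin m → F) (hd : ∀ j, d j ≠ 0)
    (hg : g.1 = monoMat σ d) :
    g ∈ Subgroup.normalizer (spTorus m F : Set ↥(Matrix.symplecticGroup (Fin m) F)) := by
  apply Subgroup.mem_normalizer_fintype
  intro t ht
  have hinv : (g⁻¹).1 = monoMat σ⁻¹ (fun j => (d (σ⁻¹ j))⁻¹) := by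
    have h1 : g.1 * monoMat σ⁻¹ (fun j => (d (σ⁻¹ j))⁻¹) = 1 := by
      rw [hg, monoMat_mul, mul_inv_cancel, monoMat_one]
      have : (fun j => d (σ⁻¹ j) * (d (σ⁻¹ j))⁻¹) = fun _ => (1 : F) := by
        funext j
        exact mul_inv_cancel₀ (hd _)
      rw [this, Matrix.diagonal_one]
    have h2 : (g⁻¹).1 * g.1 = 1 := congrArg Subtype.val (inv_mul_cancel g)
    calc (g⁻¹).1 = (g⁻¹).1 * (g.1 * monoMat σ⁻¹ (fun j => (d (σ⁻¹ j))⁻¹)) := by
          rw [h1, Matrix.mul_one]
      _ = monoMat σ⁻¹ (fun j => (d (σ⁻¹ j))⁻¹) := by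
          rw [← Matrix.mul_assoc, h2, Matrix.one_mul]
  have ht' := eq_diagonal_of_mem_spTorus t ht
  rw [SetLike.mem_coe, mem_spTorus_iff]
  intro a b hab
  have h3 : (g * t * g⁻¹).1 = g.1 * t.1 * (g⁻¹).1 := rfl
  rw [h3, hg, ht', hinv, ← monoMat_one, monoMat_mul, monoMat_mul, mul_one, mul_inv_cancel,
    monoMat_one]
  exact Matrix.diagonal_apply_ne _ hab

end Torus

section Count

variable {F : Type u} [Field F] {m : ℕ}

/-- the diagonal entries for the parametrisation of monomial symplectic matrices. -/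
def torusD (σ : Equiv.Perm (Fin m ⊕ Fin m)) (c : Fin m → Fˣ) : Fin m ⊕ Fin m → F :=
  Sum.elim (fun a => (c a : F)) (fun a => - ((c a : F))⁻¹ * jSign m F (σ (Sum.inl a)))

theorem torusD_ne_zero (σ : Equiv.Perm (Fin m ⊕ Fin m)) (c : Fin m → Fˣ) (j : Fin m ⊕ Fin m) :
    torusD σ c j ≠ 0 := by
  rcases j with a | a
  · exact (c a).ne_zero
  · simp only [torusD, Sum.elim_inr]
    exact mul_ne_zero (neg_ne_zero.mpr (inv_ne_zero (c a).ne_zero)) (jSign_ne_zero _)

theorem torusD_symp (σ : Equiv.Perm (Fin m ⊕ Fin m)) (hσ : ∀ i, σ (tauI m i) = tauI m (σ i))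
    (c : Fin m → Fˣ) : monoMat σ (torusD σ c) ∈ Matrix.symplecticGroup (Fin m) F := by
  rw [monoMat_symp_iff_of_comm σ hσ]
  rintro (a | a)
  · have h1 : tauI m (Sum.inl a) = Sum.inr a := rfl
    rw [h1]
    simp only [torusD, Sum.elim_inl, Sum.elim_inr]
    have h2 := jSign_mul_self (F := F) (σ (Sum.inl a))
    have h3 : ((c a : F)) * (c a : F)⁻¹ = 1 := mul_inv_cancel₀ (c a).ne_zero
    calc (c a : F) * (-(c a : F)⁻¹ * jSign m F (σ (Sum.inl a))) * jSign m F (σ (Sum.inl a))
        = -(((c a : F)) * (c a : F)⁻¹) * (jSign m F (σ (Sum.inl a)) * jSign m F (σ (Sum.inl a))) := by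
          ring
      _ = jSign m F (Sum.inl a) := by rw [h2, h3]; simp [jSign]
  · have h1 : tauI m (Sum.inr a) = Sum.inl a := rfl
    have h4 : σ (Sum.inr a) = tauI m (σ (Sum.inl a)) := hσ (Sum.inl a)
    rw [h1, h4, jSign_tauI]
    simp only [torusD, Sum.elim_inl, Sum.elim_inr]
    have h2 := jSign_mul_self (F := F) (σ (Sum.inl a))
    have h3 : ((c a : F)) * (c a : F)⁻¹ = 1 := mul_inv_cancel₀ (c a).ne_zero
    calc -(c a : F)⁻¹ * jSign m F (σ (Sum.inl a)) * (c a : F) * -jSign m F (σ (Sum.inl a))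
        = (((c a : F)) * (c a : F)⁻¹) * (jSign m F (σ (Sum.inl a)) * jSign m F (σ (Sum.inl a))) := by
          ring
      _ = jSign m F (Sum.inr a) := by rw [h2, h3]; simp [jSign]

theorem cycleType_tauI (m : ℕ) : (tauI m).cycleType = Multiset.replicate m 2 := by
  have h2 : ∀ n ∈ (tauI m).cycleType, n = 2 := by
    intro n hn
    have h1 := Equiv.Perm.two_le_of_mem_cycleType hn
    have h3 := Equiv.Perm.dvd_of_mem_cycleType hn
    have h4 : orderOf (tauI m) ∣ 2 := by
      apply orderOf_dvd_of_pow_eq_one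
      ext i
      simp [pow_two]
    have h5 := Nat.le_of_dvd (by norm_num) (h3.trans h4)
    omega
  have h3 := Multiset.eq_replicate_card.mpr h2
  have h4 : (tauI m).cycleType.sum = 2 * m := by
    rw [Equiv.Perm.sum_cycleType]
    have : (tauI m).support = Finset.univ := by
      ext i
      simp only [Equiv.Perm.mem_support, Finset.mem_univ, iff_true]
      exact tauI_ne i
    rw [this, Finset.card_univ]
    simp
    omega
  rw [h3, Multiset.sum_replicate, smul_eq_mul] at h4
  have h5 : Multiset.card (tauI m).cycleType = m := by omega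
  rw [h3, h5]

theorem card_centralizer_tauI (m : ℕ) :
    Nat.card ↥(Subgroup.centralizer ({tauI m} : Set (Equiv.Perm (Fin m ⊕ Fin m)))) =
      2 ^ m * m.factorial := by
  rw [Equiv.Perm.nat_card_centralizer, cycleType_tauI, Multiset.sum_replicate,
    Multiset.prod_replicate]
  have h1 : Fintype.card (Fin m ⊕ Fin m) - m • 2 = 0 := by
    simp
    omega
  rw [h1, Nat.factorial_zero, one_mul]
  congr 1
  rcases Nat.eq_zero_or_pos m with h | h
  · subst h
    simp
  · rw [Multiset.toFinset_replicate, if_neg (by omega), Finset.prod_singleton,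
      Multiset.count_replicate_self]

theorem card_normalizer_spTorus [Fintype F] (hq : 4 ≤ Fintype.card F) (m : ℕ) :
    Nat.card ↥(Subgroup.normalizer
      (spTorus m F : Set ↥(Matrix.symplecticGroup (Fin m) F))) =
      2 ^ m * m.factorial * (Fintype.card F - 1) ^ m := by
  have hcomm : ∀ σ : ↥(Subgroup.centralizer ({tauI m} : Set (Equiv.Perm (Fin m ⊕ Fin m)))),
      ∀ i, σ.1 (tauI m i) = tauI m (σ.1 i) := by
    intro σ i
    have h1 := Subgroup.mem_centralizer_iff.mp σ.2 (tauI m) rfl
    have h2 := congrArg (fun f : Equiv.Perm (Fin m ⊕ Fin m) => f i) h1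
    simp only [Equiv.Perm.mul_apply] at h2
    exact h2.symm
  let Φ : ↥(Subgroup.centralizer ({tauI m} : Set (Equiv.Perm (Fin m ⊕ Fin m)))) × (Fin m → Fˣ) →
      ↥(Subgroup.normalizer (spTorus m F : Set ↥(Matrix.symplecticGroup (Fin m) F))) :=
    fun p => ⟨⟨monoMat p.1.1 (torusD p.1.1 p.2), torusD_symp _ (hcomm p.1) _⟩,
      mono_mem_normalizer _ _ _ (torusD_ne_zero _ _) rfl⟩
  have hinj : Function.Injective Φ := by
    rintro ⟨σ, c⟩ ⟨σ', c'⟩ h
    have h1 : monoMat σ.1 (torusD σ.1 c) = monoMat σ'.1 (torusD σ'.1 c') :=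
      congrArg (fun x => x.1.1) h
    obtain ⟨h2, h3⟩ := monoMat_inj _ _ _ _ (torusD_ne_zero _ _) h1
    have h4 : σ = σ' := Subtype.ext h2
    subst h4
    have h5 : c = c' := by
      funext a
      apply Units.ext
      exact congrFun h3 (Sum.inl a)
    rw [h5]
  have hsurj : Function.Surjective Φ := by
    intro g
    obtain ⟨σ, d, hd, hg⟩ := normalizer_torus_mono hq g.1 g.2
    have hmem : monoMat σ d ∈ Matrix.symplecticGroup (Fin m) F := by
      rw [← hg]
      exact g.1.2
    have hσ := comm_of_monoMat_symp σ d hmem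
    have hσ' : σ ∈ Subgroup.centralizer ({tauI m} : Set (Equiv.Perm (Fin m ⊕ Fin m))) := by
      rw [Subgroup.mem_centralizer_iff]
      intro h hh
      rw [Set.mem_singleton_iff] at hh
      subst hh
      ext i
      simp only [Equiv.Perm.mul_apply]
      exact (hσ i).symm
    have hD : torusD σ (fun a => Units.mk0 (d (Sum.inl a)) (hd _)) = d := by
      funext j
      rcases j with a | a
      · rfl
      · simp only [torusD, Sum.elim_inr, Units.val_mk0]
        have h1 := (monoMat_symp_iff_of_comm σ hσ d).mp hmem (Sum.inl a)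
        have h2 : tauI m (Sum.inl a) = Sum.inr a := rfl
        rw [h2] at h1
        have h3 : jSign m F (Sum.inl a) = -1 := rfl
        rw [h3] at h1
        have h4 := jSign_mul_self (F := F) (σ (Sum.inl a))
        have h5 : (d (Sum.inl a))⁻¹ * d (Sum.inl a) = 1 := inv_mul_cancel₀ (hd _)
        calc -(d (Sum.inl a))⁻¹ * jSign m F (σ (Sum.inl a))
            = (d (Sum.inl a))⁻¹ * (d (Sum.inl a) * d (Sum.inr a) * jSign m F (σ (Sum.inl a))) *
                jSign m F (σ (Sum.inl a)) := by rw [h1]; ring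
          _ = ((d (Sum.inl a))⁻¹ * d (Sum.inl a)) * d (Sum.inr a) *
                (jSign m F (σ (Sum.inl a)) * jSign m F (σ (Sum.inl a))) := by ring
          _ = d (Sum.inr a) := by rw [h4, h5, one_mul, mul_one]
    refine ⟨(⟨σ, hσ'⟩, fun a => Units.mk0 (d (Sum.inl a)) (hd _)), ?_⟩
    apply Subtype.ext
    apply Subtype.ext
    change monoMat σ (torusD σ (fun a => Units.mk0 (d (Sum.inl a)) (hd _))) = g.1.1
    rw [hD, hg]
  classical
  rw [← Nat.card_congr (Equiv.ofBijective Φ ⟨hinj, hsurj⟩), Nat.card_prod, card_centralizer_tauI,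
    Nat.card_fun, Nat.card_eq_fintype_card (α := Fˣ), Fintype.card_units, Nat.card_eq_fintype_card,
    Fintype.card_fin]

end Count

end Cfsg.Agent.Lib.Helper13
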