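-- helper13: subfield subgroups for a general index type: rational vectors and membership
-- criteria (uniform and non-uniform scalars).
import Mathlib
import Cfsg.Prelude.Def_GeometricClasses
import Cfsg.Agent.Lib.Helper94.SpClosure

set_option autoImplicit false

namespace Cfsg.Agent.Lib.Helper13.SubSp

open Matrix Cfsg.Agent.Lib.Helper94

section Gen

set_option linter.unusedSectionVars false

variable {ι : Type} [Fintype ι] [DecidableEq ι] {F : Type*} [Field F]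

/-- rational vectors: all entries in the subfield. -/
def Rt (F₀ : Subfield F) (x : ι → F) : Prop := ∀ i, x i ∈ F₀

theorem rt_zero (F₀ : Subfield F) : Rt F₀ (0 : ι → F) := fun _ => F₀.zero_mem

theorem Rt.add {F₀ : Subfield F} {x y : ι → F} (hx : Rt F₀ x) (hy : Rt F₀ y) : Rt F₀ (x + y) :=
  fun i => F₀.add_mem (hx i) (hy i)

theorem Rt.sub {F₀ : Subfield F} {x y : ι → F} (hx : Rt F₀ x) (hy : Rt F₀ y) : Rt F₀ (x - y) :=
  fun i => F₀.sub_mem (hx i) (hy i)

theorem Rt.neg {F₀ : Subfield F} {x : ι → F} (hx : Rt F₀ x) : Rt F₀ (-x) :=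
  fun i => F₀.neg_mem (hx i)

theorem Rt.smul {F₀ : Subfield F} {x : ι → F} {c : F} (hc : c ∈ F₀) (hx : Rt F₀ x) :
    Rt F₀ (c • x) := fun i => F₀.mul_mem hc (hx i)

theorem rt_single (F₀ : Subfield F) (i : ι) {c : F} (hc : c ∈ F₀) :
    Rt F₀ (Pi.single i c : ι → F) := by
  intro j
  by_cases h : j = i
  · subst h
    rw [Pi.single_eq_same]
    exact hc
  · rw [Pi.single_eq_of_ne h]
    exact F₀.zero_mem

theorem rt_single_one (F₀ : Subfield F) (i : ι) : Rt F₀ (Pi.single i (1 : F) : ι → F) :=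
  rt_single F₀ i F₀.one_mem

theorem single_one_ne_zero' (i : ι) : (Pi.single i (1 : F) : ι → F) ≠ 0 := by
  intro h
  have := congrFun h i
  simp at this

theorem exists_ne_zero_coord' {x : ι → F} (hx : x ≠ 0) : ∃ i, x i ≠ 0 := by
  by_contra h
  push Not at h
  exact hx (funext h)

theorem gl_injective (g : GL ι F) {v : ι → F} (hv : (g : Matrix ι ι F) *ᵥ v = 0) : v = 0 := by
  have := congrArg (fun t => ((g⁻¹ : GL ι F) : Matrix ι ι F) *ᵥ t) hv
  simpa only [gl_inv_mulVec_mulVec, Matrix.mulVec_zero] using this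

/-- criterion for membership in the subfield subgroup (uniform scalar). -/
theorem mem_sub_of_maps (F₀ : Subfield F) (P E : GL ι F) (c : F) (hc : c ≠ 0)
    (h : ∀ u, Rt F₀ u → ∃ u', Rt F₀ u' ∧
      (E : Matrix ι ι F) *ᵥ ((P : Matrix ι ι F) *ᵥ u) = c • ((P : Matrix ι ι F) *ᵥ u')) :
    E ∈ Cfsg.Geo.subfieldSubgroup F₀ P := by
  classical
  obtain ⟨B, hB⟩ : ∃ B : Matrix ι ι F, B = c⁻¹ •
      (((P⁻¹ : GL ι F) : Matrix ι ι F) * (E : Matrix ι ι F) * (P : Matrix ι ι F)) := ⟨_, rfl⟩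
  have hBmem : ∀ i j, B i j ∈ F₀ := by
    intro i j
    obtain ⟨u', hu', hv'⟩ := h _ (rt_single_one F₀ j)
    have h1 : B *ᵥ Pi.single j 1 = u' := by
      rw [hB, Matrix.smul_mulVec, ← Matrix.mulVec_mulVec, ← Matrix.mulVec_mulVec, hv',
        Matrix.mulVec_smul, gl_inv_mulVec_mulVec, smul_smul, inv_mul_cancel₀ hc, one_smul]
    have h2 : B i j = u' i := by
      rw [← h1, Matrix.mulVec_single_one]
      rfl
    rw [h2]
    exact hu' i
  obtain ⟨B₀, hB₀⟩ : ∃ B₀ : Matrix ι ι F₀, B₀ = fun i j => ⟨B i j, hBmem i j⟩ := ⟨_, rfl⟩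
  have hmap : B₀.map F₀.subtype = B := by
    ext i j
    rw [hB₀]
    rfl
  have hBdet : B.det ≠ 0 := by
    rw [hB, Matrix.det_smul, Matrix.det_mul, Matrix.det_mul]
    refine mul_ne_zero (pow_ne_zero _ (inv_ne_zero hc)) (mul_ne_zero (mul_ne_zero ?_ ?_) ?_)
    · exact ((Matrix.isUnit_iff_isUnit_det _).mp (P⁻¹).isUnit).ne_zero
    · exact ((Matrix.isUnit_iff_isUnit_det _).mp E.isUnit).ne_zero
    · exact ((Matrix.isUnit_iff_isUnit_det _).mp P.isUnit).ne_zero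
  have hB₀det : B₀.det ≠ 0 := by
    intro h0
    apply hBdet
    have := RingHom.map_det F₀.subtype B₀
    rw [h0, map_zero] at this
    rw [← hmap]
    exact this.symm
  obtain ⟨A₀, hA₀⟩ : ∃ A₀ : GL ι F₀,
      A₀ = Matrix.GeneralLinearGroup.mkOfDetNeZero B₀ hB₀det := ⟨_, rfl⟩
  have hA : ((Matrix.GeneralLinearGroup.map F₀.subtype A₀ : GL ι F) : Matrix ι ι F) = B := by
    ext i j
    rw [Matrix.GeneralLinearGroup.map_apply, hA₀, ← hmap]
    rfl
  obtain ⟨s, hs⟩ : ∃ s : GL ι F, s = Units.map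
      (Matrix.scalar ι : F →+* Matrix ι ι F).toMonoidHom (Units.mk0 c hc) := ⟨_, rfl⟩
  have hsmem : s ∈ Cfsg.Geo.scalars ι F := by
    rw [hs]
    exact ⟨Units.mk0 c hc, rfl⟩
  have hsval : (s : Matrix ι ι F) = c • (1 : Matrix ι ι F) := by
    rw [hs]
    simp [Matrix.smul_one_eq_diagonal]
  have hE : E = MulAut.conj P (Matrix.GeneralLinearGroup.map F₀.subtype A₀ * s) := by
    rw [MulAut.conj_apply]
    apply Units.ext
    rw [Units.val_mul, Units.val_mul, Units.val_mul, hA, hsval, hB, Matrix.mul_smul,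
      Matrix.smul_mul, smul_smul, mul_inv_cancel₀ hc, one_smul, Matrix.mul_one,
      ← Matrix.mul_assoc, ← Matrix.mul_assoc, ← Units.val_mul, mul_inv_cancel, Units.val_one,
      Matrix.one_mul, Matrix.mul_assoc, ← Units.val_mul, mul_inv_cancel, Units.val_one,
      Matrix.mul_one]
  unfold Cfsg.Geo.subfieldSubgroup
  rw [hE]
  exact Subgroup.mem_map_of_mem _ (Subgroup.mul_mem_sup ⟨A₀, rfl⟩ hsmem)

/-- elements of the subfield subgroup map rational vectors to a fixed multiple of rational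
vectors. -/
theorem exists_scalar_of_mem_sub (F₀ : Subfield F) (P E : GL ι F)
    (hE : E ∈ Cfsg.Geo.subfieldSubgroup F₀ P) :
    ∃ c : F, c ≠ 0 ∧ ∀ u, Rt F₀ u → ∃ u', Rt F₀ u' ∧
      (E : Matrix ι ι F) *ᵥ ((P : Matrix ι ι F) *ᵥ u) = c • ((P : Matrix ι ι F) *ᵥ u') := by
  unfold Cfsg.Geo.subfieldSubgroup at hE
  obtain ⟨X, hX, rfl⟩ := Subgroup.mem_map.mp hE
  obtain ⟨Y, ⟨A₀, rfl⟩, S, hS, rfl⟩ := Subgroup.mem_sup_of_normal_right.mp hX
  obtain ⟨c, hc⟩ := (Cfsg.Geo.mem_scalars_iff S).mp hS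
  refine ⟨c, c.ne_zero, ?_⟩
  intro u hu
  refine ⟨((Matrix.GeneralLinearGroup.map F₀.subtype A₀ : GL ι F) : Matrix ι ι F) *ᵥ u, ?_, ?_⟩
  · intro i
    simp only [Matrix.mulVec, dotProduct]
    refine F₀.sum_mem fun j _ => F₀.mul_mem ?_ (hu j)
    rw [Matrix.GeneralLinearGroup.map_apply]
    exact (A₀ i j).2
  · have e : ((MulAut.conj P).toMonoidHom
        (Matrix.GeneralLinearGroup.map F₀.subtype A₀ * S) : GL ι F) =
        P * (Matrix.GeneralLinearGroup.map F₀.subtype A₀ * S) * P⁻¹ := rfl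
    rw [e, Units.val_mul, Units.val_mul, Units.val_mul, ← Matrix.mulVec_mulVec,
      gl_inv_mulVec_mulVec, ← Matrix.mulVec_mulVec, ← Matrix.mulVec_mulVec, hc,
      Matrix.smul_mulVec, Matrix.one_mulVec, Matrix.mulVec_smul, Matrix.mulVec_smul]

/-- two changes of basis with the same rational span give the same subfield subgroup. -/
theorem sub_eq_of_rat (F₀ : Subfield F) (P P' : GL ι F)
    (h1 : ∀ u, Rt F₀ u → ∃ u', Rt F₀ u' ∧
      (P' : Matrix ι ι F) *ᵥ u = (P : Matrix ι ι F) *ᵥ u')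
    (h2 : ∀ u, Rt F₀ u → ∃ u', Rt F₀ u' ∧
      (P : Matrix ι ι F) *ᵥ u = (P' : Matrix ι ι F) *ᵥ u') :
    Cfsg.Geo.subfieldSubgroup F₀ P' = Cfsg.Geo.subfieldSubgroup F₀ P := by
  ext E
  constructor
  · intro hE
    obtain ⟨c, hc, hmaps⟩ := exists_scalar_of_mem_sub F₀ P' E hE
    apply mem_sub_of_maps F₀ P E c hc
    intro u hu
    obtain ⟨u₁, hu₁, e₁⟩ := h2 u hu
    obtain ⟨u₂, hu₂, e₂⟩ := hmaps u₁ hu₁
    obtain ⟨u₃, hu₃, e₃⟩ := h1 u₂ hu₂
    exact ⟨u₃, hu₃, by rw [e₁, e₂, e₃]⟩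
  · intro hE
    obtain ⟨c, hc, hmaps⟩ := exists_scalar_of_mem_sub F₀ P E hE
    apply mem_sub_of_maps F₀ P' E c hc
    intro u hu
    obtain ⟨u₁, hu₁, e₁⟩ := h1 u hu
    obtain ⟨u₂, hu₂, e₂⟩ := hmaps u₁ hu₁
    obtain ⟨u₃, hu₃, e₃⟩ := h2 u₂ hu₂
    exact ⟨u₃, hu₃, by rw [e₁, e₂, e₃]⟩

/-- an invertible matrix mapping every rational vector to a multiple of a rational vector lies
in the subfield subgroup (trivial change of basis). -/
theorem mem_sub_one_of_maps (F₀ : Subfield F) (i0 : ι) (g : GL ι F)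
    (h : ∀ x : ι → F, Rt F₀ x → ∃ (c : F) (y : ι → F), Rt F₀ y ∧
      (g : Matrix ι ι F) *ᵥ x = c • y) :
    g ∈ Cfsg.Geo.subfieldSubgroup F₀ (1 : GL ι F) := by
  have hginj : ∀ v, (g : Matrix ι ι F) *ᵥ v = 0 → v = 0 := fun v hv => gl_injective g hv
  have h1F : (1 : F) ∈ F₀ := F₀.one_mem
  obtain ⟨c₀, y₀, hy₀, hgy₀⟩ := h (Pi.single i0 1) (rt_single F₀ i0 h1F)
  have he0 : (Pi.single i0 (1 : F) : ι → F) ≠ 0 := single_one_ne_zero' i0
  have hc₀ : c₀ ≠ 0 := by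
    rintro rfl
    rw [zero_smul] at hgy₀
    exact he0 (hginj _ hgy₀)
  have hy₀0 : y₀ ≠ 0 := by
    rintro rfl
    rw [smul_zero] at hgy₀
    exact he0 (hginj _ hgy₀)
  apply mem_sub_of_maps F₀ 1 g c₀ hc₀
  intro x hx
  rw [Units.val_one, Matrix.one_mulVec]
  suffices hs : ∃ v', Rt F₀ v' ∧ (g : Matrix ι ι F) *ᵥ x = c₀ • v' by
    obtain ⟨v', hv', e⟩ := hs
    exact ⟨v', hv', by rw [Matrix.one_mulVec]; exact e⟩
  obtain ⟨c, y, hy, hgy⟩ := h x hx
  by_cases hc : c = 0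
  · refine ⟨0, rt_zero F₀, ?_⟩
    rw [hgy, hc, zero_smul, smul_zero]
  obtain ⟨c', y', hy', hgy'⟩ := h (Pi.single i0 1 + x) ((rt_single F₀ i0 h1F).add hx)
  rw [Matrix.mulVec_add, hgy₀, hgy] at hgy'
  by_cases hD : ∃ k l, y₀ k * y l - y₀ l * y k ≠ 0
  · obtain ⟨k, l, hkl⟩ := hD
    have hk := congrFun hgy' k
    have hl := congrFun hgy' l
    simp only [Pi.add_apply, Pi.smul_apply, smul_eq_mul] at hk hl
    have hα : c₀ * (y₀ k * y l - y₀ l * y k) = c' * (y' k * y l - y' l * y k) := by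
      linear_combination y l * hk - y k * hl
    have hβ : c * (y₀ k * y l - y₀ l * y k) = c' * (y' l * y₀ k - y' k * y₀ l) := by
      linear_combination y₀ k * hl - y₀ l * hk
    have hc' : c' ≠ 0 := by
      rintro rfl
      rw [zero_mul] at hα
      exact mul_ne_zero hc₀ hkl hα
    have hα0 : y' k * y l - y' l * y k ≠ 0 := by
      intro h0
      rw [h0, mul_zero] at hα
      exact mul_ne_zero hc₀ hkl hα
    have key : c * (y' k * y l - y' l * y k) = c₀ * (y' l * y₀ k - y' k * y₀ l) := by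
      have h1 : c * (y' k * y l - y' l * y k) * c' = c₀ * (y' l * y₀ k - y' k * y₀ l) * c' := by
        linear_combination c₀ * hβ - c * hα
      exact mul_right_cancel₀ hc' h1
    refine ⟨((y' l * y₀ k - y' k * y₀ l) / (y' k * y l - y' l * y k)) • y,
      hy.smul (F₀.div_mem (F₀.sub_mem (F₀.mul_mem (hy' l) (hy₀ k)) (F₀.mul_mem (hy' k) (hy₀ l)))
        (F₀.sub_mem (F₀.mul_mem (hy' k) (hy l)) (F₀.mul_mem (hy' l) (hy k)))), ?_⟩
    rw [hgy, smul_smul]
    congr 1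
    rw [← mul_div_assoc, eq_div_iff hα0]
    exact key
  · push Not at hD
    obtain ⟨i, hi⟩ := exists_ne_zero_coord' hy₀0
    have hyd : y = (y i / y₀ i) • y₀ := by
      funext l
      have h1 := hD i l
      rw [Pi.smul_apply, smul_eq_mul]
      field_simp
      linear_combination h1
    have hx2 : x = (c * (y i / y₀ i) / c₀) • Pi.single i0 1 := by
      have h0 : (g : Matrix ι ι F) *ᵥ (x - (c * (y i / y₀ i) / c₀) • Pi.single i0 1) = 0 := by
        rw [Matrix.mulVec_sub, Matrix.mulVec_smul, hgy₀, hgy, smul_smul, div_mul_cancel₀ _ hc₀]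
        nth_rewrite 1 [hyd]
        rw [smul_smul, sub_self]
      exact sub_eq_zero.mp (hginj _ h0)
    have ht : c * (y i / y₀ i) / c₀ = x i0 := by
      have h1 := congrFun hx2 i0
      rw [Pi.smul_apply, Pi.single_eq_same, smul_eq_mul, mul_one] at h1
      exact h1.symm
    refine ⟨x i0 • y₀, hy₀.smul (hx i0), ?_⟩
    rw [hgy, smul_smul, ← ht, mul_div_cancel₀ _ hc₀]
    nth_rewrite 1 [hyd]
    rw [smul_smul]

end Gen

end Cfsg.Agent.Lib.Helper13.SubSp
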