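-- helper13: symplectic transvections and Siegel elements in GL form; standard basis vectors.
import Mathlib
import Cfsg.Agent.Lib.Helper13.SubSp1

set_option autoImplicit false

namespace Cfsg.Agent.Lib.Helper13.SubSp

open Matrix Cfsg Cfsg.Geo Cfsg.Agent.Lib.Helper94

section Sieg

set_option linter.unusedSectionVars false

variable {F : Type*} [Field F] {m : ℕ}

theorem sf_symm_zero {u z : Fin m ⊕ Fin m → F} (h : sympForm m F u z = 0) :
    sympForm m F z u = 0 := by
  rw [sf_swap, h, neg_zero]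

/-! ### transvections -/

theorem tv_mul (u : Fin m ⊕ Fin m → F) (a b : F) :
    sympTransGL m u a * sympTransGL m u b = sympTransGL m u (a + b) := by
  apply gl_ext
  intro v
  rw [gl_mul_mulVec, sympTransGL_mulVec, sympTransGL_mulVec, sympTransGL_mulVec]
  simp only [sf_add_left, sf_smul_left, sf_self]
  module

theorem tv_zero (u : Fin m ⊕ Fin m → F) : sympTransGL m u (0 : F) = 1 := by
  apply gl_ext
  intro v
  rw [sympTransGL_mulVec, zero_mul, zero_smul, add_zero, Units.val_one, Matrix.one_mulVec]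

theorem tv_inv (u : Fin m ⊕ Fin m → F) (a : F) :
    (sympTransGL m u a)⁻¹ = sympTransGL m u (-a) := by
  apply inv_eq_of_mul_eq_one_right
  rw [tv_mul, add_neg_cancel, tv_zero]

theorem tv_smul (t : F) (u : Fin m ⊕ Fin m → F) (a : F) :
    sympTransGL m (t • u) a = sympTransGL m u (t * t * a) := by
  apply gl_ext
  intro v
  rw [sympTransGL_mulVec, sympTransGL_mulVec]
  simp only [sf_smul_right]
  module

/-! ### Siegel elements -/

/-- the Siegel element `v ↦ v + f(v,u) z + f(v,z) u` (for `f(u,z) = 0`), as a product of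
transvections. -/
noncomputable def sieg (u z : Fin m ⊕ Fin m → F) : GL (Fin m ⊕ Fin m) F :=
  sympTransGL m (u + z) 1 * sympTransGL m u (-1) * sympTransGL m z (-1)

theorem sieg_mulVec {u z : Fin m ⊕ Fin m → F} (h : sympForm m F u z = 0)
    (v : Fin m ⊕ Fin m → F) :
    ((sieg u z : GL (Fin m ⊕ Fin m) F) : Matrix (Fin m ⊕ Fin m) (Fin m ⊕ Fin m) F) *ᵥ v =
      v + sympForm m F v u • z + sympForm m F v z • u := by
  unfold sieg
  rw [gl_mul_mulVec, gl_mul_mulVec, sympTransGL_mulVec, sympTransGL_mulVec, sympTransGL_mulVec]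
  have h' := sf_symm_zero h
  simp only [sf_add_left, sf_add_right, sf_smul_left, sf_smul_right, sf_self, h, h']
  module

theorem sieg_mem (u z : Fin m ⊕ Fin m → F) : sieg u z ∈ spGL m F :=
  mul_mem (mul_mem (sympTransGL_mem m _ _) (sympTransGL_mem m _ _)) (sympTransGL_mem m _ _)

theorem sieg_conj (k : GL (Fin m ⊕ Fin m) F) (hk : k ∈ spGL m F) (u z : Fin m ⊕ Fin m → F) :
    k * sieg u z * k⁻¹ = sieg ((k : Matrix (Fin m ⊕ Fin m) (Fin m ⊕ Fin m) F) *ᵥ u)
      ((k : Matrix (Fin m ⊕ Fin m) (Fin m ⊕ Fin m) F) *ᵥ z) := by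
  unfold sieg
  rw [← Matrix.mulVec_add, ← sympTransGL_conj k hk, ← sympTransGL_conj k hk,
    ← sympTransGL_conj k hk]
  group

theorem sieg_add_right {u z z' : Fin m ⊕ Fin m → F} (h1 : sympForm m F u z = 0)
    (h2 : sympForm m F u z' = 0) (h3 : sympForm m F z z' = 0) :
    sieg u (z + z') = sieg u z * sieg u z' := by
  apply gl_ext
  intro v
  have h12 : sympForm m F u (z + z') = 0 := by rw [sf_add_right, h1, h2, add_zero]
  rw [gl_mul_mulVec, sieg_mulVec h12, sieg_mulVec h1, sieg_mulVec h2]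
  have h1' := sf_symm_zero h1
  have h2' := sf_symm_zero h2
  have h3' := sf_symm_zero h3
  simp only [sf_add_left, sf_add_right, sf_smul_left, sf_smul_right, sf_self, h1, h2, h3, h1',
    h2', h3']
  module

theorem sieg_symm {u z : Fin m ⊕ Fin m → F} (h : sympForm m F u z = 0) :
    sieg u z = sieg z u := by
  apply gl_ext
  intro v
  rw [sieg_mulVec h, sieg_mulVec (sf_symm_zero h)]
  module

theorem sieg_smul {u z : Fin m ⊕ Fin m → F} (h : sympForm m F u z = 0) (t : F) :
    sieg (t • u) z = sieg u (t • z) := by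
  apply gl_ext
  intro v
  have h1 : sympForm m F (t • u) z = 0 := by rw [sf_smul_left, h, mul_zero]
  have h2 : sympForm m F u (t • z) = 0 := by rw [sf_smul_right, h, mul_zero]
  rw [sieg_mulVec h1, sieg_mulVec h2]
  simp only [sf_smul_right]
  module

theorem sieg_zero_right (u : Fin m ⊕ Fin m → F) : sieg u (0 : Fin m ⊕ Fin m → F) = 1 := by
  apply gl_ext
  intro v
  rw [sieg_mulVec (sf_zero_right m u), sf_zero_right, smul_zero, zero_smul, add_zero, add_zero,
    Units.val_one, Matrix.one_mulVec]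

theorem sieg_inv {u z : Fin m ⊕ Fin m → F} (h : sympForm m F u z = 0) :
    (sieg u z)⁻¹ = sieg u (-z) := by
  apply inv_eq_of_mul_eq_one_right
  have h2 : sympForm m F u (-z) = 0 := by rw [sf_neg_right, h, neg_zero]
  have h3 : sympForm m F z (-z) = 0 := by rw [sf_neg_right, sf_self, neg_zero]
  rw [← sieg_add_right h h2 h3, add_neg_cancel, sieg_zero_right]

theorem sieg_add_left {u u' z : Fin m ⊕ Fin m → F} (h1 : sympForm m F u z = 0)
    (h2 : sympForm m F u' z = 0) (h3 : sympForm m F u u' = 0) :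
    sieg (u + u') z = sieg u z * sieg u' z := by
  have h12 : sympForm m F (u + u') z = 0 := by rw [sf_add_left, h1, h2, add_zero]
  rw [sieg_symm h12, sieg_symm h1, sieg_symm h2]
  exact sieg_add_right (sf_symm_zero h1) (sf_symm_zero h2) h3

/-- a transvection with centre `u + z` (`u ⊥ z`) splits. -/
theorem tv_add {u z : Fin m ⊕ Fin m → F} (h : sympForm m F u z = 0) (a : F) :
    sympTransGL m (u + z) a = sympTransGL m u a * sieg u (a • z) * sympTransGL m z a := by
  apply gl_ext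
  intro v
  have h2 : sympForm m F u (a • z) = 0 := by rw [sf_smul_right, h, mul_zero]
  rw [gl_mul_mulVec, gl_mul_mulVec, sympTransGL_mulVec, sympTransGL_mulVec, sieg_mulVec h2,
    sympTransGL_mulVec]
  have h' := sf_symm_zero h
  simp only [sf_add_left, sf_add_right, sf_smul_left, sf_smul_right, sf_self, h, h']
  module

/-! ### the standard basis -/

/-- standard basis vectors. -/
def bv (k : Fin m ⊕ Fin m) : Fin m ⊕ Fin m → F := Pi.single k 1

/-- the hyperbolic index of a basis index. -/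
def hyp : Fin m ⊕ Fin m → Fin m := Sum.elim id id

/-- the sign attached to a basis index. -/
def sg (k : Fin m ⊕ Fin m) : F := Sum.elim (fun _ => 1) (fun _ => -1) k

theorem hyp_swap (k : Fin m ⊕ Fin m) : hyp (Sum.swap k) = hyp k := by
  cases k <;> rfl

theorem sg_ne_zero (k : Fin m ⊕ Fin m) : (sg k : F) ≠ 0 := by
  cases k <;> simp [sg]

theorem sg_mul_self (k : Fin m ⊕ Fin m) : (sg k : F) * sg k = 1 := by
  cases k <;> simp [sg]

theorem sg_mem (F₀ : Subfield F) (k : Fin m ⊕ Fin m) : (sg k : F) ∈ F₀ := by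
  cases k
  · exact F₀.one_mem
  · exact F₀.neg_mem F₀.one_mem

theorem sf_bv_right (x : Fin m ⊕ Fin m → F) (k : Fin m ⊕ Fin m) :
    sympForm m F x (bv k) = sg k * x (Sum.swap k) := by
  rw [sf_eq]
  cases k with
  | inl j => simp [bv, sg, Pi.single_apply]
  | inr j => simp [bv, sg, Pi.single_apply]

theorem sf_bv_left (k : Fin m ⊕ Fin m) (x : Fin m ⊕ Fin m → F) :
    sympForm m F (bv k) x = -(sg k * x (Sum.swap k)) := by
  rw [sf_swap, sf_bv_right]

theorem bv_apply (k l : Fin m ⊕ Fin m) : (bv k : Fin m ⊕ Fin m → F) l = if l = k then 1 else 0 := by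
  unfold bv
  rw [Pi.single_apply]

theorem sf_bv_bv_of_ne {k l : Fin m ⊕ Fin m} (h : hyp k ≠ hyp l) :
    sympForm m F (bv k : Fin m ⊕ Fin m → F) (bv l) = 0 := by
  rw [sf_bv_right, bv_apply, if_neg, mul_zero]
  intro h2
  apply h
  rw [← h2, hyp_swap]

theorem sf_bv_swap (k : Fin m ⊕ Fin m) :
    sympForm m F (bv (Sum.swap k) : Fin m ⊕ Fin m → F) (bv k) = sg k := by
  rw [sf_bv_right, bv_apply, if_pos rfl, mul_one]

theorem sf_swap_bv (k : Fin m ⊕ Fin m) :
    sympForm m F (bv k : Fin m ⊕ Fin m → F) (bv (Sum.swap k)) = -sg k := by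
  rw [sf_swap, sf_bv_swap]

theorem bv_ne_zero (k : Fin m ⊕ Fin m) : (bv k : Fin m ⊕ Fin m → F) ≠ 0 :=
  single_one_ne_zero' k

theorem rt_bv (F₀ : Subfield F) (k : Fin m ⊕ Fin m) : Rt F₀ (bv k : Fin m ⊕ Fin m → F) :=
  rt_single_one F₀ k

theorem Rt.sf {F₀ : Subfield F} {u v : Fin m ⊕ Fin m → F} (hu : Rt F₀ u) (hv : Rt F₀ v) :
    sympForm m F u v ∈ F₀ := by
  rw [sf_eq]
  exact F₀.sum_mem fun i _ => F₀.sub_mem (F₀.mul_mem (hu _) (hv _)) (F₀.mul_mem (hu _) (hv _))

theorem hyp_ne_of_ne_swap {k l : Fin m ⊕ Fin m} (h1 : l ≠ k) (h2 : l ≠ Sum.swap k) :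
    hyp k ≠ hyp l := by
  intro h
  cases k with
  | inl a =>
    cases l with
    | inl b => exact h1 (by simp only [hyp, Sum.elim_inl, id] at h; rw [h])
    | inr b => exact h2 (by simp only [hyp, Sum.elim_inl, Sum.elim_inr, id] at h; rw [h]; rfl)
  | inr a =>
    cases l with
    | inl b => exact h2 (by simp only [hyp, Sum.elim_inl, Sum.elim_inr, id] at h; rw [h]; rfl)
    | inr b => exact h1 (by simp only [hyp, Sum.elim_inr, id] at h; rw [h])

/-- two fresh hyperbolic indices. -/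
theorem exists_fresh2 (s : Finset (Fin m)) (h : s.card + 2 ≤ m) :
    ∃ j₁ j₂ : Fin m, j₁ ≠ j₂ ∧ j₁ ∉ s ∧ j₂ ∉ s := by
  have hc : 1 < (Finset.univ \ s).card := by
    rw [Finset.card_sdiff_of_subset (Finset.subset_univ s), Finset.card_univ, Fintype.card_fin]
    omega
  obtain ⟨a, ha, b, hb, hab⟩ := Finset.one_lt_card.mp hc
  exact ⟨a, b, hab, (Finset.mem_sdiff.mp ha).2, (Finset.mem_sdiff.mp hb).2⟩

theorem exists_fresh1 (s : Finset (Fin m)) (h : s.card + 1 ≤ m) : ∃ j : Fin m, j ∉ s := by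
  have hc : 0 < (Finset.univ \ s).card := by
    rw [Finset.card_sdiff_of_subset (Finset.subset_univ s), Finset.card_univ, Fintype.card_fin]
    omega
  obtain ⟨a, ha⟩ := Finset.card_pos.mp hc
  exact ⟨a, (Finset.mem_sdiff.mp ha).2⟩

end Sieg

end Cfsg.Agent.Lib.Helper13.SubSp
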