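-- helper13: a subgroup containing the rational symplectic transvections and one non-rational
-- element of a rational Siegel group contains the symplectic group (subfield of prime index).
import Mathlib
import Cfsg.Agent.Lib.Helper13.SubSp2

set_option autoImplicit false

namespace Cfsg.Agent.Lib.Helper13.SubSp

open Matrix Cfsg Cfsg.Geo Cfsg.Agent.Lib.Helper94

section StepI

set_option linter.unusedSectionVars false
set_option linter.unusedSimpArgs false

variable {F : Type*} [Field F] {m : ℕ}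

/-- `H` contains the rational symplectic transvections. -/
def HasRt (F₀ : Subfield F) (H : Subgroup (GL (Fin m ⊕ Fin m) F)) : Prop :=
  ∀ u : Fin m ⊕ Fin m → F, Rt F₀ u → ∀ a ∈ F₀, sympTransGL m u a ∈ H

variable {F₀ : Subfield F} {H : Subgroup (GL (Fin m ⊕ Fin m) F)}

theorem HasRt.sieg_mem (hH : HasRt F₀ H) {u z : Fin m ⊕ Fin m → F} (hu : Rt F₀ u)
    (hz : Rt F₀ z) : sieg u z ∈ H :=
  H.mul_mem (H.mul_mem (hH _ (hu.add hz) 1 F₀.one_mem) (hH _ hu (-1) (F₀.neg_mem F₀.one_mem)))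
    (hH _ hz (-1) (F₀.neg_mem F₀.one_mem))

/-- the commutator relation between Siegel elements. -/
theorem rel_abs {u z p y : Fin m ⊕ Fin m → F} (huz : sympForm m F u z = 0)
    (hup : sympForm m F u p = 0) (huy : sympForm m F u y = 0) (hzy : sympForm m F z y = 0)
    (hpy : sympForm m F p y = 0) (hX : sieg u z ∈ H) (hY : sieg p y ∈ H) :
    sieg u (sympForm m F p z • y) ∈ H := by
  have h1 : sieg u z * sieg p y * (sieg u z)⁻¹ =
      sieg p y * sieg u (sympForm m F p z • y) := by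
    rw [sieg_conj _ (sieg_mem u z), sieg_mulVec huz, sieg_mulVec huz]
    simp only [sf_symm_zero hup, sf_symm_zero huy, sf_symm_zero hzy, zero_smul, add_zero]
    rw [sieg_add_left hpy (by rw [sf_smul_left, huy, mul_zero])
      (by rw [sf_smul_right, sf_symm_zero hup, mul_zero]), sieg_smul huy]
  have h2 : sieg u (sympForm m F p z • y) =
      (sieg p y)⁻¹ * (sieg u z * sieg p y * (sieg u z)⁻¹) := by
    rw [h1]
    group
  rw [h2]
  exact H.mul_mem (H.inv_mem hY) (H.mul_mem (H.mul_mem hX hY) (H.inv_mem hX))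

/-- parameters of the short root elements of `H` at a pair of basis vectors. -/
def Sset (H : Subgroup (GL (Fin m ⊕ Fin m) F)) (k l : Fin m ⊕ Fin m) : Set F :=
  {t | sieg (bv k) (t • bv l) ∈ H}

theorem sf_bv_smul_bv {k l : Fin m ⊕ Fin m} (h : hyp k ≠ hyp l) (t : F) :
    sympForm m F (bv k) (t • bv l) = 0 := by
  rw [sf_smul_right, sf_bv_bv_of_ne h, mul_zero]

theorem Sset_neg {k l : Fin m ⊕ Fin m} (h : hyp k ≠ hyp l) {t : F} (ht : t ∈ Sset H k l) :
    -t ∈ Sset H k l := by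
  show sieg (bv k) ((-t) • bv l) ∈ H
  rw [neg_smul, ← sieg_inv (sf_bv_smul_bv h t)]
  exact H.inv_mem ht

theorem Sset_add {k l : Fin m ⊕ Fin m} (h : hyp k ≠ hyp l) {t t' : F} (ht : t ∈ Sset H k l)
    (ht' : t' ∈ Sset H k l) : t + t' ∈ Sset H k l := by
  show sieg (bv k) ((t + t') • bv l) ∈ H
  rw [add_smul, sieg_add_right (sf_bv_smul_bv h t) (sf_bv_smul_bv h t')
    (by rw [sf_smul_left, sf_smul_right, sf_self, mul_zero, mul_zero])]
  exact H.mul_mem ht ht'

theorem Sset_symm {k l : Fin m ⊕ Fin m} (h : hyp k ≠ hyp l) {t : F} (ht : t ∈ Sset H k l) :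
    t ∈ Sset H l k := by
  show sieg (bv l) (t • bv k) ∈ H
  rw [← sieg_smul (sf_bv_bv_of_ne (Ne.symm h)) t, ← sieg_symm (sf_bv_smul_bv h t)]
  exact ht

theorem Sset_rat (hH : HasRt F₀ H) (k l : Fin m ⊕ Fin m) {a : F} (ha : a ∈ F₀) :
    a ∈ Sset H k l :=
  hH.sieg_mem (rt_bv F₀ k) ((rt_bv F₀ l).smul ha)

theorem Sset_move (hH : HasRt F₀ H) {k l l' : Fin m ⊕ Fin m} (hkl : hyp k ≠ hyp l)
    (hkl' : hyp k ≠ hyp l') (hll' : hyp l ≠ hyp l') {t : F} (ht : t ∈ Sset H k l) :
    t ∈ Sset H k l' := by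
  have key := rel_abs (H := H) (u := bv k) (z := t • bv l) (p := bv (Sum.swap l)) (y := bv l')
    (sf_bv_smul_bv hkl t) (sf_bv_bv_of_ne (by rw [hyp_swap]; exact hkl)) (sf_bv_bv_of_ne hkl')
    (by rw [sf_smul_left, sf_bv_bv_of_ne hll', mul_zero])
    (sf_bv_bv_of_ne (by rw [hyp_swap]; exact hll'))
    ht (hH.sieg_mem (rt_bv F₀ _) (rt_bv F₀ _))
  rw [sf_smul_right, sf_bv_swap] at key
  have key' : t * sg l ∈ Sset H k l' := key
  cases l with
  | inl j =>
    have e : t * sg (Sum.inl j : Fin m ⊕ Fin m) = t := by simp [sg]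
    rw [e] at key'
    exact key'
  | inr j =>
    have e : -(t * sg (Sum.inr j : Fin m ⊕ Fin m)) = t := by simp [sg]
    have := Sset_neg hkl' key'
    rw [e] at this
    exact this

/-- parameters of the short root elements of `H` at all pairs of basis vectors. -/
def Sall (H : Subgroup (GL (Fin m ⊕ Fin m) F)) : Set F :=
  {t | ∀ k l : Fin m ⊕ Fin m, hyp k ≠ hyp l → t ∈ Sset H k l}

theorem spread (hm : 6 ≤ m) (hH : HasRt F₀ H) {k l : Fin m ⊕ Fin m} (hkl : hyp k ≠ hyp l)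
    {t : F} (ht : t ∈ Sset H k l) : t ∈ Sall H := by
  intro k' l' hk'l'
  obtain ⟨j₁, j₂, h12, hj₁, hj₂⟩ :=
    exists_fresh2 ({hyp k, hyp l, hyp k', hyp l'} : Finset (Fin m)) (by
      have : ({hyp k, hyp l, hyp k', hyp l'} : Finset (Fin m)).card ≤ 4 := Finset.card_le_four
      omega)
  simp only [Finset.mem_insert, Finset.mem_singleton, not_or] at hj₁ hj₂
  obtain ⟨a1, a2, a3, a4⟩ := hj₁
  obtain ⟨b1, b2, b3, b4⟩ := hj₂
  have e1 : hyp (Sum.inl j₁ : Fin m ⊕ Fin m) = j₁ := rfl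
  have e2 : hyp (Sum.inl j₂ : Fin m ⊕ Fin m) = j₂ := rfl
  have s1 : t ∈ Sset H k (Sum.inl j₁) :=
    Sset_move hH hkl (by rw [e1]; exact fun h => a1 h.symm) (by rw [e1]; exact fun h => a2 h.symm)
      ht
  have s2 : t ∈ Sset H (Sum.inl j₁) (Sum.inl j₂) :=
    Sset_move hH (by rw [e1]; exact a1) (by rw [e1, e2]; exact h12)
      (by rw [e2]; exact fun h => b1 h.symm)
      (Sset_symm (by rw [e1]; exact fun h => a1 h.symm) s1)
  have s3 : t ∈ Sset H (Sum.inl j₁) l' :=
    Sset_move hH (by rw [e1, e2]; exact h12) (by rw [e1]; exact a4) (by rw [e2]; exact b4) s2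
  have s4 : t ∈ Sset H l' k' :=
    Sset_move hH (by rw [e1]; exact fun h => a4 h.symm) (Ne.symm hk'l') (by rw [e1]; exact a3)
      (Sset_symm (by rw [e1]; exact a4) s3)
  exact Sset_symm (Ne.symm hk'l') s4

theorem Sall_rat (hH : HasRt F₀ H) {a : F} (ha : a ∈ F₀) : a ∈ Sall H :=
  fun k l _ => Sset_rat hH k l ha

theorem Sall_add {t t' : F} (ht : t ∈ Sall H) (ht' : t' ∈ Sall H) : t + t' ∈ Sall H :=
  fun k l h => Sset_add h (ht k l h) (ht' k l h)

theorem Sall_neg {t : F} (ht : t ∈ Sall H) : -t ∈ Sall H :=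
  fun k l h => Sset_neg h (ht k l h)

theorem Sall_mul (hm : 3 ≤ m) (hH : HasRt F₀ H) {t t' : F} (ht : t ∈ Sall H)
    (ht' : t' ∈ Sall H) : t * t' ∈ Sall H := by
  intro k l hkl
  obtain ⟨j, hj⟩ := exists_fresh1 ({hyp k, hyp l} : Finset (Fin m)) (by
    have : ({hyp k, hyp l} : Finset (Fin m)).card ≤ 2 := Finset.card_le_two
    omega)
  simp only [Finset.mem_insert, Finset.mem_singleton, not_or] at hj
  obtain ⟨a1, a2⟩ := hj
  have e1 : hyp (Sum.inl j : Fin m ⊕ Fin m) = j := rfl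
  have hkj : hyp k ≠ hyp (Sum.inl j : Fin m ⊕ Fin m) := by rw [e1]; exact fun h => a1 h.symm
  have hjl : hyp (Sum.inl j : Fin m ⊕ Fin m) ≠ hyp l := by rw [e1]; exact a2
  have key := rel_abs (H := H) (u := bv k) (z := t • bv (Sum.inl j))
    (p := bv (Sum.swap (Sum.inl j))) (y := t' • bv l)
    (sf_bv_smul_bv hkj t) (sf_bv_bv_of_ne (by rw [hyp_swap]; exact hkj)) (sf_bv_smul_bv hkl t')
    (by rw [sf_smul_left, sf_smul_right, sf_bv_bv_of_ne hjl, mul_zero, mul_zero])
    (sf_bv_smul_bv (by rw [hyp_swap]; exact hjl) t')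
    (ht k (Sum.inl j) hkj) (ht' (Sum.swap (Sum.inl j)) l (by rw [hyp_swap]; exact hjl))
  rw [sf_smul_right, sf_bv_swap, smul_smul] at key
  have e : t * sg (Sum.inl j : Fin m ⊕ Fin m) * t' = t * t' := by simp [sg]
  rw [e] at key
  exact key

theorem Sall_pow (hm : 3 ≤ m) (hH : HasRt F₀ H) {t : F} (ht : t ∈ Sall H) (n : ℕ) :
    t ^ n ∈ Sall H := by
  induction n with
  | zero =>
    rw [pow_zero]
    exact Sall_rat hH F₀.one_mem
  | succ n ih =>
    rw [pow_succ]
    exact Sall_mul hm hH ih ht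

theorem Sall_inv [Fintype F] (hm : 3 ≤ m) (hH : HasRt F₀ H) {t : F} (ht : t ∈ Sall H) :
    t⁻¹ ∈ Sall H := by
  by_cases h0 : t = 0
  · rw [h0, _root_.inv_zero]
    exact Sall_rat hH F₀.zero_mem
  have h1 : t ^ (Fintype.card F - 1) = 1 := FiniteField.pow_card_sub_one_eq_one t h0
  have h2 : 2 ≤ Fintype.card F := Fintype.one_lt_card
  have h3 : t⁻¹ = t ^ (Fintype.card F - 2) := by
    apply inv_eq_of_mul_eq_one_right
    rw [← pow_succ', show Fintype.card F - 2 + 1 = Fintype.card F - 1 by omega, h1]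
  rw [h3]
  exact Sall_pow hm hH ht _

/-- the parameters of the short root elements form a subfield. -/
noncomputable def Sfield [Fintype F] (hm : 3 ≤ m) (hH : HasRt F₀ H) : Subfield F where
  carrier := Sall H
  mul_mem' := fun ha hb => Sall_mul hm hH ha hb
  one_mem' := Sall_rat hH F₀.one_mem
  add_mem' := fun ha hb => Sall_add ha hb
  zero_mem' := Sall_rat hH F₀.zero_mem
  neg_mem' := fun ha => Sall_neg ha
  inv_mem' := fun _ ha => Sall_inv hm hH ha

theorem Sall_univ [Fintype F] (hm : 3 ≤ m) (hH : HasRt F₀ H)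
    (hmax : ∀ K : Subfield F, F₀ ≤ K → K = F₀ ∨ K = ⊤) {γ : F} (hγ : γ ∈ Sall H)
    (hγ0 : γ ∉ F₀) : ∀ t : F, t ∈ Sall H := by
  rcases hmax (Sfield hm hH) (fun a ha => Sall_rat hH ha) with h | h
  · exfalso
    apply hγ0
    rw [← h]
    exact hγ
  · intro t
    have : t ∈ Sfield hm hH := by
      rw [h]
      exact Subfield.mem_top t
    exact this

/-- extraction of a short root element from an element of a rational Siegel group. -/
theorem extract (hm : 6 ≤ m) (hH : HasRt F₀ H) {k₀ l : Fin m ⊕ Fin m} (hkl : hyp k₀ ≠ hyp l)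
    (γ δ : F) (hy : sieg (bv l) (γ • bv k₀) * sympTransGL m (bv k₀) δ ∈ H) : γ ∈ Sall H := by
  obtain ⟨j, hj⟩ := exists_fresh1 ({hyp k₀, hyp l} : Finset (Fin m)) (by
    have : ({hyp k₀, hyp l} : Finset (Fin m)).card ≤ 2 := Finset.card_le_two
    omega)
  simp only [Finset.mem_insert, Finset.mem_singleton, not_or] at hj
  obtain ⟨a1, a2⟩ := hj
  have e1 : hyp (Sum.inl j : Fin m ⊕ Fin m) = j := rfl
  have hkj : hyp k₀ ≠ hyp (Sum.inl j : Fin m ⊕ Fin m) := by rw [e1]; exact fun h => a1 h.symm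
  have hlj : hyp l ≠ hyp (Sum.inl j : Fin m ⊕ Fin m) := by rw [e1]; exact fun h => a2 h.symm
  obtain ⟨g, hg⟩ : ∃ g : GL (Fin m ⊕ Fin m) F,
      g = sieg (bv (Sum.swap l) : Fin m ⊕ Fin m → F) (bv (Sum.inl j)) := ⟨_, rfl⟩
  have hgH : g ∈ H := by
    rw [hg]
    exact hH.sieg_mem (rt_bv _ _) (rt_bv _ _)
  have hgS : g ∈ spGL m F := by
    rw [hg]
    exact sieg_mem _ _
  have hpy : sympForm m F (bv (Sum.swap l) : Fin m ⊕ Fin m → F) (bv (Sum.inl j)) = 0 :=
    sf_bv_bv_of_ne (by rw [hyp_swap]; exact hlj)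
  have hg1 : (g : Matrix (Fin m ⊕ Fin m) (Fin m ⊕ Fin m) F) *ᵥ bv k₀ = bv k₀ := by
    rw [hg, sieg_mulVec hpy, sf_bv_bv_of_ne (by rw [hyp_swap]; exact hkl), sf_bv_bv_of_ne hkj,
      zero_smul, zero_smul, add_zero, add_zero]
  have hg2 : (g : Matrix (Fin m ⊕ Fin m) (Fin m ⊕ Fin m) F) *ᵥ bv l =
      bv l + (-sg l : F) • bv (Sum.inl j) := by
    rw [hg, sieg_mulVec hpy, sf_swap_bv, sf_bv_bv_of_ne hlj, zero_smul, add_zero]
  have h1 : g * (sieg (bv l) (γ • bv k₀) * sympTransGL m (bv k₀) δ) * g⁻¹ =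
      sieg ((-sg l : F) • bv (Sum.inl j)) (γ • bv k₀) *
        (sieg (bv l) (γ • bv k₀) * sympTransGL m (bv k₀) δ) := by
    have e : g * (sieg (bv l) (γ • bv k₀) * sympTransGL m (bv k₀) δ) * g⁻¹ =
        (g * sieg (bv l) (γ • bv k₀) * g⁻¹) * (g * sympTransGL m (bv k₀) δ * g⁻¹) := by group
    rw [e, sieg_conj g hgS, sympTransGL_conj g hgS, Matrix.mulVec_smul, hg1, hg2,
      add_comm (bv l), sieg_add_left
        (by rw [sf_smul_left, sf_smul_right, sf_bv_bv_of_ne (Ne.symm hkj), mul_zero, mul_zero])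
        (sf_bv_smul_bv (Ne.symm hkl) γ)
        (by rw [sf_smul_left, sf_bv_bv_of_ne (Ne.symm hlj), mul_zero]), mul_assoc]
  have h2 : sieg ((-sg l : F) • bv (Sum.inl j)) (γ • bv k₀) ∈ H := by
    have e : sieg ((-sg l : F) • bv (Sum.inl j)) (γ • bv k₀) =
        g * (sieg (bv l) (γ • bv k₀) * sympTransGL m (bv k₀) δ) * g⁻¹ *
          (sieg (bv l) (γ • bv k₀) * sympTransGL m (bv k₀) δ)⁻¹ := by
      rw [h1]
      group
    rw [e]
    exact H.mul_mem (H.mul_mem (H.mul_mem hgH hy) (H.inv_mem hgH)) (H.inv_mem hy)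
  rw [sieg_smul (sf_bv_smul_bv (Ne.symm hkj) γ), smul_smul] at h2
  have h3 : -sg l * γ ∈ Sall H := spread hm hH (Ne.symm hkj) h2
  have h4 := Sall_mul (by omega) hH (Sall_rat hH (F₀.neg_mem (sg_mem F₀ l))) h3
  have e : -sg l * (-sg l * γ) = γ := by
    have := sg_mul_self (F := F) l
    linear_combination γ * this
  rw [e] at h4
  exact h4

/-- long root elements with square parameters. -/
theorem long_sq (hm : 2 ≤ m) (hH : HasRt F₀ H) (hS : ∀ t : F, t ∈ Sall H)
    (l : Fin m ⊕ Fin m) (t : F) : sympTransGL m (bv l) (t * t) ∈ H := by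
  obtain ⟨j, hj⟩ := exists_fresh1 ({hyp l} : Finset (Fin m)) (by
    rw [Finset.card_singleton]
    omega)
  simp only [Finset.mem_singleton] at hj
  have e1 : hyp (Sum.inl j : Fin m ⊕ Fin m) = j := rfl
  have hkl : hyp (Sum.inl j : Fin m ⊕ Fin m) ≠ hyp l := by rw [e1]; exact hj
  obtain ⟨g, hg⟩ : ∃ g : GL (Fin m ⊕ Fin m) F,
      g = sieg (bv (Sum.swap (Sum.inl j)) : Fin m ⊕ Fin m → F) (t • bv l) := ⟨_, rfl⟩
  have hgH : g ∈ H := by
    rw [hg]
    exact hS t _ _ (by rw [hyp_swap]; exact hkl)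
  have hgS : g ∈ spGL m F := by
    rw [hg]
    exact sieg_mem _ _
  have hg1 : (g : Matrix (Fin m ⊕ Fin m) (Fin m ⊕ Fin m) F) *ᵥ bv (Sum.inl j) =
      bv (Sum.inl j) + (-t) • bv l := by
    rw [hg, sieg_mulVec (sf_bv_smul_bv (by rw [hyp_swap]; exact hkl) t), sf_swap_bv,
      sf_bv_smul_bv hkl, zero_smul, add_zero]
    have : (sg (Sum.inl j : Fin m ⊕ Fin m) : F) = 1 := rfl
    rw [this, neg_smul, one_smul, neg_smul]
  have h1 : g * sympTransGL m (bv (Sum.inl j)) 1 * g⁻¹ ∈ H :=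
    H.mul_mem (H.mul_mem hgH (hH _ (rt_bv _ _) 1 F₀.one_mem)) (H.inv_mem hgH)
  rw [sympTransGL_conj g hgS, hg1, tv_add (sf_bv_smul_bv hkl (-t)) 1, one_smul, tv_smul] at h1
  have h2 : sympTransGL m (bv (Sum.inl j)) 1 * sieg (bv (Sum.inl j)) ((-t) • bv l) ∈ H :=
    H.mul_mem (hH _ (rt_bv _ _) 1 F₀.one_mem) (hS (-t) _ _ hkl)
  have h3 := H.mul_mem (H.inv_mem h2) h1
  rw [inv_mul_cancel_left] at h3
  have e : -t * -t * 1 = t * t := by ring
  rw [e] at h3
  exact h3

theorem long_all [Fintype F] (hm : 2 ≤ m) (hH : HasRt F₀ H) (hS : ∀ t : F, t ∈ Sall H)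
    (l : Fin m ⊕ Fin m) (s : F) : sympTransGL m (bv l) s ∈ H := by
  by_cases h2 : (2 : F) = 0
  · have hc : ringChar F = 2 :=
      CharP.ringChar_of_prime_eq_zero Nat.prime_two (by exact_mod_cast h2)
    obtain ⟨r, hr⟩ := FiniteField.isSquare_of_char_two hc s
    rw [hr]
    exact long_sq hm hH hS l r
  · have e : s = (s + 1) / 2 * ((s + 1) / 2) + -((s - 1) / 2 * ((s - 1) / 2)) := by
      field_simp
      ring
    rw [e, ← tv_mul, ← tv_inv]
    exact H.mul_mem (long_sq hm hH hS l _) (H.inv_mem (long_sq hm hH hS l _))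

theorem smul_mem_tc {v : Fin m ⊕ Fin m → F} (hv : v ∈ transCenters H) (t : F) :
    t • v ∈ transCenters H := by
  intro c
  rw [tv_smul]
  exact hv _

theorem pair_mem_tc [Fintype F] (hm : 2 ≤ m) (hH : HasRt F₀ H) (hS : ∀ t : F, t ∈ Sall H)
    {k l : Fin m ⊕ Fin m} (hkl : hyp k ≠ hyp l) (β : F) :
    bv k + β • bv l ∈ transCenters H := by
  intro c
  rw [tv_add (sf_bv_smul_bv hkl β) c, tv_smul, smul_smul]
  exact H.mul_mem (H.mul_mem (long_all hm hH hS k c) (hS (c * β) k l hkl))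
    (long_all hm hH hS l _)

theorem all_mem_tc [Fintype F] (hm : 2 ≤ m) (hH : HasRt F₀ H) (hS : ∀ t : F, t ∈ Sall H)
    (hω : ∃ ω : F, ω ≠ 0 ∧ ω ≠ 1) :
    ∀ s : Finset (Fin m ⊕ Fin m), ∀ x : Fin m ⊕ Fin m → F, (∀ k, k ∉ s → x k = 0) →
      x ∈ transCenters H := by
  intro s
  induction s using Finset.induction_on with
  | empty =>
    intro x hx
    have : x = 0 := funext fun k => hx k (Finset.notMem_empty k)
    rw [this]
    exact zero_mem_transCenters H
  | insert k s hk ih =>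
    intro x hx
    obtain ⟨x', hx'⟩ : ∃ x' : Fin m ⊕ Fin m → F, x' = Function.update x k 0 := ⟨_, rfl⟩
    have hx'k : x' k = 0 := by rw [hx', Function.update_self]
    have hx'j : ∀ j, j ≠ k → x' j = x j := fun j hj => by rw [hx', Function.update_of_ne hj]
    have hx'mem : x' ∈ transCenters H := by
      apply ih
      intro j hj
      by_cases hjk : j = k
      · rw [hjk]
        exact hx'k
      · rw [hx'j j hjk]
        exact hx j (by
          rw [Finset.mem_insert, not_or]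
          exact ⟨hjk, hj⟩)
    have hxe : x = x' + x k • bv k := by
      funext j
      by_cases hjk : j = k
      · subst hjk
        simp [hx'k, bv_apply]
      · simp [hx'j j hjk, bv_apply, hjk]
    by_cases hc : x k = 0
    · rw [hxe, hc, zero_smul, add_zero]
      exact hx'mem
    have hu : x k • (bv k : Fin m ⊕ Fin m → F) ∈ transCenters H :=
      smul_mem_tc (fun c => long_all hm hH hS k c) _
    have hks : Sum.swap k ≠ k := by cases k <;> simp
    have hB : sympForm m F x' (x k • bv k) = x k * (sg k * x (Sum.swap k)) := by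
      rw [sf_smul_right, sf_bv_right, hx'j _ hks]
    by_cases hsw : x (Sum.swap k) = 0
    · by_cases hx'0 : x' = 0
      · rw [hxe, hx'0, zero_add]
        exact hu
      obtain ⟨l, hl⟩ := exists_ne_zero_coord' hx'0
      have hlk : l ≠ k := fun h => hl (by rw [h]; exact hx'k)
      have hlsw : l ≠ Sum.swap k := fun h => hl (by rw [h, hx'j _ hks]; exact hsw)
      have hhyp : hyp k ≠ hyp l := hyp_ne_of_ne_swap hlk hlsw
      obtain ⟨ω, hω0, hω1⟩ := hω
      obtain ⟨β, hβ0, hβ⟩ : ∃ β : F, β ≠ 0 ∧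
          x k * sg k - β * (sg (Sum.swap l) * x' l) ≠ 0 := by
        by_cases h1 : x k * sg k - 1 * (sg (Sum.swap l) * x' l) ≠ 0
        · exact ⟨1, one_ne_zero, h1⟩
        · push Not at h1
          refine ⟨ω, hω0, ?_⟩
          intro h2
          have h3 : (ω - 1) * (sg (Sum.swap l) * x' l) = 0 := by linear_combination h1 - h2
          rcases mul_eq_zero.mp h3 with h4 | h4
          · exact hω1 (sub_eq_zero.mp h4)
          · rcases mul_eq_zero.mp h4 with h5 | h5
            · exact sg_ne_zero _ h5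
            · exact hl h5
      obtain ⟨z, hz⟩ : ∃ z : Fin m ⊕ Fin m → F,
          z = bv (Sum.swap k) + β • bv (Sum.swap l) := ⟨_, rfl⟩
      have hzmem : z ∈ transCenters H := by
        rw [hz]
        exact pair_mem_tc hm hH hS (by rw [hyp_swap, hyp_swap]; exact hhyp) β
      have hzx' : sympForm m F z x' = -(β * (sg (Sum.swap l) * x' l)) := by
        rw [hz, sf_add_left, sf_smul_left, sf_bv_left, sf_bv_left, Sum.swap_swap, Sum.swap_swap,
          hx'k]
        ring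
      have hzu : sympForm m F z (x k • bv k) = x k * sg k := by
        rw [hz, sf_add_left, sf_smul_left, sf_smul_right, sf_smul_right, sf_bv_swap,
          sf_bv_bv_of_ne (by rw [hyp_swap]; exact Ne.symm hhyp)]
        ring
      have s1 : x' + z ∈ transCenters H := add_mem_transCenters H hx'mem hzmem (by
        rw [sf_swap, hzx', neg_neg]
        exact mul_ne_zero hβ0 (mul_ne_zero (sg_ne_zero _) hl))
      have s2 : x' + z + x k • bv k ∈ transCenters H := add_mem_transCenters H s1 hu (by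
        rw [sf_add_left, hB, hsw, hzu]
        simp [hc, sg_ne_zero])
      have s3 : x' + z + x k • bv k + (-1 : F) • z ∈ transCenters H :=
        add_mem_transCenters H s2 (smul_mem_tc hzmem _) (by
          rw [sf_smul_right, sf_add_left, sf_add_left, sf_self, sf_swap m x' z, hzx',
            sf_swap m (x k • bv k) z, hzu]
          intro h
          apply hβ
          linear_combination h)
      have e : x' + z + x k • bv k + (-1 : F) • z = x' + x k • bv k := by
        module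
      rw [e, ← hxe] at s3
      exact s3
    · rw [hxe]
      exact add_mem_transCenters H hx'mem hu (by
        rw [hB]
        exact mul_ne_zero hc (mul_ne_zero (sg_ne_zero _) hsw))

/-- **Step I**: a non-rational element of a rational Siegel group forces the whole symplectic
group. -/
theorem sp_le_of_bad [Fintype F] (hm : 6 ≤ m)
    (hmax : ∀ K : Subfield F, F₀ ≤ K → K = F₀ ∨ K = ⊤)
    (hH : HasRt F₀ H) {k₀ l : Fin m ⊕ Fin m} (hkl : hyp k₀ ≠ hyp l) (γ δ : F) (hγ : γ ∉ F₀)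
    (hy : sieg (bv l) (γ • bv k₀) * sympTransGL m (bv k₀) δ ∈ H) : spGL m F ≤ H := by
  have hS := Sall_univ (by omega) hH hmax (extract hm hH hkl γ δ hy) hγ
  have hω : ∃ ω : F, ω ≠ 0 ∧ ω ≠ 1 :=
    ⟨γ, fun h => hγ (h ▸ F₀.zero_mem), fun h => hγ (h ▸ F₀.one_mem)⟩
  apply spGL_le_of_transCenters
  intro v
  exact all_mem_tc (by omega) hH hS hω Finset.univ v
    (fun k hk => absurd (Finset.mem_univ k) hk)

end StepI

end Cfsg.Agent.Lib.Helper13.SubSp
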