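-- helper13: if all elements of the rational Siegel groups lying in `H` are rational, then `H`
-- normalises the rational structure (involution trick).
import Mathlib
import Cfsg.Agent.Lib.Helper13.SubSp3

set_option autoImplicit false

namespace Cfsg.Agent.Lib.Helper13.SubSp

open Matrix Cfsg Cfsg.Geo Cfsg.Agent.Lib.Helper94

section StepII

set_option linter.unusedSectionVars false
set_option linter.unusedSimpArgs false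
set_option linter.unusedVariables false

variable {F : Type*} [Field F] {m : ℕ} {F₀ : Subfield F} {H : Subgroup (GL (Fin m ⊕ Fin m) F)}

/-- the rationality hypothesis on the Siegel groups at `k₀`. -/
def Good (F₀ : Subfield F) (H : Subgroup (GL (Fin m ⊕ Fin m) F)) (k₀ : Fin m ⊕ Fin m) : Prop :=
  ∀ (l : Fin m ⊕ Fin m) (γ δ : F), hyp k₀ ≠ hyp l →
    sieg (bv l) (γ • bv k₀) * sympTransGL m (bv k₀) δ ∈ H → γ ∈ F₀

theorem key_rat (hH : HasRt F₀ H) (k₀ : Fin m ⊕ Fin m) (hA : Good F₀ H k₀)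
    {x : Fin m ⊕ Fin m → F} (hxw : sympForm m F x (bv k₀) = 0) {β δ : F}
    {l' : Fin m ⊕ Fin m} (hl' : hyp k₀ ≠ hyp l')
    (hY : sieg x (β • bv k₀) * sympTransGL m (bv k₀) δ ∈ H) :
    sympForm m F (bv l') x * β ∈ F₀ := by
  obtain ⟨Y, hYe⟩ : ∃ Y : GL (Fin m ⊕ Fin m) F,
      Y = sieg x (β • bv k₀) * sympTransGL m (bv k₀) δ := ⟨_, rfl⟩
  rw [← hYe] at hY
  have hYS : Y ∈ spGL m F := by
    rw [hYe]
    exact mul_mem (sieg_mem _ _) (sympTransGL_mem m _ _)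
  have hY1 : (Y : Matrix (Fin m ⊕ Fin m) (Fin m ⊕ Fin m) F) *ᵥ bv l' =
      bv l' + (sympForm m F (bv l') x * β) • bv k₀ := by
    rw [hYe, gl_mul_mulVec, sympTransGL_mulVec, sf_bv_bv_of_ne (Ne.symm hl'), mul_zero,
      zero_smul, add_zero, sieg_mulVec (by rw [sf_smul_right, hxw, mul_zero]),
      sf_bv_smul_bv (Ne.symm hl'), zero_smul, add_zero, smul_smul]
  have h1 : Y * sympTransGL m (bv l') 1 * Y⁻¹ ∈ H :=
    H.mul_mem (H.mul_mem hY (hH _ (rt_bv _ _) 1 F₀.one_mem)) (H.inv_mem hY)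
  rw [sympTransGL_conj Y hYS, hY1, tv_add (sf_bv_smul_bv (Ne.symm hl') _) 1, one_smul, tv_smul,
    mul_assoc] at h1
  have h2 := H.mul_mem (H.inv_mem (hH _ (rt_bv F₀ l') 1 F₀.one_mem)) h1
  rw [inv_mul_cancel_left] at h2
  exact hA l' _ _ hl' h2

/-- a transvection of `H` whose centre is perpendicular to the basis vector `k₀` has a
rational centre (up to a scalar). -/
theorem center_rat_basis (hH : HasRt F₀ H) (k₀ : Fin m ⊕ Fin m) (hA : Good F₀ H k₀)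
    {x : Fin m ⊕ Fin m → F} (hx : sympTransGL m x 1 ∈ H)
    (hxw : sympForm m F x (bv k₀) = 0) :
    ∃ (c : F) (u : Fin m ⊕ Fin m → F), Rt F₀ u ∧ x = c • u := by
  have hY : ∀ l, hyp k₀ ≠ hyp l → sieg x (sympForm m F x (bv l) • bv k₀) *
      sympTransGL m (bv k₀) (sympForm m F x (bv l) * sympForm m F x (bv l) * 1) ∈ H := by
    intro l hl
    obtain ⟨g, hg⟩ : ∃ g : GL (Fin m ⊕ Fin m) F,
        g = sieg (bv k₀ : Fin m ⊕ Fin m → F) (bv l) := ⟨_, rfl⟩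
    have hgH : g ∈ H := by
      rw [hg]
      exact hH.sieg_mem (rt_bv _ _) (rt_bv _ _)
    have hgS : g ∈ spGL m F := by
      rw [hg]
      exact sieg_mem _ _
    have hg1 : (g : Matrix (Fin m ⊕ Fin m) (Fin m ⊕ Fin m) F) *ᵥ x =
        x + sympForm m F x (bv l) • bv k₀ := by
      rw [hg, sieg_mulVec (sf_bv_bv_of_ne hl), hxw, zero_smul, add_zero]
    have h1 : g * sympTransGL m x 1 * g⁻¹ ∈ H := H.mul_mem (H.mul_mem hgH hx) (H.inv_mem hgH)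
    rw [sympTransGL_conj g hgS, hg1, tv_add (by rw [sf_smul_right, hxw, mul_zero]) 1, one_smul,
      tv_smul, mul_assoc] at h1
    have h2 := H.mul_mem (H.inv_mem hx) h1
    rw [inv_mul_cancel_left] at h2
    exact h2
  have hprod : ∀ j j', hyp k₀ ≠ hyp j → hyp k₀ ≠ hyp j' → x j' * x j ∈ F₀ := by
    intro j j' hj hj'
    have h1 := key_rat hH k₀ hA hxw (l' := Sum.swap j') (by rw [hyp_swap]; exact hj')
      (hY (Sum.swap j) (by rw [hyp_swap]; exact hj))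
    rw [sf_bv_left, sf_bv_right, Sum.swap_swap, Sum.swap_swap] at h1
    have h2 := F₀.mul_mem (F₀.mul_mem (F₀.neg_mem (sg_mem F₀ (Sum.swap j')))
      (sg_mem F₀ (Sum.swap j))) h1
    have e : -sg (Sum.swap j') * sg (Sum.swap j) *
        (-(sg (Sum.swap j') * x j') * (sg (Sum.swap j) * x j)) = x j' * x j := by
      have e1 := sg_mul_self (F := F) (Sum.swap j')
      have e2 := sg_mul_self (F := F) (Sum.swap j)
      linear_combination (x j' * x j * sg (Sum.swap j) * sg (Sum.swap j)) * e1 + x j' * x j * e2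
    rw [e] at h2
    exact h2
  have hsw : x (Sum.swap k₀) = 0 := by
    rw [sf_bv_right] at hxw
    exact (mul_eq_zero.mp hxw).resolve_left (sg_ne_zero _)
  by_cases hall : ∀ j, hyp k₀ ≠ hyp j → x j = 0
  · refine ⟨x k₀, bv k₀, rt_bv F₀ k₀, ?_⟩
    funext j
    rw [Pi.smul_apply, bv_apply, smul_eq_mul]
    by_cases h1 : j = k₀
    · rw [if_pos h1, mul_one, h1]
    · rw [if_neg h1, mul_zero]
      by_cases h2 : j = Sum.swap k₀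
      · rw [h2]
        exact hsw
      · exact hall j (hyp_ne_of_ne_swap h1 h2)
  · push Not at hall
    obtain ⟨j₀, hj₀, hxj₀⟩ := hall
    obtain ⟨c₀, hc₀⟩ : ∃ c₀ : F, c₀ = x j₀ := ⟨_, rfl⟩
    have hc₀0 : c₀ ≠ 0 := by
      rw [hc₀]
      exact hxj₀
    have hc₀2 : c₀ * c₀ ∈ F₀ := by
      rw [hc₀]
      exact hprod j₀ j₀ hj₀ hj₀
    obtain ⟨x₀, hx₀⟩ : ∃ x₀ : Fin m ⊕ Fin m → F, x₀ = Function.update (c₀ • x) k₀ 0 :=
      ⟨_, rfl⟩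
    have hx₀k : x₀ k₀ = 0 := by rw [hx₀, Function.update_self]
    have hx₀j : ∀ j, j ≠ k₀ → x₀ j = c₀ * x j := fun j hj => by
      rw [hx₀, Function.update_of_ne hj, Pi.smul_apply, smul_eq_mul]
    have hks : Sum.swap k₀ ≠ k₀ := by cases k₀ <;> simp
    have hx₀rat : Rt F₀ x₀ := by
      intro j
      by_cases h1 : j = k₀
      · rw [h1, hx₀k]
        exact F₀.zero_mem
      · rw [hx₀j j h1]
        by_cases h2 : j = Sum.swap k₀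
        · rw [h2, hsw, mul_zero]
          exact F₀.zero_mem
        · rw [hc₀]
          exact hprod j j₀ (hyp_ne_of_ne_swap h1 h2) hj₀
    obtain ⟨c, hc⟩ : ∃ c : F, c = c₀ * x k₀ := ⟨_, rfl⟩
    have hxe : c₀ • x = x₀ + c • bv k₀ := by
      funext j
      by_cases h1 : j = k₀
      · rw [h1]
        simp [hx₀k, bv_apply, hc]
      · simp [hx₀j j h1, bv_apply, h1]
    have hx₀w : sympForm m F x₀ (bv k₀) = 0 := by
      rw [sf_bv_right, hx₀j _ hks, hsw, mul_zero, mul_zero]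
    obtain ⟨a, ha⟩ : ∃ a : F, a = c₀⁻¹ * c₀⁻¹ * 1 := ⟨_, rfl⟩
    have haF : a ∈ F₀ := by
      rw [ha, mul_one, ← mul_inv]
      exact F₀.inv_mem hc₀2
    have ha0 : a ≠ 0 := by
      rw [ha]
      exact mul_ne_zero (mul_ne_zero (inv_ne_zero hc₀0) (inv_ne_zero hc₀0)) one_ne_zero
    have hxT : sympTransGL m (x₀ + c • bv k₀) a ∈ H := by
      have e : x = c₀⁻¹ • (x₀ + c • bv k₀) := by
        rw [← hxe, smul_smul, inv_mul_cancel₀ hc₀0, one_smul]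
      have h1 := hx
      rw [e, tv_smul, ← ha] at h1
      exact h1
    rw [tv_add (by rw [sf_smul_right, hx₀w, mul_zero]) a, tv_smul, smul_smul, mul_assoc] at hxT
    have hZ := H.mul_mem (H.inv_mem (hH x₀ hx₀rat a haF)) hxT
    rw [inv_mul_cancel_left] at hZ
    have h3 := key_rat hH k₀ hA hx₀w (l' := Sum.swap j₀) (by rw [hyp_swap]; exact hj₀) hZ
    rw [sf_bv_left, Sum.swap_swap, hx₀j j₀ (by rintro rfl; exact hj₀ rfl), ← hc₀] at h3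
    have hcF : c ∈ F₀ := by
      have h4 : -(sg (Sum.swap j₀ : Fin m ⊕ Fin m) * (c₀ * c₀)) * a ∈ F₀ :=
        F₀.mul_mem (F₀.neg_mem (F₀.mul_mem (sg_mem F₀ _) hc₀2)) haF
      have h5 : -(sg (Sum.swap j₀ : Fin m ⊕ Fin m) * (c₀ * c₀)) * a ≠ 0 :=
        mul_ne_zero (neg_ne_zero.mpr (mul_ne_zero (sg_ne_zero _) (mul_ne_zero hc₀0 hc₀0))) ha0
      have e : c = (-(sg (Sum.swap j₀ : Fin m ⊕ Fin m) * (c₀ * c₀)) * (a * c)) /
          (-(sg (Sum.swap j₀ : Fin m ⊕ Fin m) * (c₀ * c₀)) * a) := by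
        rw [eq_div_iff h5]
        ring
      rw [e]
      exact F₀.div_mem h3 h4
    refine ⟨c₀⁻¹, x₀ + c • bv k₀, hx₀rat.add ((rt_bv F₀ k₀).smul hcF), ?_⟩
    rw [← hxe, smul_smul, inv_mul_cancel₀ hc₀0, one_smul]

theorem rat_tv_pres {u v : Fin m ⊕ Fin m → F} {a : F} (hu : Rt F₀ u) (ha : a ∈ F₀)
    (hv : Rt F₀ v) :
    Rt F₀ ((sympTransGL m u a : Matrix (Fin m ⊕ Fin m) (Fin m ⊕ Fin m) F) *ᵥ v) := by
  rw [sympTransGL_mulVec]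
  exact hv.add (hu.smul (F₀.mul_mem ha (hv.sf hu)))

theorem exists_move1 (hH : HasRt F₀ H) {a b : Fin m ⊕ Fin m → F} (ha : Rt F₀ a)
    (hb : Rt F₀ b) (hab : sympForm m F a b ≠ 0) :
    ∃ g : GL (Fin m ⊕ Fin m) F, g ∈ H ∧ g ∈ spGL m F ∧
      (∀ v, Rt F₀ v → Rt F₀ ((g : Matrix (Fin m ⊕ Fin m) (Fin m ⊕ Fin m) F) *ᵥ v)) ∧
      (g : Matrix (Fin m ⊕ Fin m) (Fin m ⊕ Fin m) F) *ᵥ a = b := by
  refine ⟨sympTransGL m (b - a) (sympForm m F a b)⁻¹,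
    hH _ (hb.sub ha) _ (F₀.inv_mem (ha.sf hb)), sympTransGL_mem m _ _, ?_, ?_⟩
  · intro v hv
    exact rat_tv_pres (hb.sub ha) (F₀.inv_mem (ha.sf hb)) hv
  · rw [sympTransGL_mulVec, sf_sub_right, sf_self, sub_zero, inv_mul_cancel₀ hab, one_smul]
    abel

/-- the rational transvections are transitive on the non-zero rational vectors. -/
theorem exists_rat_move (hH : HasRt F₀ H) (k₀ : Fin m ⊕ Fin m) {u : Fin m ⊕ Fin m → F}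
    (hu : Rt F₀ u) (hu0 : u ≠ 0) :
    ∃ g : GL (Fin m ⊕ Fin m) F, g ∈ H ∧ g ∈ spGL m F ∧
      (∀ v, Rt F₀ v → Rt F₀ ((g : Matrix (Fin m ⊕ Fin m) (Fin m ⊕ Fin m) F) *ᵥ v)) ∧
      (g : Matrix (Fin m ⊕ Fin m) (Fin m ⊕ Fin m) F) *ᵥ bv k₀ = u := by
  by_cases h0 : sympForm m F (bv k₀) u ≠ 0
  · exact exists_move1 hH (rt_bv F₀ k₀) hu h0
  push Not at h0
  obtain ⟨i, hi⟩ := exists_ne_zero_coord' hu0
  have hc1 : sympForm m F (bv k₀ : Fin m ⊕ Fin m → F) (bv (Sum.swap k₀)) ≠ 0 := by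
    rw [sf_swap_bv]
    exact neg_ne_zero.mpr (sg_ne_zero _)
  have hc2 : sympForm m F (bv (Sum.swap i)) u ≠ 0 := by
    rw [sf_bv_left, Sum.swap_swap]
    exact neg_ne_zero.mpr (mul_ne_zero (sg_ne_zero _) hi)
  obtain ⟨c, hc, hca, hcb⟩ : ∃ c : Fin m ⊕ Fin m → F, Rt F₀ c ∧
      sympForm m F (bv k₀) c ≠ 0 ∧ sympForm m F c u ≠ 0 := by
    by_cases h1 : sympForm m F (bv (Sum.swap k₀)) u ≠ 0
    · exact ⟨bv (Sum.swap k₀), rt_bv _ _, hc1, h1⟩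
    push Not at h1
    by_cases h2 : sympForm m F (bv k₀ : Fin m ⊕ Fin m → F) (bv (Sum.swap i)) ≠ 0
    · exact ⟨bv (Sum.swap i), rt_bv _ _, h2, hc2⟩
    push Not at h2
    refine ⟨bv (Sum.swap k₀) + bv (Sum.swap i), (rt_bv _ _).add (rt_bv _ _), ?_, ?_⟩
    · rw [sf_add_right, h2, add_zero]
      exact hc1
    · rw [sf_add_left, h1, zero_add]
      exact hc2
  obtain ⟨g₁, hg₁H, hg₁S, hg₁R, hg₁⟩ := exists_move1 hH (rt_bv F₀ k₀) hc hca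
  obtain ⟨g₂, hg₂H, hg₂S, hg₂R, hg₂⟩ := exists_move1 hH hc hu hcb
  refine ⟨g₂ * g₁, H.mul_mem hg₂H hg₁H, mul_mem hg₂S hg₁S, ?_, ?_⟩
  · intro v hv
    rw [gl_mul_mulVec]
    exact hg₂R _ (hg₁R v hv)
  · rw [gl_mul_mulVec, hg₁, hg₂]

theorem sf_gl {g : GL (Fin m ⊕ Fin m) F} (hg : g ∈ spGL m F) (u v : Fin m ⊕ Fin m → F) :
    sympForm m F ((g : Matrix (Fin m ⊕ Fin m) (Fin m ⊕ Fin m) F) *ᵥ u)
      ((g : Matrix (Fin m ⊕ Fin m) (Fin m ⊕ Fin m) F) *ᵥ v) = sympForm m F u v :=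
  (mem_spGL_iff m g).mp hg u v

/-- a transvection of `H` whose centre is perpendicular to a point of `h R` has its centre in
`h R` (up to a scalar). -/
theorem center_rat (hH : HasRt F₀ H) (hHS : H ≤ spGL m F) (k₀ : Fin m ⊕ Fin m)
    (hA : Good F₀ H k₀) {h : GL (Fin m ⊕ Fin m) F} (hh : h ∈ H) {u : Fin m ⊕ Fin m → F}
    (hu : Rt F₀ u) (hu0 : u ≠ 0) {x : Fin m ⊕ Fin m → F} (hx : sympTransGL m x 1 ∈ H)
    (hxu : sympForm m F x ((h : Matrix (Fin m ⊕ Fin m) (Fin m ⊕ Fin m) F) *ᵥ u) = 0) :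
    ∃ (c : F) (u' : Fin m ⊕ Fin m → F), Rt F₀ u' ∧
      x = c • ((h : Matrix (Fin m ⊕ Fin m) (Fin m ⊕ Fin m) F) *ᵥ u') := by
  obtain ⟨g, hgH, hgS, hgR, hg⟩ := exists_rat_move hH k₀ hu hu0
  obtain ⟨k, hk⟩ : ∃ k : GL (Fin m ⊕ Fin m) F, k = (h * g)⁻¹ := ⟨_, rfl⟩
  have hkH : k ∈ H := by
    rw [hk]
    exact H.inv_mem (H.mul_mem hh hgH)
  have hkS : k ∈ spGL m F := hHS hkH
  have h1 : sympTransGL m ((k : Matrix (Fin m ⊕ Fin m) (Fin m ⊕ Fin m) F) *ᵥ x) 1 ∈ H := by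
    rw [← sympTransGL_conj k hkS]
    exact H.mul_mem (H.mul_mem hkH hx) (H.inv_mem hkH)
  have h2 : (k : Matrix (Fin m ⊕ Fin m) (Fin m ⊕ Fin m) F) *ᵥ
      ((h : Matrix (Fin m ⊕ Fin m) (Fin m ⊕ Fin m) F) *ᵥ u) = bv k₀ := by
    have e0 : (h : Matrix (Fin m ⊕ Fin m) (Fin m ⊕ Fin m) F) *ᵥ
        ((g : Matrix (Fin m ⊕ Fin m) (Fin m ⊕ Fin m) F) *ᵥ bv k₀) =
        ((h * g : GL (Fin m ⊕ Fin m) F) : Matrix (Fin m ⊕ Fin m) (Fin m ⊕ Fin m) F) *ᵥ bv k₀ :=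
      (gl_mul_mulVec h g _).symm
    rw [← hg, e0, hk, gl_inv_mulVec_mulVec]
  have h3 : sympForm m F ((k : Matrix (Fin m ⊕ Fin m) (Fin m ⊕ Fin m) F) *ᵥ x) (bv k₀) = 0 := by
    rw [← h2, sf_gl hkS, hxu]
  obtain ⟨c, u₁, hu₁, e⟩ := center_rat_basis hH k₀ hA h1 h3
  refine ⟨c, (g : Matrix (Fin m ⊕ Fin m) (Fin m ⊕ Fin m) F) *ᵥ u₁, hgR _ hu₁, ?_⟩
  have e2 : x = ((h * g : GL (Fin m ⊕ Fin m) F) : Matrix (Fin m ⊕ Fin m) (Fin m ⊕ Fin m) F) *ᵥ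
      ((k : Matrix (Fin m ⊕ Fin m) (Fin m ⊕ Fin m) F) *ᵥ x) := by
    rw [hk, gl_mulVec_inv_mulVec]
  rw [e2, e, Matrix.mulVec_smul, gl_mul_mulVec]

theorem one_mulVec' (v : Fin m ⊕ Fin m → F) :
    ((1 : GL (Fin m ⊕ Fin m) F) : Matrix (Fin m ⊕ Fin m) (Fin m ⊕ Fin m) F) *ᵥ v = v := by
  rw [Units.val_one, Matrix.one_mulVec]

/-- the images under `h` of the rational vectors perpendicular to a common point are rational
up to scalars. -/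
theorem maps_perp (hH : HasRt F₀ H) (hHS : H ≤ spGL m F) (k₀ : Fin m ⊕ Fin m)
    (hA : Good F₀ H k₀) {h : GL (Fin m ⊕ Fin m) F} (hh : h ∈ H) {u₁ : Fin m ⊕ Fin m → F}
    (hu₁0 : u₁ ≠ 0) {c₁ : F} {w₁ : Fin m ⊕ Fin m → F} (hw₁ : Rt F₀ w₁)
    (hcom : (h : Matrix (Fin m ⊕ Fin m) (Fin m ⊕ Fin m) F) *ᵥ u₁ = c₁ • w₁)
    {u' : Fin m ⊕ Fin m → F} (hu' : Rt F₀ u') (hperp : sympForm m F u' u₁ = 0) :
    ∃ (c : F) (w : Fin m ⊕ Fin m → F), Rt F₀ w ∧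
      (h : Matrix (Fin m ⊕ Fin m) (Fin m ⊕ Fin m) F) *ᵥ u' = c • w := by
  have hhS : h ∈ spGL m F := hHS hh
  have hne : (h : Matrix (Fin m ⊕ Fin m) (Fin m ⊕ Fin m) F) *ᵥ u₁ ≠ 0 :=
    fun h0 => hu₁0 (gl_injective h h0)
  have hc₁ : c₁ ≠ 0 := by
    rintro rfl
    rw [zero_smul] at hcom
    exact hne hcom
  have hw₁0 : w₁ ≠ 0 := by
    rintro rfl
    rw [smul_zero] at hcom
    exact hne hcom
  have h1 : sympTransGL m ((h : Matrix (Fin m ⊕ Fin m) (Fin m ⊕ Fin m) F) *ᵥ u') 1 ∈ H := by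
    rw [← sympTransGL_conj h hhS]
    exact H.mul_mem (H.mul_mem hh (hH u' hu' 1 F₀.one_mem)) (H.inv_mem hh)
  have h2 : sympForm m F ((h : Matrix (Fin m ⊕ Fin m) (Fin m ⊕ Fin m) F) *ᵥ u')
      (((1 : GL (Fin m ⊕ Fin m) F) : Matrix (Fin m ⊕ Fin m) (Fin m ⊕ Fin m) F) *ᵥ w₁) = 0 := by
    rw [one_mulVec']
    have h3 : sympForm m F ((h : Matrix (Fin m ⊕ Fin m) (Fin m ⊕ Fin m) F) *ᵥ u') (c₁ • w₁) =
        0 := by
      rw [← hcom, sf_gl hhS, hperp]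
    rw [sf_smul_right] at h3
    exact (mul_eq_zero.mp h3).resolve_left hc₁
  obtain ⟨c, w, hw, e⟩ := center_rat hH hHS k₀ hA H.one_mem hw₁ hw₁0 h1 h2
  rw [one_mulVec'] at e
  exact ⟨c, w, hw, e⟩

/-- a rational vector perpendicular to two rational vectors with non-zero product. -/
theorem exists_rat_perp2 (hm : 2 ≤ m) {u₀ u' : Fin m ⊕ Fin m → F} (hu₀ : Rt F₀ u₀)
    (hu' : Rt F₀ u') (hd : sympForm m F u' u₀ ≠ 0) :
    ∃ v : Fin m ⊕ Fin m → F, Rt F₀ v ∧ v ≠ 0 ∧ sympForm m F v u₀ = 0 ∧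
      sympForm m F v u' = 0 := by
  obtain ⟨d, hd'⟩ : ∃ d : F, d = sympForm m F u' u₀ := ⟨_, rfl⟩
  rw [← hd'] at hd
  have hdF : d ∈ F₀ := by
    rw [hd']
    exact hu'.sf hu₀
  have hd2 : sympForm m F u₀ u' = -d := by rw [sf_swap, hd']
  obtain ⟨π, hπ⟩ : ∃ π : (Fin m ⊕ Fin m → F) → (Fin m ⊕ Fin m → F), π = fun v =>
      v - (sympForm m F v u₀ / d) • u' + (sympForm m F v u' / d) • u₀ := ⟨_, rfl⟩
  have hπrat : ∀ v, Rt F₀ v → Rt F₀ (π v) := by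
    intro v hv
    rw [hπ]
    exact (hv.sub (hu'.smul (F₀.div_mem (hv.sf hu₀) hdF))).add
      (hu₀.smul (F₀.div_mem (hv.sf hu') hdF))
  have hπ1 : ∀ v, sympForm m F (π v) u₀ = 0 := by
    intro v
    rw [hπ]
    simp only [sf_add_left, sf_sub_left, sf_smul_left, sf_self, ← hd']
    field_simp
    ring
  have hπ2 : ∀ v, sympForm m F (π v) u' = 0 := by
    intro v
    rw [hπ]
    simp only [sf_add_left, sf_sub_left, sf_smul_left, sf_self, hd2]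
    field_simp
    ring
  by_cases h1 : π (bv (Sum.inl ⟨0, by omega⟩)) ≠ 0
  · exact ⟨_, hπrat _ (rt_bv _ _), h1, hπ1 _, hπ2 _⟩
  by_cases h2 : π (bv (Sum.inl ⟨1, by omega⟩)) ≠ 0
  · exact ⟨_, hπrat _ (rt_bv _ _), h2, hπ1 _, hπ2 _⟩
  exfalso
  push Not at h1 h2
  obtain ⟨k₁, hk₁⟩ : ∃ k₁ : Fin m ⊕ Fin m, k₁ = Sum.inl ⟨0, by omega⟩ := ⟨_, rfl⟩
  obtain ⟨k₂, hk₂⟩ : ∃ k₂ : Fin m ⊕ Fin m, k₂ = Sum.inl ⟨1, by omega⟩ := ⟨_, rfl⟩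
  rw [← hk₁] at h1
  rw [← hk₂] at h2
  have hk12 : k₂ ≠ k₁ := by
    rw [hk₁, hk₂]
    intro h
    have := Sum.inl.inj h
    simp [Fin.ext_iff] at this
  have hperp : sympForm m F (bv k₁ : Fin m ⊕ Fin m → F) (bv k₂) = 0 := by
    rw [sf_bv_right, bv_apply, if_neg, mul_zero]
    rw [hk₁, hk₂]
    simp
  obtain ⟨α₁, hα₁⟩ : ∃ α₁ : F, α₁ = sympForm m F (bv k₁) u₀ / d := ⟨_, rfl⟩
  obtain ⟨β₁, hβ₁⟩ : ∃ β₁ : F, β₁ = -(sympForm m F (bv k₁) u' / d) := ⟨_, rfl⟩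
  obtain ⟨α₂, hα₂⟩ : ∃ α₂ : F, α₂ = sympForm m F (bv k₂) u₀ / d := ⟨_, rfl⟩
  obtain ⟨β₂, hβ₂⟩ : ∃ β₂ : F, β₂ = -(sympForm m F (bv k₂) u' / d) := ⟨_, rfl⟩
  have e1 : (bv k₁ : Fin m ⊕ Fin m → F) = α₁ • u' + β₁ • u₀ := by
    rw [hπ] at h1
    have h1' : bv k₁ - (sympForm m F (bv k₁) u₀ / d) • u' +
        (sympForm m F (bv k₁) u' / d) • u₀ = 0 := h1
    rw [hα₁, hβ₁]
    linear_combination (norm := module) h1'
  have e2 : (bv k₂ : Fin m ⊕ Fin m → F) = α₂ • u' + β₂ • u₀ := by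
    rw [hπ] at h2
    have h2' : bv k₂ - (sympForm m F (bv k₂) u₀ / d) • u' +
        (sympForm m F (bv k₂) u' / d) • u₀ = 0 := h2
    rw [hα₂, hβ₂]
    linear_combination (norm := module) h2'
  have h3 : α₁ * β₂ - β₁ * α₂ = 0 := by
    have h4 := hperp
    rw [e1, e2] at h4
    simp only [sf_add_left, sf_add_right, sf_smul_left, sf_smul_right, sf_self, hd2, ← hd']
      at h4
    have h5 : (α₁ * β₂ - β₁ * α₂) * d = 0 := by linear_combination h4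
    exact (mul_eq_zero.mp h5).resolve_right hd
  have h6 : β₁ • (bv k₂ : Fin m ⊕ Fin m → F) - β₂ • bv k₁ = 0 := by
    rw [e1, e2]
    have : β₁ • (α₂ • u' + β₂ • u₀) - β₂ • (α₁ • u' + β₁ • u₀) =
        (-(α₁ * β₂ - β₁ * α₂)) • u' := by module
    rw [this, h3, neg_zero, zero_smul]
  have h7 : α₁ • (bv k₂ : Fin m ⊕ Fin m → F) - α₂ • bv k₁ = 0 := by
    rw [e1, e2]
    have : α₁ • (α₂ • u' + β₂ • u₀) - α₂ • (α₁ • u' + β₁ • u₀) =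
        (α₁ * β₂ - β₁ * α₂) • u₀ := by module
    rw [this, h3, zero_smul]
  have hβ0 : β₁ = 0 := by
    have := congrFun h6 k₂
    simpa [bv_apply, hk12] using this
  have hα0 : α₁ = 0 := by
    have := congrFun h7 k₂
    simpa [bv_apply, hk12] using this
  rw [hβ0, hα0, zero_smul, zero_smul, add_zero] at e1
  exact bv_ne_zero k₁ e1

/-- an element of `H` with a common point maps all rational vectors to multiples of rational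
vectors. -/
theorem maps_of_common (hm : 2 ≤ m) (hH : HasRt F₀ H) (hHS : H ≤ spGL m F)
    (k₀ : Fin m ⊕ Fin m) (hA : Good F₀ H k₀) {h : GL (Fin m ⊕ Fin m) F} (hh : h ∈ H)
    {u₀ : Fin m ⊕ Fin m → F} (hu₀ : Rt F₀ u₀) (hu₀0 : u₀ ≠ 0) {c₀ : F}
    {w₀ : Fin m ⊕ Fin m → F} (hw₀ : Rt F₀ w₀)
    (hcom : (h : Matrix (Fin m ⊕ Fin m) (Fin m ⊕ Fin m) F) *ᵥ u₀ = c₀ • w₀)
    (u' : Fin m ⊕ Fin m → F) (hu' : Rt F₀ u') :
    ∃ (c : F) (w : Fin m ⊕ Fin m → F), Rt F₀ w ∧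
      (h : Matrix (Fin m ⊕ Fin m) (Fin m ⊕ Fin m) F) *ᵥ u' = c • w := by
  by_cases hd : sympForm m F u' u₀ = 0
  · exact maps_perp hH hHS k₀ hA hh hu₀0 hw₀ hcom hu' hd
  obtain ⟨v, hv, hv0, hv1, hv2⟩ := exists_rat_perp2 hm hu₀ hu' hd
  obtain ⟨c₁, w₁, hw₁, e₁⟩ := maps_perp hH hHS k₀ hA hh hu₀0 hw₀ hcom hv hv1
  exact maps_perp hH hHS k₀ hA hh hv0 hw₁ e₁ hu' (sf_symm_zero hv2)

/-- `j` maps the rational structure `h R` to `lam • h R`. -/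
def Pres (F₀ : Subfield F) (h j : GL (Fin m ⊕ Fin m) F) (lam : F) : Prop :=
  ∀ u, Rt F₀ u → ∃ u', Rt F₀ u' ∧
    (j : Matrix (Fin m ⊕ Fin m) (Fin m ⊕ Fin m) F) *ᵥ
      ((h : Matrix (Fin m ⊕ Fin m) (Fin m ⊕ Fin m) F) *ᵥ u) =
      lam • ((h : Matrix (Fin m ⊕ Fin m) (Fin m ⊕ Fin m) F) *ᵥ u')

theorem exists_pres (hH : HasRt F₀ H) (hHS : H ≤ spGL m F) (k₀ : Fin m ⊕ Fin m)
    (hA : Good F₀ H k₀) {h j : GL (Fin m ⊕ Fin m) F} (hh : h ∈ H) (hj : j ∈ H)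
    (hjalt : ∀ y, sympForm m F y
      ((j : Matrix (Fin m ⊕ Fin m) (Fin m ⊕ Fin m) F) *ᵥ y) = 0) :
    ∃ lam : F, lam ≠ 0 ∧ Pres F₀ h j lam := by
  have hmem : h⁻¹ * j * h ∈ Cfsg.Geo.subfieldSubgroup F₀ (1 : GL (Fin m ⊕ Fin m) F) := by
    apply mem_sub_one_of_maps F₀ k₀
    intro u hu
    by_cases hu0 : u = 0
    · exact ⟨0, 0, rt_zero F₀, by rw [hu0, Matrix.mulVec_zero, smul_zero]⟩
    have hjh : j * h ∈ H := H.mul_mem hj hh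
    have h1 : sympTransGL m ((j : Matrix (Fin m ⊕ Fin m) (Fin m ⊕ Fin m) F) *ᵥ
        ((h : Matrix (Fin m ⊕ Fin m) (Fin m ⊕ Fin m) F) *ᵥ u)) 1 ∈ H := by
      rw [← gl_mul_mulVec, ← sympTransGL_conj (j * h) (hHS hjh)]
      exact H.mul_mem (H.mul_mem hjh (hH u hu 1 F₀.one_mem)) (H.inv_mem hjh)
    have h2 : sympForm m F ((j : Matrix (Fin m ⊕ Fin m) (Fin m ⊕ Fin m) F) *ᵥ
        ((h : Matrix (Fin m ⊕ Fin m) (Fin m ⊕ Fin m) F) *ᵥ u))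
        ((h : Matrix (Fin m ⊕ Fin m) (Fin m ⊕ Fin m) F) *ᵥ u) = 0 := by
      rw [sf_swap, hjalt, neg_zero]
    obtain ⟨c, u', hu', e⟩ := center_rat hH hHS k₀ hA hh hu hu0 h1 h2
    refine ⟨c, u', hu', ?_⟩
    rw [gl_mul_mulVec, gl_mul_mulVec, e, Matrix.mulVec_smul, gl_inv_mulVec_mulVec]
  obtain ⟨lam, hlam, hmaps⟩ := exists_scalar_of_mem_sub F₀ 1 _ hmem
  refine ⟨lam, hlam, ?_⟩
  intro u hu
  obtain ⟨u', hu', e⟩ := hmaps u hu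
  refine ⟨u', hu', ?_⟩
  rw [one_mulVec', one_mulVec', gl_mul_mulVec, gl_mul_mulVec] at e
  have e2 := congrArg (fun t => (h : Matrix (Fin m ⊕ Fin m) (Fin m ⊕ Fin m) F) *ᵥ t) e
  simp only [gl_mulVec_inv_mulVec, Matrix.mulVec_smul] at e2
  exact e2

theorem pres_sq (k₀ : Fin m ⊕ Fin m) {h j : GL (Fin m ⊕ Fin m) F} {lam : F} (hjj : j * j = 1)
    (hp : Pres F₀ h j lam) : lam * lam ∈ F₀ := by
  obtain ⟨u₁, hu₁, e₁⟩ := hp (bv k₀) (rt_bv F₀ k₀)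
  obtain ⟨u₂, hu₂, e₂⟩ := hp u₁ hu₁
  have h1 : (h : Matrix (Fin m ⊕ Fin m) (Fin m ⊕ Fin m) F) *ᵥ bv k₀ =
      (h : Matrix (Fin m ⊕ Fin m) (Fin m ⊕ Fin m) F) *ᵥ ((lam * lam) • u₂) := by
    have h2 : ((j * j : GL (Fin m ⊕ Fin m) F) : Matrix (Fin m ⊕ Fin m) (Fin m ⊕ Fin m) F) *ᵥ
        ((h : Matrix (Fin m ⊕ Fin m) (Fin m ⊕ Fin m) F) *ᵥ bv k₀) =
        (h : Matrix (Fin m ⊕ Fin m) (Fin m ⊕ Fin m) F) *ᵥ bv k₀ := by
      rw [hjj, one_mulVec']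
    rw [← h2, gl_mul_mulVec, e₁, Matrix.mulVec_smul, e₂, smul_smul, Matrix.mulVec_smul]
  have h3 : (bv k₀ : Fin m ⊕ Fin m → F) = (lam * lam) • u₂ := by
    have h4 : (h : Matrix (Fin m ⊕ Fin m) (Fin m ⊕ Fin m) F) *ᵥ
        (bv k₀ - (lam * lam) • u₂) = 0 := by
      rw [Matrix.mulVec_sub, h1, sub_self]
    exact sub_eq_zero.mp (gl_injective h h4)
  have h5 := congrFun h3 k₀
  rw [bv_apply, if_pos rfl, Pi.smul_apply, smul_eq_mul] at h5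
  have h6 : u₂ k₀ ≠ 0 := by
    intro h0
    rw [h0, mul_zero] at h5
    exact one_ne_zero h5
  have h7 : lam * lam = (u₂ k₀)⁻¹ := by
    exact eq_inv_of_mul_eq_one_left h5.symm
  rw [h7]
  exact F₀.inv_mem (hu₂ k₀)

theorem pres_of_mem {h j : GL (Fin m ⊕ Fin m) F} {lam : F} (hlam : lam ∈ F₀)
    (hp : Pres F₀ h j lam) : Pres F₀ h j 1 := by
  intro u hu
  obtain ⟨u', hu', e⟩ := hp u hu
  exact ⟨lam • u', hu'.smul hlam, by rw [e, one_smul, Matrix.mulVec_smul]⟩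

theorem pres_mul {h j₁ j₂ : GL (Fin m ⊕ Fin m) F} {l₁ l₂ : F} (hp₁ : Pres F₀ h j₁ l₁)
    (hp₂ : Pres F₀ h j₂ l₂) : Pres F₀ h (j₁ * j₂) (l₁ * l₂) := by
  intro u hu
  obtain ⟨u₁, hu₁, e₁⟩ := hp₂ u hu
  obtain ⟨u₂, hu₂, e₂⟩ := hp₁ u₁ hu₁
  exact ⟨u₂, hu₂, by rw [gl_mul_mulVec, e₁, Matrix.mulVec_smul, e₂, smul_smul, mul_comm]⟩

theorem gl_eq_one_of_bv {g : GL (Fin m ⊕ Fin m) F}
    (hg : ∀ k, (g : Matrix (Fin m ⊕ Fin m) (Fin m ⊕ Fin m) F) *ᵥ bv k = bv k) : g = 1 := by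
  apply Units.ext
  ext i k
  have h1 := congrFun (hg k) i
  unfold bv at h1
  rw [Matrix.mulVec_single_one] at h1
  rw [Units.val_one, Matrix.one_apply]
  have h2 : (g : Matrix (Fin m ⊕ Fin m) (Fin m ⊕ Fin m) F) i k =
      (Pi.single k (1 : F) : Fin m ⊕ Fin m → F) i := h1
  rw [h2, Pi.single_apply]

/-- an involution preserving `h R` produces a common point. -/
theorem common_of_pres (hH : HasRt F₀ H) (hHS : H ≤ spGL m F) (k₀ : Fin m ⊕ Fin m)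
    (hA : Good F₀ H k₀) {h j : GL (Fin m ⊕ Fin m) F} (hh : h ∈ H) (hj1 : Pres F₀ h j 1)
    {w₀ : Fin m ⊕ Fin m → F} (hw₀ : Rt F₀ w₀) (hw₀0 : w₀ ≠ 0)
    (hjw : ∀ y, sympForm m F
      ((j : Matrix (Fin m ⊕ Fin m) (Fin m ⊕ Fin m) F) *ᵥ y - y) w₀ = 0)
    (hjne : j ≠ 1) :
    ∃ (u₀ : Fin m ⊕ Fin m → F) (c₀ : F) (w : Fin m ⊕ Fin m → F), Rt F₀ u₀ ∧ u₀ ≠ 0 ∧
      Rt F₀ w ∧ (h : Matrix (Fin m ⊕ Fin m) (Fin m ⊕ Fin m) F) *ᵥ u₀ = c₀ • w := by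
  have hhS : h ∈ spGL m F := hHS hh
  obtain ⟨k, hk⟩ : ∃ k, (j : Matrix (Fin m ⊕ Fin m) (Fin m ⊕ Fin m) F) *ᵥ
      ((h : Matrix (Fin m ⊕ Fin m) (Fin m ⊕ Fin m) F) *ᵥ bv k) ≠
      (h : Matrix (Fin m ⊕ Fin m) (Fin m ⊕ Fin m) F) *ᵥ bv k := by
    by_contra hcon
    push Not at hcon
    apply hjne
    have h1 : h⁻¹ * j * h = 1 := by
      apply gl_eq_one_of_bv
      intro k
      rw [gl_mul_mulVec, gl_mul_mulVec, hcon k, gl_inv_mulVec_mulVec]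
    have h2 : j = h * (h⁻¹ * j * h) * h⁻¹ := by group
    rw [h2, h1]
    group
  obtain ⟨u', hu', e⟩ := hj1 (bv k) (rt_bv F₀ k)
  rw [one_smul] at e
  have hne : u' - bv k ≠ 0 := by
    intro h0
    apply hk
    rw [e, sub_eq_zero.mp h0]
  have h1 : sympTransGL m ((h : Matrix (Fin m ⊕ Fin m) (Fin m ⊕ Fin m) F) *ᵥ (u' - bv k)) 1 ∈
      H := by
    rw [← sympTransGL_conj h hhS]
    exact H.mul_mem (H.mul_mem hh (hH _ (hu'.sub (rt_bv F₀ k)) 1 F₀.one_mem)) (H.inv_mem hh)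
  have h2 : sympForm m F ((h : Matrix (Fin m ⊕ Fin m) (Fin m ⊕ Fin m) F) *ᵥ (u' - bv k))
      (((1 : GL (Fin m ⊕ Fin m) F) : Matrix (Fin m ⊕ Fin m) (Fin m ⊕ Fin m) F) *ᵥ w₀) = 0 := by
    rw [one_mulVec', Matrix.mulVec_sub, ← e]
    exact hjw _
  obtain ⟨c, w, hw, e2⟩ := center_rat hH hHS k₀ hA H.one_mem hw₀ hw₀0 h1 h2
  rw [one_mulVec'] at e2
  exact ⟨u' - bv k, c, w, hu'.sub (rt_bv F₀ k), hne, hw, e2⟩

end StepII

end Cfsg.Agent.Lib.Helper13.SubSp
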