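-- helper13: the subfield subgroup of Sp (standard rational structure) is maximal.
import Mathlib
import Cfsg.Agent.Lib.Helper13.SubSp4

set_option autoImplicit false

namespace Cfsg.Agent.Lib.Helper13.SubSp

open Matrix Cfsg Cfsg.Geo Cfsg.Agent.Lib.Helper94

section Invol

set_option linter.unusedSectionVars false
set_option linter.unusedSimpArgs false
set_option linter.unusedVariables false

variable {F : Type*} [Field F] {m : ℕ} {F₀ : Subfield F} {H : Subgroup (GL (Fin m ⊕ Fin m) F)}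

/-- `H` contains the rational isometries. -/
def HasRatIso (F₀ : Subfield F) (H : Subgroup (GL (Fin m ⊕ Fin m) F)) : Prop :=
  ∀ g : GL (Fin m ⊕ Fin m) F, g ∈ spGL m F →
    (∀ x, Rt F₀ x → Rt F₀ ((g : Matrix (Fin m ⊕ Fin m) (Fin m ⊕ Fin m) F) *ᵥ x)) → g ∈ H

theorem HasRatIso.hasRt (hG : HasRatIso F₀ H) : HasRt F₀ H :=
  fun u hu a ha => hG _ (sympTransGL_mem m u a) (fun _ hx => rat_tv_pres hu ha hx)

/-- an element of `F` with square in `F₀` lies in `F₀` in characteristic two. -/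
theorem mem_of_sq_mem_char2 [Fintype F] (h2 : (2 : F) = 0) {lam : F} (h : lam * lam ∈ F₀) :
    lam ∈ F₀ := by
  have hc : ringChar F₀ = 2 := CharP.ringChar_of_prime_eq_zero Nat.prime_two (by
    apply Subtype.ext
    push_cast
    exact h2)
  obtain ⟨μ, hμ⟩ := FiniteField.isSquare_of_char_two hc (⟨lam * lam, h⟩ : F₀)
  have h3 : lam * lam = (μ : F) * μ := by
    have := congrArg Subtype.val hμ
    simpa using this
  have h4 : (lam - μ) * (lam - μ) = 0 := by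
    linear_combination h3 + ((μ : F) * μ - lam * μ) * h2
  have h5 : lam - μ = 0 := by
    rcases mul_eq_zero.mp h4 with h | h <;> exact h
  rw [sub_eq_zero.mp h5]
  exact μ.2

/-- two non-rational elements with rational squares have a rational product. -/
theorem mul_mem_of_sq_mem [Fintype F] {a b : F} (ha : a * a ∈ F₀) (hb : b * b ∈ F₀)
    (ha' : a ∉ F₀) (hb' : b ∉ F₀) : a * b ∈ F₀ := by
  classical
  haveI : Fintype F₀ := Fintype.ofFinite _
  have key : ∀ c : F, ∀ hc : c * c ∈ F₀, c ∉ F₀ → ¬ IsSquare (⟨c * c, hc⟩ : F₀) := by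
    intro c hc hc'
    rintro ⟨s, hs⟩
    have h1 : c * c = (s : F) * s := by
      have := congrArg Subtype.val hs
      simpa using this
    have h2 : (c - s) * (c + s) = 0 := by linear_combination h1
    rcases mul_eq_zero.mp h2 with h3 | h3
    · exact hc' (by rw [sub_eq_zero.mp h3]; exact s.2)
    · exact hc' (by rw [eq_neg_of_add_eq_zero_left h3]; exact F₀.neg_mem s.2)
  have h1 : quadraticChar F₀ ((⟨a * a, ha⟩ : F₀) * ⟨b * b, hb⟩) = 1 := by
    rw [map_mul, quadraticChar_neg_one_iff_not_isSquare.mpr (key a ha ha'),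
      quadraticChar_neg_one_iff_not_isSquare.mpr (key b hb hb')]
    norm_num
  have hne : ((⟨a * a, ha⟩ : F₀) * ⟨b * b, hb⟩) ≠ 0 := by
    intro h0
    rw [h0, MulChar.map_zero] at h1
    exact zero_ne_one h1
  obtain ⟨s, hs⟩ := (quadraticChar_one_iff_isSquare hne).mp h1
  have h2 : (a * b) * (a * b) = (s : F) * s := by
    have := congrArg Subtype.val hs
    simp only [Subfield.coe_mul] at this
    linear_combination this
  have h3 : (a * b - s) * (a * b + s) = 0 := by linear_combination h2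
  rcases mul_eq_zero.mp h3 with h4 | h4
  · rw [sub_eq_zero.mp h4]
    exact s.2
  · rw [eq_neg_of_add_eq_zero_left h4]
    exact F₀.neg_mem s.2

/-- `g` acts diagonally with the function `c` of the hyperbolic index. -/
def IsD (g : GL (Fin m ⊕ Fin m) F) (c : Fin m → F) : Prop :=
  ∀ y : Fin m ⊕ Fin m → F,
    (g : Matrix (Fin m ⊕ Fin m) (Fin m ⊕ Fin m) F) *ᵥ y = fun k => c (hyp k) * y k

theorem IsD.mul {g₁ g₂ : GL (Fin m ⊕ Fin m) F} {c₁ c₂ : Fin m → F} (h₁ : IsD g₁ c₁)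
    (h₂ : IsD g₂ c₂) : IsD (g₁ * g₂) (fun i => c₁ i * c₂ i) := by
  intro y
  rw [gl_mul_mulVec, h₂ y, h₁]
  funext k
  ring

theorem IsD.mem_sp {g : GL (Fin m ⊕ Fin m) F} {c : Fin m → F} (h : IsD g c)
    (hc : ∀ i, c i * c i = 1) : g ∈ spGL m F := by
  rw [mem_spGL_iff]
  intro u v
  rw [h u, h v, sf_eq, sf_eq]
  apply Finset.sum_congr rfl
  intro i _
  have := hc i
  simp only [hyp, Sum.elim_inl, Sum.elim_inr, id]
  linear_combination (u (Sum.inr i) * v (Sum.inl i) - u (Sum.inl i) * v (Sum.inr i)) * this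

theorem IsD.alt {g : GL (Fin m ⊕ Fin m) F} {c : Fin m → F} (h : IsD g c)
    (y : Fin m ⊕ Fin m → F) :
    sympForm m F y ((g : Matrix (Fin m ⊕ Fin m) (Fin m ⊕ Fin m) F) *ᵥ y) = 0 := by
  rw [h y, sf_eq]
  apply Finset.sum_eq_zero
  intro i _
  simp only [hyp, Sum.elim_inl, Sum.elim_inr, id]
  ring

theorem IsD.rat {g : GL (Fin m ⊕ Fin m) F} {c : Fin m → F} (h : IsD g c)
    (hc : ∀ i, c i ∈ F₀) {x : Fin m ⊕ Fin m → F} (hx : Rt F₀ x) :
    Rt F₀ ((g : Matrix (Fin m ⊕ Fin m) (Fin m ⊕ Fin m) F) *ᵥ x) := by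
  rw [h x]
  exact fun k => F₀.mul_mem (hc _) (hx k)

theorem IsD.sq {g : GL (Fin m ⊕ Fin m) F} {c : Fin m → F} (h : IsD g c)
    (hc : ∀ i, c i * c i = 1) : g * g = 1 := by
  apply gl_ext
  intro y
  rw [gl_mul_mulVec, h y, h, one_mulVec']
  funext k
  rw [← mul_assoc, hc, one_mul]

theorem IsD.perp {g : GL (Fin m ⊕ Fin m) F} {c : Fin m → F} (h : IsD g c) {i : Fin m}
    (hi : c i = 1) (y : Fin m ⊕ Fin m → F) :
    sympForm m F ((g : Matrix (Fin m ⊕ Fin m) (Fin m ⊕ Fin m) F) *ᵥ y - y)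
      (bv (Sum.inl i)) = 0 := by
  rw [h y, sf_bv_right]
  have : hyp (Sum.swap (Sum.inl i) : Fin m ⊕ Fin m) = i := rfl
  simp only [Pi.sub_apply, this, hi, one_mul, sub_self, mul_zero]

theorem IsD.ne_one {g : GL (Fin m ⊕ Fin m) F} {c : Fin m → F} (h : IsD g c) {i : Fin m}
    (hi : c i = -1) (h2 : (2 : F) ≠ 0) : g ≠ 1 := by
  intro h1
  have h3 := congrFun (h (bv (Sum.inl i))) (Sum.inl i)
  rw [h1, one_mulVec', bv_apply, if_pos rfl] at h3
  have : hyp (Sum.inl i : Fin m ⊕ Fin m) = i := rfl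
  rw [this, hi] at h3
  apply h2
  linear_combination h3

/-- the diagonal sign matrix attached to a sign function of the hyperbolic index. -/
noncomputable def dinv (e : Fin m → F) (he : ∀ i, e i * e i = 1) : GL (Fin m ⊕ Fin m) F :=
  ⟨Matrix.diagonal (fun k => e (hyp k)), Matrix.diagonal (fun k => e (hyp k)),
    by rw [Matrix.diagonal_mul_diagonal]; simp [he],
    by rw [Matrix.diagonal_mul_diagonal]; simp [he]⟩

theorem dinv_isD (e : Fin m → F) (he : ∀ i, e i * e i = 1) : IsD (dinv e he) e := by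
  intro y
  funext k
  exact Matrix.mulVec_diagonal _ _ _

/-- the sign function which is `-1` exactly at `i₀`. -/
def sgn1 (i₀ : Fin m) : Fin m → F := fun i => if i = i₀ then -1 else 1

theorem sgn1_sq (i₀ i : Fin m) : (sgn1 i₀ i : F) * sgn1 i₀ i = 1 := by
  unfold sgn1
  split_ifs <;> ring

theorem sgn1_mem (F₀ : Subfield F) (i₀ i : Fin m) : (sgn1 i₀ i : F) ∈ F₀ := by
  unfold sgn1
  split_ifs
  · exact F₀.neg_mem F₀.one_mem
  · exact F₀.one_mem

theorem sgn1_self (i₀ : Fin m) : (sgn1 i₀ i₀ : F) = -1 := by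
  unfold sgn1
  rw [if_pos rfl]

theorem sgn1_ne {i₀ i : Fin m} (h : i ≠ i₀) : (sgn1 i₀ i : F) = 1 := by
  unfold sgn1
  rw [if_neg h]

/-- **Step II**: if the elements of the rational Siegel groups in `H` are rational, then every
element of `H` lies in the subfield subgroup. -/
theorem mem_sub_of_good [Fintype F] (hm : 3 ≤ m) (hG : HasRatIso F₀ H) (hHS : H ≤ spGL m F)
    (k₀ : Fin m ⊕ Fin m) (hA : Good F₀ H k₀) {h : GL (Fin m ⊕ Fin m) F} (hh : h ∈ H) :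
    h ∈ Cfsg.Geo.subfieldSubgroup F₀ (1 : GL (Fin m ⊕ Fin m) F) := by
  have hH := hG.hasRt
  obtain ⟨j, w₀, hj1, hw₀, hw₀0, hjw, hjne⟩ : ∃ (j : GL (Fin m ⊕ Fin m) F)
      (w₀ : Fin m ⊕ Fin m → F), Pres F₀ h j 1 ∧ Rt F₀ w₀ ∧ w₀ ≠ 0 ∧
      (∀ y, sympForm m F
        ((j : Matrix (Fin m ⊕ Fin m) (Fin m ⊕ Fin m) F) *ᵥ y - y) w₀ = 0) ∧ j ≠ 1 := by
    by_cases h2 : (2 : F) = 0
    · obtain ⟨k₁, hk₁⟩ : ∃ k₁ : Fin m ⊕ Fin m, k₁ = Sum.inl ⟨0, by omega⟩ := ⟨_, rfl⟩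
      obtain ⟨k₂, hk₂⟩ : ∃ k₂ : Fin m ⊕ Fin m, k₂ = Sum.inl ⟨1, by omega⟩ := ⟨_, rfl⟩
      have h12 : hyp k₁ ≠ hyp k₂ := by
        rw [hk₁, hk₂]
        simp [hyp, Fin.ext_iff]
      have hb12 : sympForm m F (bv k₁ : Fin m ⊕ Fin m → F) (bv k₂) = 0 := sf_bv_bv_of_ne h12
      obtain ⟨j, hj⟩ : ∃ j : GL (Fin m ⊕ Fin m) F,
          j = sieg (bv k₁ : Fin m ⊕ Fin m → F) (bv k₂) := ⟨_, rfl⟩
      have hjH : j ∈ H := by
        rw [hj]
        exact hH.sieg_mem (rt_bv _ _) (rt_bv _ _)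
      have hjv : ∀ y, (j : Matrix (Fin m ⊕ Fin m) (Fin m ⊕ Fin m) F) *ᵥ y =
          y + sympForm m F y (bv k₁) • bv k₂ + sympForm m F y (bv k₂) • bv k₁ := fun y => by
        rw [hj, sieg_mulVec hb12]
      have hjalt : ∀ y, sympForm m F y
          ((j : Matrix (Fin m ⊕ Fin m) (Fin m ⊕ Fin m) F) *ᵥ y) = 0 := by
        intro y
        rw [hjv]
        simp only [sf_add_right, sf_smul_right, sf_self]
        linear_combination (sympForm m F y (bv k₁) * sympForm m F y (bv k₂)) * h2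
      have hjj : j * j = 1 := by
        rw [hj, ← sieg_add_right hb12 hb12 (sf_self m _)]
        have : (bv k₂ : Fin m ⊕ Fin m → F) + bv k₂ = 0 := by
          rw [← two_smul F, h2, zero_smul]
        rw [this, sieg_zero_right]
      obtain ⟨lam, hlam0, hp⟩ := exists_pres hH hHS k₀ hA hh hjH hjalt
      have hlam : lam ∈ F₀ := mem_of_sq_mem_char2 h2 (pres_sq k₀ hjj hp)
      refine ⟨j, bv k₁, pres_of_mem hlam hp, rt_bv _ _, bv_ne_zero _, ?_, ?_⟩
      · intro y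
        rw [hjv]
        have e : y + sympForm m F y (bv k₁) • bv k₂ + sympForm m F y (bv k₂) • bv k₁ - y =
            sympForm m F y (bv k₁) • bv k₂ + sympForm m F y (bv k₂) • bv k₁ := by abel
        rw [e, sf_add_left, sf_smul_left, sf_smul_left, sf_symm_zero hb12, sf_self, mul_zero,
          mul_zero, add_zero]
      · intro h1
        have h3 := hjv (bv (Sum.swap k₁))
        rw [h1, one_mulVec', sf_bv_swap, sf_bv_bv_of_ne (by rw [hyp_swap]; exact h12),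
          zero_smul, add_zero] at h3
        have h4 : (sg k₁ : F) • (bv k₂ : Fin m ⊕ Fin m → F) = 0 := by
          have := sub_eq_zero.mpr h3.symm
          rwa [add_sub_cancel_left] at this
        rcases smul_eq_zero.mp h4 with h5 | h5
        · exact sg_ne_zero _ h5
        · exact bv_ne_zero _ h5
    · obtain ⟨i₀, hi₀⟩ : ∃ i₀ : Fin m, i₀ = ⟨0, by omega⟩ := ⟨_, rfl⟩
      obtain ⟨i₁, hi₁⟩ : ∃ i₁ : Fin m, i₁ = ⟨1, by omega⟩ := ⟨_, rfl⟩
      obtain ⟨i₂, hi₂⟩ : ∃ i₂ : Fin m, i₂ = ⟨2, by omega⟩ := ⟨_, rfl⟩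
      have h01 : i₀ ≠ i₁ := by rw [hi₀, hi₁]; simp [Fin.ext_iff]
      have h20 : i₂ ≠ i₀ := by rw [hi₀, hi₂]; simp [Fin.ext_iff]
      have h21 : i₂ ≠ i₁ := by rw [hi₁, hi₂]; simp [Fin.ext_iff]
      have hD₁ := dinv_isD (sgn1 i₀ : Fin m → F) (sgn1_sq i₀)
      have hD₂ := dinv_isD (sgn1 i₁ : Fin m → F) (sgn1_sq i₁)
      obtain ⟨j₁, hj₁⟩ : ∃ j₁ : GL (Fin m ⊕ Fin m) F,
          j₁ = dinv (sgn1 i₀ : Fin m → F) (sgn1_sq i₀) := ⟨_, rfl⟩
      obtain ⟨j₂, hj₂⟩ : ∃ j₂ : GL (Fin m ⊕ Fin m) F,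
          j₂ = dinv (sgn1 i₁ : Fin m → F) (sgn1_sq i₁) := ⟨_, rfl⟩
      rw [← hj₁] at hD₁
      rw [← hj₂] at hD₂
      have hj₁H : j₁ ∈ H := hG _ (hD₁.mem_sp (sgn1_sq i₀)) (fun x hx => hD₁.rat (sgn1_mem F₀ i₀) hx)
      have hj₂H : j₂ ∈ H := hG _ (hD₂.mem_sp (sgn1_sq i₁)) (fun x hx => hD₂.rat (sgn1_mem F₀ i₁) hx)
      obtain ⟨l₁, hl₁0, hp₁⟩ := exists_pres hH hHS k₀ hA hh hj₁H hD₁.alt
      obtain ⟨l₂, hl₂0, hp₂⟩ := exists_pres hH hHS k₀ hA hh hj₂H hD₂.alt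
      have hs₁ := pres_sq k₀ (hD₁.sq (sgn1_sq i₀)) hp₁
      have hs₂ := pres_sq k₀ (hD₂.sq (sgn1_sq i₁)) hp₂
      by_cases hm₁ : l₁ ∈ F₀
      · exact ⟨j₁, bv (Sum.inl i₂), pres_of_mem hm₁ hp₁, rt_bv _ _, bv_ne_zero _,
          hD₁.perp (sgn1_ne h20), hD₁.ne_one (sgn1_self i₀) h2⟩
      by_cases hm₂ : l₂ ∈ F₀
      · exact ⟨j₂, bv (Sum.inl i₂), pres_of_mem hm₂ hp₂, rt_bv _ _, bv_ne_zero _,
          hD₂.perp (sgn1_ne h21), hD₂.ne_one (sgn1_self i₁) h2⟩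
      have hD := hD₁.mul hD₂
      refine ⟨j₁ * j₂, bv (Sum.inl i₂),
        pres_of_mem (mul_mem_of_sq_mem hs₁ hs₂ hm₁ hm₂) (pres_mul hp₁ hp₂), rt_bv _ _,
        bv_ne_zero _, hD.perp ?_, hD.ne_one (i := i₀) ?_ h2⟩
      · show (sgn1 i₀ i₂ : F) * sgn1 i₁ i₂ = 1
        rw [sgn1_ne h20, sgn1_ne h21, mul_one]
      · show (sgn1 i₀ i₀ : F) * sgn1 i₁ i₀ = -1
        rw [sgn1_self, sgn1_ne h01, mul_one]
  obtain ⟨u₀, c₀, w, hu₀, hu₀0, hw, hcom⟩ :=
    common_of_pres hH hHS k₀ hA hh hj1 hw₀ hw₀0 hjw hjne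
  apply mem_sub_one_of_maps F₀ k₀
  intro x hx
  exact maps_of_common (by omega) hH hHS k₀ hA hh hu₀ hu₀0 hw hcom x hx

/-- **the subfield subgroup (standard rational structure) is maximal in `Sp_2m(F)`** -/
theorem sub_sp_max_one [Fintype F] (hm : 7 ≤ m) (F₀ : Subfield F)
    (hmax : ∀ K : Subfield F, F₀ ≤ K → K = F₀ ∨ K = ⊤) (hne : F₀ ≠ ⊤) :
    Cfsg.Geo.IsMaximalIn (spGL m F)
      (Cfsg.Geo.subfieldSubgroup F₀ (1 : GL (Fin m ⊕ Fin m) F) ⊓ spGL m F) := by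
  obtain ⟨k₀, hk₀⟩ : ∃ k₀ : Fin m ⊕ Fin m, k₀ = Sum.inl ⟨0, by omega⟩ := ⟨_, rfl⟩
  refine ⟨lt_of_le_of_ne inf_le_right ?_, ?_⟩
  · intro heq
    obtain ⟨a, ha⟩ : ∃ a : F, a ∉ F₀ := by
      by_contra hcon
      push Not at hcon
      exact hne (eq_top_iff.mpr fun x _ => hcon x)
    have hmem : sympTransGL m (bv k₀) a ∈
        Cfsg.Geo.subfieldSubgroup F₀ (1 : GL (Fin m ⊕ Fin m) F) := by
      have h := sympTransGL_mem m (bv k₀ : Fin m ⊕ Fin m → F) a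
      rw [← heq] at h
      exact h.1
    obtain ⟨c, hc, hmaps⟩ := exists_scalar_of_mem_sub F₀ 1 _ hmem
    obtain ⟨v', hv', e1⟩ := hmaps (bv k₀) (rt_bv F₀ k₀)
    obtain ⟨v'', hv'', e2⟩ := hmaps (bv (Sum.swap k₀)) (rt_bv F₀ _)
    rw [one_mulVec', one_mulVec', sympTransGL_mulVec] at e1 e2
    rw [sf_self, mul_zero, zero_smul, add_zero] at e1
    rw [sf_bv_swap] at e2
    have hks : Sum.swap k₀ ≠ k₀ := by cases k₀ <;> simp
    have h1 := congrFun e1 k₀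
    have h2 := congrFun e2 k₀
    rw [bv_apply, if_pos rfl, Pi.smul_apply, smul_eq_mul] at h1
    rw [Pi.add_apply, Pi.smul_apply, Pi.smul_apply, bv_apply, bv_apply, if_neg (Ne.symm hks),
      if_pos rfl, smul_eq_mul, smul_eq_mul, mul_one, zero_add] at h2
    have hc' : c ∈ F₀ := by
      have : c = (v' k₀)⁻¹ := eq_inv_of_mul_eq_one_left h1.symm
      rw [this]
      exact F₀.inv_mem (hv' k₀)
    apply ha
    have h3 : a = sg k₀ * (c * v'' k₀) := by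
      rw [← h2]
      have := sg_mul_self (F := F) k₀
      linear_combination (-a) * this
    rw [h3]
    exact F₀.mul_mem (sg_mem F₀ k₀) (F₀.mul_mem hc' (hv'' k₀))
  · intro M hHM hMK
    have hG : HasRatIso F₀ M := fun g hg hgR =>
      hHM ⟨mem_sub_of_maps F₀ 1 g 1 one_ne_zero (fun u hu =>
        ⟨(g : Matrix (Fin m ⊕ Fin m) (Fin m ⊕ Fin m) F) *ᵥ u, hgR u hu, by
          rw [one_mulVec', one_mulVec', one_smul]⟩), hg⟩
    by_cases hA : Good F₀ M k₀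
    · left
      apply le_antisymm _ hHM
      intro h hh
      exact ⟨mem_sub_of_good (by omega) hG hMK k₀ hA hh, hMK hh⟩
    · right
      unfold Good at hA
      push Not at hA
      obtain ⟨l, γ, δ, hl, hy, hγ⟩ := hA
      exact le_antisymm hMK (sp_le_of_bad (by omega) hmax hG.hasRt hl γ δ hγ hy)

end Invol

end Cfsg.Agent.Lib.Helper13.SubSp
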