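-- helper13: reduction of a general symplectic form-rational structure to the standard one;
-- maximality of the subfield subgroup of Sp.
import Mathlib
import Cfsg.Agent.Lib.Helper13.SubSp5
import Cfsg.Agent.Lib.Helper94.SubGood
import Cfsg.Agent.Lib.Helper99.AltBasis

set_option autoImplicit false

namespace Cfsg.Agent.Lib.Helper13.SubSp

open Matrix Cfsg Cfsg.Geo Cfsg.Agent.Lib.Helper94

section Red

set_option linter.unusedSectionVars false
set_option linter.unusedSimpArgs false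
set_option linter.unusedVariables false

variable {F : Type*} [Field F] {m : ℕ}

/-- embedding of rational vectors. -/
def emb (F₀ : Subfield F) (u : Fin m ⊕ Fin m → F₀) : Fin m ⊕ Fin m → F := fun i => (u i : F)

theorem emb_add (F₀ : Subfield F) (u v : Fin m ⊕ Fin m → F₀) :
    emb F₀ (u + v) = emb F₀ u + emb F₀ v := by
  funext i; simp [emb]

theorem emb_smul (F₀ : Subfield F) (c : F₀) (u : Fin m ⊕ Fin m → F₀) :
    emb F₀ (c • u) = (c : F) • emb F₀ u := by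
  funext i; simp [emb]

theorem rt_emb (F₀ : Subfield F) (u : Fin m ⊕ Fin m → F₀) : Rt F₀ (emb F₀ u) := fun i => (u i).2

theorem vec_eq_sum_bv (x : Fin m ⊕ Fin m → F) :
    x = ∑ l, x l • (bv l : Fin m ⊕ Fin m → F) := by
  funext i
  simp only [Finset.sum_apply, Pi.smul_apply, bv_apply, smul_eq_mul, mul_ite, mul_one, mul_zero,
    Finset.sum_ite_eq, Finset.mem_univ, if_true]

/-- The `F₀`-bilinear form induced by a form-rational structure. -/
noncomputable def ratForm (F₀ : Subfield F) (P : GL (Fin m ⊕ Fin m) F) (ζ : F)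
    (hP : Cfsg.Geo.IsFormRationalStructure (sympForm m F) F₀ ζ P) :
    LinearMap.BilinForm F₀ (Fin m ⊕ Fin m → F₀) :=
  LinearMap.mk₂ F₀ (fun u v => (⟨ζ * sympForm m F
      ((P : Matrix (Fin m ⊕ Fin m) (Fin m ⊕ Fin m) F) *ᵥ emb F₀ u)
      ((P : Matrix (Fin m ⊕ Fin m) (Fin m ⊕ Fin m) F) *ᵥ emb F₀ v),
      hP _ _ (rt_emb F₀ u) (rt_emb F₀ v)⟩ : F₀))
    (by
      intro u u' v; apply Subtype.ext
      simp only [emb_add, Matrix.mulVec_add, sf_add_left, mul_add, Subfield.coe_add])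
    (by
      intro c u v; apply Subtype.ext
      simp only [emb_smul, Matrix.mulVec_smul, sf_smul_left, Subfield.coe_mul, smul_eq_mul]
      ring)
    (by
      intro u v v'; apply Subtype.ext
      simp only [emb_add, Matrix.mulVec_add, sf_add_right, mul_add, Subfield.coe_add])
    (by
      intro c u v; apply Subtype.ext
      simp only [emb_smul, Matrix.mulVec_smul, sf_smul_right, Subfield.coe_mul, smul_eq_mul]
      ring)

theorem ratForm_apply (F₀ : Subfield F) (P : GL (Fin m ⊕ Fin m) F) (ζ : F)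
    (hP : Cfsg.Geo.IsFormRationalStructure (sympForm m F) F₀ ζ P) (u v : Fin m ⊕ Fin m → F₀) :
    ((ratForm F₀ P ζ hP u v : F₀) : F) = ζ * sympForm m F
      ((P : Matrix (Fin m ⊕ Fin m) (Fin m ⊕ Fin m) F) *ᵥ emb F₀ u)
      ((P : Matrix (Fin m ⊕ Fin m) (Fin m ⊕ Fin m) F) *ᵥ emb F₀ v) := rfl

theorem ratForm_alt (F₀ : Subfield F) (P : GL (Fin m ⊕ Fin m) F) (ζ : F)
    (hP : Cfsg.Geo.IsFormRationalStructure (sympForm m F) F₀ ζ P) :
    (ratForm F₀ P ζ hP).IsAlt := by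
  intro u
  apply Subtype.ext
  rw [ratForm_apply, sf_self, mul_zero]
  rfl

theorem ratForm_nondeg (F₀ : Subfield F) (P : GL (Fin m ⊕ Fin m) F) (ζ : F) (hζ : ζ ≠ 0)
    (hP : Cfsg.Geo.IsFormRationalStructure (sympForm m F) F₀ ζ P) (r : Fin m ⊕ Fin m → F₀)
    (h : ∀ v, ratForm F₀ P ζ hP r v = 0) : r = 0 := by
  have h1 : ∀ l, sympForm m F ((P : Matrix (Fin m ⊕ Fin m) (Fin m ⊕ Fin m) F) *ᵥ emb F₀ r)
      ((P : Matrix (Fin m ⊕ Fin m) (Fin m ⊕ Fin m) F) *ᵥ bv l) = 0 := by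
    intro l
    have h2 := congrArg (Subtype.val) (h (Pi.single l 1))
    rw [ratForm_apply] at h2
    have h3 : emb F₀ (Pi.single l 1) = (bv l : Fin m ⊕ Fin m → F) := by
      funext i
      unfold emb bv
      by_cases hi : i = l
      · subst hi; simp
      · simp [Pi.single_apply, hi]
    rw [h3] at h2
    have h4 : ((0 : F₀) : F) = 0 := rfl
    rw [h4] at h2
    rcases mul_eq_zero.mp h2 with h5 | h5
    · exact absurd h5 hζ
    · exact h5
  have h4 : ∀ y, sympForm m F ((P : Matrix (Fin m ⊕ Fin m) (Fin m ⊕ Fin m) F) *ᵥ emb F₀ r) y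
      = 0 := by
    intro y
    have h5 : y = ∑ l, (((P⁻¹ : GL (Fin m ⊕ Fin m) F) : Matrix (Fin m ⊕ Fin m) (Fin m ⊕ Fin m) F)
        *ᵥ y) l • ((P : Matrix (Fin m ⊕ Fin m) (Fin m ⊕ Fin m) F) *ᵥ bv l) := by
      conv_lhs => rw [← gl_mulVec_inv_mulVec P y]
      conv_lhs => rw [vec_eq_sum_bv (((P⁻¹ : GL (Fin m ⊕ Fin m) F) :
        Matrix (Fin m ⊕ Fin m) (Fin m ⊕ Fin m) F) *ᵥ y)]
      rw [Matrix.mulVec_sum]
      apply Finset.sum_congr rfl
      intro l _
      rw [Matrix.mulVec_smul]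
    rw [h5, sf_sum_right]
    apply Finset.sum_eq_zero
    intro l _
    rw [sf_smul_right, h1, mul_zero]
  have h6 : (P : Matrix (Fin m ⊕ Fin m) (Fin m ⊕ Fin m) F) *ᵥ emb F₀ r = 0 := by
    funext k
    have h7 := h4 (bv (Sum.swap k))
    rw [sf_bv_right, Sum.swap_swap] at h7
    rcases mul_eq_zero.mp h7 with h8 | h8
    · exact absurd h8 (sg_ne_zero _)
    · exact h8
  have h7 := gl_injective P h6
  funext i
  apply Subtype.ext
  exact congrFun h7 i

theorem exists_symp_basis (F₀ : Subfield F) (P : GL (Fin m ⊕ Fin m) F) (ζ : F) (hζ : ζ ≠ 0)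
    (hP : Cfsg.Geo.IsFormRationalStructure (sympForm m F) F₀ ζ P) :
    ∃ c : Module.Basis (Fin m ⊕ Fin m) F₀ (Fin m ⊕ Fin m → F₀), ∀ k l,
      ζ * sympForm m F ((P : Matrix (Fin m ⊕ Fin m) (Fin m ⊕ Fin m) F) *ᵥ emb F₀ (c k))
        ((P : Matrix (Fin m ⊕ Fin m) (Fin m ⊕ Fin m) F) *ᵥ emb F₀ (c l))
        = sympForm m F (bv k) (bv l) := by
  obtain ⟨m', k, b, hef, hee, hff, hrad⟩ :=
    Cfsg.Agent.Lib.Helper99.alt_basis (ratForm F₀ P ζ hP) (ratForm_alt F₀ P ζ hP)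
  have hk : k = 0 := by
    by_contra hk
    have : NeZero k := ⟨hk⟩
    have h1 := ratForm_nondeg F₀ P ζ hζ hP (b (Sum.inr 0)) (hrad 0)
    exact b.ne_zero _ h1
  subst hk
  have hm' : m' = m := by
    have h1 := Module.finrank_eq_card_basis b
    rw [Module.finrank_fintype_fun_eq_card] at h1
    simp only [Fintype.card_sum, Fintype.card_fin] at h1
    omega
  subst hm'
  refine ⟨b.reindex ((Equiv.sumEmpty _ _).trans (Equiv.sumComm _ _)), ?_⟩
  have hskew : ∀ u v, ratForm F₀ P ζ hP u v = - ratForm F₀ P ζ hP v u := by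
    intro u v
    rw [(ratForm_alt F₀ P ζ hP).neg_eq]
  intro k l
  rw [← ratForm_apply F₀ P ζ hP, Module.Basis.reindex_apply, Module.Basis.reindex_apply]
  rw [sf_bv_right]
  rcases k with i | i <;> rcases l with j | j
  · have h1 := hff i j
    simp only [Equiv.symm_trans_apply, Equiv.sumComm_symm, Equiv.sumComm_apply, Sum.swap_inl,
      Equiv.sumEmpty_symm_apply, Sum.swap_inr]
    rw [h1]
    simp [bv_apply, sg]
  · have h1 := hef j i
    simp only [Equiv.symm_trans_apply, Equiv.sumComm_symm, Equiv.sumComm_apply, Sum.swap_inl,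
      Equiv.sumEmpty_symm_apply, Sum.swap_inr]
    rw [hskew, h1]
    by_cases hij : j = i
    · subst hij; simp [bv_apply, sg]
    · have hij' : ¬ i = j := fun h => hij h.symm
      simp [bv_apply, sg, hij, hij']
  · have h1 := hef i j
    simp only [Equiv.symm_trans_apply, Equiv.sumComm_symm, Equiv.sumComm_apply, Sum.swap_inl,
      Equiv.sumEmpty_symm_apply, Sum.swap_inr]
    rw [h1]
    by_cases hij : i = j
    · subst hij; simp [bv_apply, sg]
    · have hij' : ¬ j = i := fun h => hij h.symm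
      simp [bv_apply, sg, hij, hij']
  · have h1 := hee i j
    simp only [Equiv.symm_trans_apply, Equiv.sumComm_symm, Equiv.sumComm_apply, Sum.swap_inl,
      Equiv.sumEmpty_symm_apply, Sum.swap_inr]
    rw [h1]
    simp [bv_apply, sg]

theorem exists_similitude (F₀ : Subfield F) (P : GL (Fin m ⊕ Fin m) F) (ζ : F) (hζ : ζ ≠ 0)
    (hP : Cfsg.Geo.IsFormRationalStructure (sympForm m F) F₀ ζ P) :
    ∃ P' : GL (Fin m ⊕ Fin m) F,
      (∀ x y, ζ * sympForm m F ((P' : Matrix (Fin m ⊕ Fin m) (Fin m ⊕ Fin m) F) *ᵥ x)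
        ((P' : Matrix (Fin m ⊕ Fin m) (Fin m ⊕ Fin m) F) *ᵥ y) = sympForm m F x y) ∧
      Cfsg.Geo.subfieldSubgroup F₀ P' = Cfsg.Geo.subfieldSubgroup F₀ P := by
  obtain ⟨c, hc⟩ := exists_symp_basis F₀ P ζ hζ hP
  obtain ⟨C, hCdef⟩ : ∃ C : Matrix (Fin m ⊕ Fin m) (Fin m ⊕ Fin m) F,
      C = Matrix.of fun i l => ((c l i : F₀) : F) := ⟨_, rfl⟩
  have hCbv : ∀ l, C *ᵥ (bv l : Fin m ⊕ Fin m → F) = emb F₀ (c l) := by
    intro l
    funext i
    simp [hCdef, Matrix.mulVec, dotProduct, bv_apply, emb]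
  have hCx : ∀ x : Fin m ⊕ Fin m → F, C *ᵥ x = ∑ l, x l • emb F₀ (c l) := by
    intro x
    conv_lhs => rw [vec_eq_sum_bv x]
    rw [Matrix.mulVec_sum]
    apply Finset.sum_congr rfl
    intro l _
    rw [Matrix.mulVec_smul, hCbv]
  obtain ⟨Q, hQdef⟩ : ∃ Q : Matrix (Fin m ⊕ Fin m) (Fin m ⊕ Fin m) F,
      Q = (P : Matrix (Fin m ⊕ Fin m) (Fin m ⊕ Fin m) F) * C := ⟨_, rfl⟩
  have hQx : ∀ x : Fin m ⊕ Fin m → F, Q *ᵥ x = ∑ l, x l •
      ((P : Matrix (Fin m ⊕ Fin m) (Fin m ⊕ Fin m) F) *ᵥ emb F₀ (c l)) := by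
    intro x
    rw [hQdef, ← Matrix.mulVec_mulVec, hCx, Matrix.mulVec_sum]
    apply Finset.sum_congr rfl
    intro l _
    rw [Matrix.mulVec_smul]
  have hQ : ∀ x y, ζ * sympForm m F (Q *ᵥ x) (Q *ᵥ y) = sympForm m F x y := by
    intro x y
    rw [hQx x, hQx y]
    conv_rhs => rw [vec_eq_sum_bv x, vec_eq_sum_bv y]
    simp only [sf_sum_left, sf_sum_right, sf_smul_left, sf_smul_right, Finset.mul_sum]
    apply Finset.sum_congr rfl
    intro k _
    apply Finset.sum_congr rfl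
    intro l _
    rw [← hc]
    ring
  have hinj : Function.Injective Q.mulVec := by
    intro x x' hxx
    have h1 : Q *ᵥ (x - x') = 0 := by
      rw [Matrix.mulVec_sub]
      exact sub_eq_zero.mpr hxx
    have h2 : x - x' = 0 := by
      funext k
      have h3 := hQ (x - x') (bv (Sum.swap k))
      rw [h1, sf_zero_left, mul_zero, sf_bv_right, Sum.swap_swap] at h3
      rcases mul_eq_zero.mp h3.symm with h8 | h8
      · exact absurd h8 (sg_ne_zero _)
      · exact h8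
    exact sub_eq_zero.mp h2
  have hunit : IsUnit Q := Matrix.mulVec_injective_iff_isUnit.mp hinj
  obtain ⟨P', hP'⟩ := hunit
  refine ⟨P', ?_, ?_⟩
  · intro x y
    rw [hP']
    exact hQ x y
  · apply sub_eq_of_rat
    · intro u hu
      refine ⟨C *ᵥ u, ?_, ?_⟩
      · intro i
        rw [hCdef]
        simp only [Matrix.mulVec, dotProduct, Matrix.of_apply]
        exact F₀.sum_mem fun l _ => F₀.mul_mem (c l i).2 (hu l)
      · rw [hP', hQdef, Matrix.mulVec_mulVec]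
    · intro u hu
      obtain ⟨u₀, hu₀⟩ : ∃ u₀ : Fin m ⊕ Fin m → F₀, u₀ = fun i => ⟨u i, hu i⟩ := ⟨_, rfl⟩
      refine ⟨fun l => ((c.repr u₀ l : F₀) : F), fun l => (c.repr u₀ l).2, ?_⟩
      rw [hP', hQdef, ← Matrix.mulVec_mulVec]
      congr 1
      rw [hCx]
      funext i
      have h1 := congrFun (c.sum_repr u₀) i
      have h2 : u i = ((u₀ i : F₀) : F) := by rw [hu₀]
      rw [h2, ← h1]
      simp [emb, Finset.sum_apply]

theorem sub_sp_max [Fintype F] (hm : 7 ≤ m) (F₀ : Subfield F) (r : ℕ) (hr : r.Prime)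
    (hcard : Fintype.card F = Nat.card F₀ ^ r) (P : GL (Fin m ⊕ Fin m) F) (ζ : F) (hζ : ζ ≠ 0)
    (hP : Cfsg.Geo.IsFormRationalStructure (sympForm m F) F₀ ζ P) :
    Cfsg.Geo.IsMaximalIn (spGL m F) (Cfsg.Geo.subfieldSubgroup F₀ P ⊓ spGL m F) := by
  obtain ⟨hmax, hne⟩ := Cfsg.Agent.Lib.Helper94.Subf.subfield_max_of_card F₀ r hr hcard
  obtain ⟨P', hsim, hsub⟩ := exists_similitude F₀ P ζ hζ hP
  have h1 := Cfsg.Agent.Lib.Helper94.Subf.isMaximalIn_map (MulAut.conj P')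
    (sub_sp_max_one hm F₀ hmax hne)
  have hsim' : ∀ w z, sympForm m F
      (((P'⁻¹ : GL (Fin m ⊕ Fin m) F) : Matrix (Fin m ⊕ Fin m) (Fin m ⊕ Fin m) F) *ᵥ w)
      (((P'⁻¹ : GL (Fin m ⊕ Fin m) F) : Matrix (Fin m ⊕ Fin m) (Fin m ⊕ Fin m) F) *ᵥ z)
      = ζ * sympForm m F w z := by
    intro w z
    rw [← hsim, gl_mulVec_inv_mulVec, gl_mulVec_inv_mulVec]
  have hSp : (spGL m F).map (MulAut.conj P').toMonoidHom = spGL m F := by
    ext x
    rw [Subgroup.mem_map_equiv, MulAut.conj_symm_apply, mem_spGL_iff, mem_spGL_iff]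
    constructor
    · intro h u v
      have h2 := h (((P'⁻¹ : GL (Fin m ⊕ Fin m) F) : Matrix (Fin m ⊕ Fin m) (Fin m ⊕ Fin m) F)
        *ᵥ u) (((P'⁻¹ : GL (Fin m ⊕ Fin m) F) : Matrix (Fin m ⊕ Fin m) (Fin m ⊕ Fin m) F) *ᵥ v)
      rw [gl_mul_mulVec, gl_mul_mulVec, gl_mul_mulVec, gl_mul_mulVec, gl_mulVec_inv_mulVec,
        gl_mulVec_inv_mulVec, hsim', hsim'] at h2
      exact mul_left_cancel₀ hζ h2
    · intro h u v
      rw [gl_mul_mulVec, gl_mul_mulVec, gl_mul_mulVec, gl_mul_mulVec, hsim', h, hsim]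
  have hone : ∀ S : Subgroup (GL (Fin m ⊕ Fin m) F),
      S.map (MulAut.conj (1 : GL (Fin m ⊕ Fin m) F)).toMonoidHom = S := by
    intro S
    ext x
    rw [Subgroup.mem_map_equiv, map_one]
    rfl
  have hsub1 : (Cfsg.Geo.subfieldSubgroup F₀ (1 : GL (Fin m ⊕ Fin m) F)).map
      (MulAut.conj P').toMonoidHom = Cfsg.Geo.subfieldSubgroup F₀ P' := by
    unfold Cfsg.Geo.subfieldSubgroup
    rw [hone]
  rw [Subgroup.map_inf _ _ _ (MulAut.conj P').injective, hSp, hsub1, hsub] at h1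
  exact h1

end Red

end Cfsg.Agent.Lib.Helper13.SubSp
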