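-- helper13: classification of symmetric bilinear forms over finite fields of odd characteristic.
import Mathlib

set_option autoImplicit false

namespace Cfsg.Agent.Lib.Helper13

open Module LinearMap

universe u v

theorem ringChar_ne_two_of_two_ne_zero {F : Type u} [Field F] (h2 : (2 : F) ≠ 0) :
    ringChar F ≠ 2 := by
  intro h
  apply h2
  have := CharP.cast_eq_zero F (ringChar F)
  rw [h] at this
  exact_mod_cast this

/-- `a x² + b y² = 1` is solvable over a finite field of odd characteristic. -/
theorem exists_sq_add_sq_eq_one {F : Type u} [Field F] [Finite F] (h2 : (2 : F) ≠ 0) {a b : F}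
    (ha : a ≠ 0) (hb : b ≠ 0) : ∃ x y : F, a * x ^ 2 + b * y ^ 2 = 1 := by
  classical
  have := Fintype.ofFinite F
  open Polynomial in
  have hf : degree (C a * X ^ 2 : F[X]) = 2 := degree_C_mul_X_pow 2 ha
  open Polynomial in
  have hg : degree (C b * X ^ 2 - C 1 : F[X]) = 2 := by
    rw [degree_sub_C]
    · exact degree_C_mul_X_pow 2 hb
    · rw [degree_C_mul_X_pow 2 hb]
      decide
  obtain ⟨x, y, hxy⟩ := FiniteField.exists_root_sum_quadratic hf hg
    (FiniteField.odd_card_of_char_ne_two (ringChar_ne_two_of_two_ne_zero h2))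
  refine ⟨x, y, ?_⟩
  simp only [Polynomial.eval_mul, Polynomial.eval_C, Polynomial.eval_pow, Polynomial.eval_X,
    Polynomial.eval_sub] at hxy
  linear_combination hxy

/-- the product of two non-squares is a square (stated with a quotient). -/
theorem isSquare_div_of_not_isSquare {F : Type u} [Field F] [Finite F] (h2 : (2 : F) ≠ 0)
    {d α : F} (hd : ¬ IsSquare d) (hα : ¬ IsSquare α) : IsSquare (d / α) := by
  classical
  have := Fintype.ofFinite F
  have hF := ringChar_ne_two_of_two_ne_zero h2
  have hd0 : d ≠ 0 := by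
    rintro rfl
    exact hd ⟨0, by simp⟩
  have hα0 : α ≠ 0 := by
    rintro rfl
    exact hα ⟨0, by simp⟩
  rw [FiniteField.isSquare_iff hF (div_ne_zero hd0 hα0), div_pow]
  have h1 : d ^ (Fintype.card F / 2) = -1 := by
    rcases FiniteField.pow_dichotomy hF hd0 with h | h
    · exact absurd ((FiniteField.isSquare_iff hF hd0).mpr h) hd
    · exact h
  have h2' : α ^ (Fintype.card F / 2) = -1 := by
    rcases FiniteField.pow_dichotomy hF hα0 with h | h
    · exact absurd ((FiniteField.isSquare_iff hF hα0).mpr h) hα
    · exact h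
  rw [h1, h2']
  simp

variable {F : Type u} {V : Type v} [Field F] [AddCommGroup V] [Module F V]

theorem bilin_ne_zero_of_nondegenerate [Nontrivial V] {B : LinearMap.BilinForm F V}
    (hB : B.Nondegenerate) : B ≠ 0 := by
  rintro rfl
  obtain ⟨x, hx⟩ := exists_ne (0 : V)
  apply hx
  apply hB.1 x
  intro y
  simp

theorem exists_self_ne_zero [FiniteDimensional F V] (h2 : (2 : F) ≠ 0)
    {B : LinearMap.BilinForm F V} (hS : B.IsSymm) (hB : B.Nondegenerate)
    (hpos : 0 < finrank F V) : ∃ u : V, B u u ≠ 0 := by
  have : Invertible (2 : F) := invertibleOfNonzero h2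
  have : Nontrivial V := Module.finrank_pos_iff.mp hpos
  exact LinearMap.BilinForm.exists_bilinForm_self_ne_zero (bilin_ne_zero_of_nondegenerate hB)
    (LinearMap.BilinForm.isSymm_iff.mp hS)

theorem finrank_orthogonal_span_singleton [FiniteDimensional F V]
    {B : LinearMap.BilinForm F V} {u : V} (hu : B u u ≠ 0) :
    finrank F (B.orthogonal (F ∙ u)) + 1 = finrank F V := by
  have h := Submodule.finrank_add_eq_of_isCompl
    (LinearMap.BilinForm.isCompl_span_singleton_orthogonal hu)
  have hu0 : u ≠ 0 := by
    rintro rfl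
    simp at hu
  rw [finrank_span_singleton hu0] at h
  omega

/-- a nondegenerate symmetric form in dimension at least two represents `1`. -/
theorem exists_self_eq_one [Finite F] [FiniteDimensional F V] (h2 : (2 : F) ≠ 0)
    {B : LinearMap.BilinForm F V} (hS : B.IsSymm) (hB : B.Nondegenerate)
    (hdim : 2 ≤ finrank F V) : ∃ u : V, B u u = 1 := by
  obtain ⟨u₁, hu₁⟩ := exists_self_ne_zero h2 hS hB (by omega)
  have hB₁ := LinearMap.BilinForm.restrict_nondegenerate_orthogonal_spanSingleton B hB hS.isRefl hu₁
  have hS₁ : (B.restrict (B.orthogonal (F ∙ u₁))).IsSymm := hS.restrict _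
  have hrank := finrank_orthogonal_span_singleton hu₁
  obtain ⟨u₂, hu₂⟩ := exists_self_ne_zero h2 hS₁ hB₁ (by omega)
  have hu₂' : B (u₂ : V) (u₂ : V) ≠ 0 := hu₂
  obtain ⟨x, y, hxy⟩ := exists_sq_add_sq_eq_one h2 hu₁ hu₂'
  have h12 : B u₁ (u₂ : V) = 0 :=
    (LinearMap.BilinForm.mem_orthogonal_iff.mp u₂.2) u₁ (Submodule.mem_span_singleton_self u₁)
  have h21 : B (u₂ : V) u₁ = 0 := by
    rw [← hS.eq]
    simpa using h12
  refine ⟨x • u₁ + y • (u₂ : V), ?_⟩
  simp only [map_add, map_smul, LinearMap.add_apply, LinearMap.smul_apply, smul_eq_mul, h12, h21]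
  linear_combination hxy

theorem exists_sym_family {F : Type u} [Field F] [Finite F] (h2 : (2 : F) ≠ 0) (α : F)
    (hα : ¬ IsSquare α) (n : ℕ) :
    ∀ (V : Type v) [AddCommGroup V] [Module F V] [FiniteDimensional F V]
      (B : LinearMap.BilinForm F V), B.IsSymm → B.Nondegenerate → finrank F V = n + 1 →
      ∃ w : Fin (n + 1) → V, (∀ i j, i ≠ j → B (w i) (w j) = 0) ∧
        (∀ i, i ≠ Fin.last n → B (w i) (w i) = 1) ∧
        (B (w (Fin.last n)) (w (Fin.last n)) = 1 ∨ B (w (Fin.last n)) (w (Fin.last n)) = α) := by
  induction n with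
  | zero =>
    intro V _ _ _ B hS hB hdim
    have hss : Subsingleton (Fin (0 + 1)) := (inferInstance : Subsingleton (Fin 1))
    obtain ⟨u, hu⟩ := exists_self_ne_zero h2 hS hB (by omega)
    by_cases hd : IsSquare (B u u)
    · obtain ⟨c, hc⟩ := hd
      have hc0 : c ≠ 0 := by
        rintro rfl
        apply hu
        rw [hc, mul_zero]
      refine ⟨fun _ => c⁻¹ • u, fun i j hij => absurd (Subsingleton.elim i j) hij,
        fun i hi => absurd (Subsingleton.elim i _) hi, Or.inl ?_⟩
      simp only [map_smul, LinearMap.smul_apply, smul_eq_mul]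
      rw [hc]
      field_simp
    · obtain ⟨c, hc⟩ := isSquare_div_of_not_isSquare h2 hd hα
      have hα0 : α ≠ 0 := by
        rintro rfl
        exact hα ⟨0, by simp⟩
      have hc0 : c ≠ 0 := by
        rintro rfl
        rw [mul_zero, div_eq_zero_iff] at hc
        rcases hc with hc | hc
        · exact hu hc
        · exact hα0 hc
      have hd' : B u u = α * (c * c) := by
        rw [← hc]
        field_simp
      refine ⟨fun _ => c⁻¹ • u, fun i j hij => absurd (Subsingleton.elim i j) hij,
        fun i hi => absurd (Subsingleton.elim i _) hi, Or.inr ?_⟩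
      simp only [map_smul, LinearMap.smul_apply, smul_eq_mul]
      rw [hd']
      field_simp
  | succ n ih =>
    intro V _ _ _ B hS hB hdim
    obtain ⟨u, hu⟩ := exists_self_eq_one h2 hS hB (by omega)
    have hu0 : B u u ≠ 0 := by
      rw [hu]
      exact one_ne_zero
    have hB₁ := LinearMap.BilinForm.restrict_nondegenerate_orthogonal_spanSingleton B hB
      hS.isRefl hu0
    have hS₁ : (B.restrict (B.orthogonal (F ∙ u))).IsSymm := hS.restrict _
    have hrank := finrank_orthogonal_span_singleton hu0
    obtain ⟨w, hw1, hw2, hw3⟩ := ih (B.orthogonal (F ∙ u)) (B.restrict (B.orthogonal (F ∙ u)))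
      hS₁ hB₁ (by omega)
    have hperp : ∀ j, B u (w j : V) = 0 := fun j =>
      (LinearMap.BilinForm.mem_orthogonal_iff.mp (w j).2) u (Submodule.mem_span_singleton_self u)
    have hperp' : ∀ j, B (w j : V) u = 0 := by
      intro j
      rw [hS.eq]
      exact hperp j
    refine ⟨Fin.cons u (fun i => (w i : V)), ?_, ?_, ?_⟩
    · intro i j hij
      induction i using Fin.cases with
      | zero =>
        induction j using Fin.cases with
        | zero => exact absurd rfl hij
        | succ j =>
          rw [Fin.cons_zero, Fin.cons_succ]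
          exact hperp j
      | succ i =>
        induction j using Fin.cases with
        | zero =>
          rw [Fin.cons_zero, Fin.cons_succ]
          exact hperp' i
        | succ j =>
          rw [Fin.cons_succ, Fin.cons_succ]
          exact hw1 i j (fun h => hij (by rw [h]))
    · intro i hi
      induction i using Fin.cases with
      | zero =>
        rw [Fin.cons_zero]
        exact hu
      | succ i =>
        rw [Fin.cons_succ]
        apply hw2 i
        intro h
        apply hi
        rw [h, Fin.succ_last]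
    · rw [← Fin.succ_last, Fin.cons_succ]
      exact hw3

/-- Classification of nondegenerate symmetric bilinear forms over a finite field of odd
characteristic. -/
theorem exists_sym_basis {F : Type u} {V : Type v} [Field F] [Finite F] [AddCommGroup V]
    [Module F V] [FiniteDimensional F V] (h2 : (2 : F) ≠ 0) (B : LinearMap.BilinForm F V)
    (hS : B.IsSymm) (hB : B.Nondegenerate) {n : ℕ} (hn : finrank F V = n + 1) (α : F)
    (hα : ¬ IsSquare α) :
    ∃ b : Module.Basis (Fin (n + 1)) F V, (∀ i j, i ≠ j → B (b i) (b j) = 0) ∧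
      (∀ i, i ≠ Fin.last n → B (b i) (b i) = 1) ∧
      (B (b (Fin.last n)) (b (Fin.last n)) = 1 ∨ B (b (Fin.last n)) (b (Fin.last n)) = α) := by
  obtain ⟨w, hw1, hw2, hw3⟩ := exists_sym_family h2 α hα n V B hS hB hn
  have hα0 : α ≠ 0 := by
    rintro rfl
    exact hα ⟨0, by simp⟩
  have hli : LinearIndependent F w := by
    apply LinearMap.BilinForm.linearIndependent_of_iIsOrtho (B := B) hw1
    intro i
    by_cases hi : i = Fin.last n
    · subst hi
      rcases hw3 with h | h
      · rw [h]
        exact one_ne_zero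
      · rw [h]
        exact hα0
    · rw [hw2 i hi]
      exact one_ne_zero
  have hcard : Fintype.card (Fin (n + 1)) = finrank F V := by
    rw [Fintype.card_fin, hn]
  refine ⟨basisOfLinearIndependentOfCardEqFinrank hli hcard, ?_⟩
  rw [coe_basisOfLinearIndependentOfCardEqFinrank]
  exact ⟨hw1, hw2, hw3⟩

end Cfsg.Agent.Lib.Helper13
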